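import Mathlib

/-!
# Counting in the Hall--Higman argument
-/

namespace Cfsg.Agent.Lib.PGroup.HH

/-- Orbits with a common stabilizer. -/
theorem dvd_ncard_act {P Ω : Type*} [Group P] [Finite P] [Finite Ω] (act : P → Ω → Ω) (h1 : ∀ x, act 1 x = x)
    (hm : ∀ g k x, act (g * k) x = act g (act k x)) (T : Set Ω) (hT : ∀ g, ∀ x ∈ T, act g x ∈ T) (S : Subgroup P)
    (hS : ∀ x ∈ T, ∀ g, act g x = x ↔ g ∈ S) : S.index ∣ T.ncard := by
  classical
  letI : MulAction P T :=
    { smul := fun g x => ⟨act g x, hT g x x.2⟩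
      one_smul := fun x => Subtype.ext (h1 x)
      mul_smul := fun g k x => Subtype.ext (hm g k x) }
  haveI : Fintype (MulAction.orbitRel.Quotient P T) := Fintype.ofFinite _
  have h2 : Nat.card T = Nat.card (Σ ω : MulAction.orbitRel.Quotient P T, MulAction.orbit P ω.out) :=
    Nat.card_congr (MulAction.selfEquivSigmaOrbits P T)
  rw [← Nat.card_coe_set_eq, h2, Nat.card_sigma]
  apply Finset.dvd_sum
  intro ω _
  have h3 : MulAction.stabilizer P ω.out = S := by
    ext g
    rw [MulAction.mem_stabilizer_iff, ← hS _ ω.out.2 g]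
    exact Subtype.ext_iff
  rw [← h3, MulAction.index_stabilizer, Nat.card_coe_set_eq]

/-- A semiregular permutation. -/
theorem dvd_card_sub_one {X : Type*} [Finite X] (π : Equiv.Perm X) (x₀ : X) {K : ℕ} (hK : 0 < K)
    (h1 : ∀ x, (π ^ K) x = x) (h2 : π x₀ = x₀) (h3 : ∀ x, x ≠ x₀ → ∀ i, 0 < i → i < K → (π ^ i) x ≠ x) :
    K ∣ Nat.card X - 1 := by
  classical
  by_cases hX : ∃ x, x ≠ x₀
  · obtain ⟨x₁, hx₁⟩ := hX
    have hpow : π ^ K = 1 := Equiv.ext h1
    have hord : orderOf π = K := by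
      refine (orderOf_eq_iff hK).mpr ⟨hpow, fun i hi hi0 h => ?_⟩
      apply h3 x₁ hx₁ i hi0 hi
      rw [h]; rfl
    let P : Subgroup (Equiv.Perm X) := Subgroup.zpowers π
    have hPcard : Nat.card P = K := by
      rw [Nat.card_zpowers, hord]
    have hx₀fix : ∀ g ∈ P, g x₀ = x₀ := by
      rintro g ⟨j, rfl⟩
      have : π x₀ = x₀ := h2
      have h4 : Function.IsFixedPt π x₀ := this
      exact (Equiv.Perm.zpow_apply_eq_self_of_apply_eq_self this j)
    have hfree : ∀ g ∈ P, ∀ x, x ≠ x₀ → g x = x → g = 1 := by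
      intro g hg x hx hgx
      have hg' : g ∈ Subgroup.zpowers π := hg
      rw [mem_zpowers_iff_mem_range_orderOf, Finset.mem_image] at hg'
      obtain ⟨i, hi, rfl⟩ := hg'
      rw [Finset.mem_range, hord] at hi
      by_cases hi0 : i = 0
      · rw [hi0, pow_zero]
      · exact absurd hgx (h3 x hx i (Nat.pos_of_ne_zero hi0) hi)
    have hd := dvd_ncard_act (P := P) (Ω := X) (fun g x => (g : Equiv.Perm X) x) (fun x => rfl)
      (fun g k x => rfl) ({x₀}ᶜ) (by
        intro g x hx hgx
        apply hx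
        have hgx' : (g : Equiv.Perm X) x = x₀ := hgx
        have := hx₀fix g.1 g.2
        exact (g : Equiv.Perm X).injective (hgx'.trans this.symm)) ⊥ (by
        intro x hx g
        rw [Subgroup.mem_bot]
        constructor
        · intro h
          exact Subtype.ext (hfree g.1 g.2 x hx h)
        · rintro rfl
          rfl)
    rw [Subgroup.index_bot, hPcard] at hd
    have e := Set.ncard_add_ncard_compl ({x₀} : Set X)
    rw [Set.ncard_singleton] at e
    have : Nat.card X - 1 = ({x₀}ᶜ : Set X).ncard := by omega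
    rw [this]
    exact hd
  · push Not at hX
    have hc : Nat.card X = 1 := by
      rw [Nat.card_eq_one_iff_unique]
      exact ⟨⟨fun a b => by rw [hX a, hX b]⟩, ⟨x₀⟩⟩
    rw [hc]
    simp

/-- The Hall--Higman arithmetic. -/
theorem arith_main {p m N : ℕ} (hp : p.Prime) (hodd : p ≠ 2 ∨ m = 1) (hm : 0 < m) (hN : 2 ≤ N)
    (hdvd : p ^ m ∣ N ^ 2 - 1) (hle : N ^ 2 ≤ (p ^ m - 1) ^ 2) : N + 1 = p ^ m := by
  have hle' : N ≤ p ^ m - 1 := by
    exact (Nat.pow_le_pow_iff_left (by norm_num)).mp hle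
  have hpm : 0 < p ^ m := pow_pos hp.pos m
  have hlt : N + 1 ≤ p ^ m := by omega
  have hfac : N ^ 2 - 1 = (N - 1) * (N + 1) := by
    obtain ⟨n, rfl⟩ : ∃ n, N = n + 1 := ⟨N - 1, by omega⟩
    simp only [Nat.add_sub_cancel]
    have : (n + 1) ^ 2 = n * (n + 1 + 1) + 1 := by ring
    rw [this]; simp
  rw [hfac] at hdvd
  have hcases : p ^ m ∣ N - 1 ∨ p ^ m ∣ N + 1 := by
    by_cases hp1 : p ∣ N - 1
    · by_cases hp2 : p ∣ N + 1
      · rcases hodd with hodd | hm1
        · exfalso
          have h3 : p ∣ 2 := by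
            have := Nat.dvd_sub hp2 hp1
            have e : N + 1 - (N - 1) = 2 := by omega
            rwa [e] at this
          exact hodd ((Nat.prime_dvd_prime_iff_eq hp Nat.prime_two).mp h3)
        · subst hm1
          left
          simpa using hp1
      · left
        exact ((Nat.Coprime.pow_left m ((Nat.Prime.coprime_iff_not_dvd hp).mpr hp2)).dvd_of_dvd_mul_right hdvd)
    · right
      exact ((Nat.Coprime.pow_left m ((Nat.Prime.coprime_iff_not_dvd hp).mpr hp1)).dvd_of_dvd_mul_left hdvd)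
  rcases hcases with h | h
  · exfalso
    have := Nat.le_of_dvd (by omega) h
    omega
  · have := Nat.le_of_dvd (by omega) h
    omega

end Cfsg.Agent.Lib.PGroup.HH
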