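import Mathlib

/-!
# Eigenvalue multiplicities and commutants: the Cauchy inequality

If `x ^ R = 1` on a finite-dimensional space `W` over a field with a primitive `R`-th root of unity,
and `x` has no nonzero fixed vector, then `(dim W)² ≤ (R - 1) * dim C_{End W}(x)`.
-/

namespace Cfsg.Agent.Lib.PGroup.HH

open scoped BigOperators

variable {F W : Type*} [Field F] [AddCommGroup W] [Module F W]

/-- The commutant of an operator. -/
def Cx (x : Module.End F W) : Submodule F (Module.End F W) where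
  carrier := {f | f * x = x * f}
  add_mem' := by
    intro a b ha hb
    simp only [Set.mem_setOf_eq] at ha hb ⊢
    rw [add_mul, mul_add, ha, hb]
  zero_mem' := by simp
  smul_mem' := by
    intro c a ha
    simp only [Set.mem_setOf_eq] at ha ⊢
    rw [smul_mul_assoc, mul_smul_comm, ha]

theorem mem_Cx {x f : Module.End F W} : f ∈ Cx x ↔ f * x = x * f := Iff.rfl

/-- The spectral projector. -/
noncomputable def prj (R : ℕ) (x : Module.End F W) (μ : F) : Module.End F W :=
  (R : F)⁻¹ • ∑ t ∈ Finset.range R, (μ⁻¹) ^ t • x ^ t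

theorem geom_zero {R : ℕ} {μ : F} (hμ : μ ^ R = 1) (hne : μ ≠ 1) : ∑ t ∈ Finset.range R, μ ^ t = 0 := by
  have := geom_sum_mul μ R
  rw [hμ, sub_self] at this
  exact (mul_eq_zero.mp this).resolve_right (sub_ne_zero.mpr hne)

theorem shift_sum {M : Type*} [AddCommMonoid M] [IsCancelAdd M] (g : ℕ → M) (R : ℕ) (h : g R = g 0) :
    ∑ t ∈ Finset.range R, g (t + 1) = ∑ t ∈ Finset.range R, g t := by
  have h1 := Finset.sum_range_succ g R
  have h2 := Finset.sum_range_succ' g R
  rw [h1, h] at h2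
  exact (add_right_cancel h2).symm

theorem ne_zero_of_pow_eq_one {R : ℕ} (hR : (R : F) ≠ 0) {μ : F} (hμ : μ ^ R = 1) : μ ≠ 0 := by
  rintro rfl
  have hR0 : R ≠ 0 := by
    rintro rfl
    simp at hR
  rw [zero_pow hR0] at hμ
  exact zero_ne_one hμ

theorem x_mul_prj {R : ℕ} (hR : (R : F) ≠ 0) {x : Module.End F W} (hx : x ^ R = 1) {μ : F} (hμ : μ ^ R = 1) :
    x * prj R x μ = μ • prj R x μ := by
  have hμ0 : μ ≠ 0 := ne_zero_of_pow_eq_one hR hμ
  unfold prj
  rw [mul_smul_comm, smul_comm]
  congr 1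
  rw [Finset.mul_sum, Finset.smul_sum]
  have h1 : ∀ t, x * ((μ⁻¹) ^ t • x ^ t) = μ • ((μ⁻¹) ^ (t + 1) • x ^ (t + 1)) := by
    intro t
    rw [mul_smul_comm, smul_smul, pow_succ' (μ⁻¹), ← mul_assoc, mul_inv_cancel₀ hμ0, one_mul, pow_succ']
  simp only [h1]
  have := shift_sum (fun t => μ • ((μ⁻¹) ^ t • x ^ t)) R (by simp [hx, hμ, inv_pow])
  exact this

theorem prj_mul_x {R : ℕ} (x : Module.End F W) (μ : F) : prj R x μ * x = x * prj R x μ := by
  unfold prj
  rw [smul_mul_assoc, mul_smul_comm]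
  congr 1
  rw [Finset.sum_mul, Finset.mul_sum]
  refine Finset.sum_congr rfl fun t _ => ?_
  rw [smul_mul_assoc, mul_smul_comm]
  congr 1
  exact (pow_succ x t).symm.trans (pow_succ' x t)

open Classical in
theorem prj_apply_eig {R : ℕ} (hR : (R : F) ≠ 0) {x : Module.End F W} {μ l : F} (hμ : μ ^ R = 1)
    (hl : l ^ R = 1) {v : W} (hv : x v = l • v) : prj R x μ v = if l = μ then v else 0 := by
  have hμ0 : μ ≠ 0 := ne_zero_of_pow_eq_one hR hμ
  have hpow : ∀ t : ℕ, (x ^ t) v = l ^ t • v := by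
    intro t
    induction t with
    | zero => simp
    | succ t ih =>
      rw [pow_succ, Module.End.mul_apply, hv, map_smul, ih, smul_smul, pow_succ, mul_comm]
  have h1 : prj R x μ v = (R : F)⁻¹ • (∑ t ∈ Finset.range R, (μ⁻¹ * l) ^ t) • v := by
    unfold prj
    rw [LinearMap.smul_apply, LinearMap.sum_apply, Finset.sum_smul]
    congr 1
    refine Finset.sum_congr rfl fun t _ => ?_
    rw [LinearMap.smul_apply, hpow, smul_smul, mul_pow]
  rw [h1]
  by_cases hlμ : l = μ
  · rw [if_pos hlμ, hlμ, inv_mul_cancel₀ hμ0]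
    simp [smul_smul, inv_mul_cancel₀ hR]
  · rw [if_neg hlμ, geom_zero, zero_smul, smul_zero]
    · rw [mul_pow, hl, inv_pow, hμ, inv_one, mul_one]
    · intro h
      apply hlμ
      field_simp at h
      exact h

theorem sum_prj {R : ℕ} (hR : (R : F) ≠ 0) {ω : F} (hω : IsPrimitiveRoot ω R) (x : Module.End F W) :
    ∑ i ∈ Finset.range R, prj R x (ω ^ i) = 1 := by
  unfold prj
  rw [← Finset.smul_sum, Finset.sum_comm]
  have h1 : ∀ t ∈ Finset.range R, ∑ i ∈ Finset.range R, ((ω ^ i)⁻¹) ^ t • x ^ t =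
      (if t = 0 then (R : F) else 0) • x ^ t := by
    intro t ht
    rw [← Finset.sum_smul]
    congr 1
    by_cases h0 : t = 0
    · subst h0
      simp
    · rw [if_neg h0]
      have e : ∀ i, ((ω ^ i)⁻¹) ^ t = ((ω ^ t)⁻¹) ^ i := by
        intro i
        rw [inv_pow, inv_pow, ← pow_mul, ← pow_mul, mul_comm]
      simp only [e]
      apply geom_zero
      · rw [inv_pow, ← pow_mul, mul_comm, pow_mul, hω.pow_eq_one, one_pow, inv_one]
      · intro h
        have : ω ^ t = 1 := by
          rw [inv_eq_one] at h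
          exact h
        have hd := hω.dvd_of_pow_eq_one t this
        exact h0 (Nat.eq_zero_of_dvd_of_lt hd (Finset.mem_range.mp ht))
  rw [Finset.sum_congr rfl h1]
  have hpos : 0 < R := by
    rcases Nat.eq_zero_or_pos R with rfl | h
    · simp at hR
    · exact h
  rw [Finset.sum_eq_single 0]
  · simp [smul_smul, inv_mul_cancel₀ hR]
  · intro b _ hb
    rw [if_neg hb, zero_smul]
  · intro h
    exact absurd (Finset.mem_range.mpr hpos) h

/-- The eigenspace. -/
noncomputable def Wi (x : Module.End F W) (l : F) : Submodule F W := LinearMap.ker (x - l • (1 : Module.End F W))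

theorem mem_Wi {x : Module.End F W} {l : F} {v : W} : v ∈ Wi x l ↔ x v = l • v := by
  unfold Wi
  rw [LinearMap.mem_ker, LinearMap.sub_apply, sub_eq_zero]
  rfl

theorem prj_mem {R : ℕ} (hR : (R : F) ≠ 0) {x : Module.End F W} (hx : x ^ R = 1) {μ : F} (hμ : μ ^ R = 1)
    (v : W) : prj R x μ v ∈ Wi x μ := by
  rw [mem_Wi]
  have := congrArg (fun f : Module.End F W => f v) (x_mul_prj hR hx hμ)
  exact this

variable [FiniteDimensional F W]

/-- The key inequality. -/
theorem sq_le {R : ℕ} (hR : (R : F) ≠ 0) {ω : F} (hω : IsPrimitiveRoot ω R) {x : Module.End F W}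
    (hx : x ^ R = 1) (hfree : ∀ v, x v = v → v = 0) :
    (Module.finrank F W) ^ 2 ≤ (R - 1) * Module.finrank F (Cx x) := by
  classical
  have hpos : 0 < R := by
    rcases Nat.eq_zero_or_pos R with rfl | h
    · simp at hR
    · exact h
  have hωi : ∀ i : ℕ, (ω ^ i) ^ R = 1 := fun i => by
    rw [← pow_mul, mul_comm, pow_mul, hω.pow_eq_one, one_pow]
  set m : ℕ → ℕ := fun i => Module.finrank F (Wi x (ω ^ i)) with hm
  have hm0 : m 0 = 0 := by
    have : Wi x (ω ^ 0) = ⊥ := by
      rw [eq_bot_iff]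
      intro v hv
      rw [mem_Wi, pow_zero, one_smul] at hv
      exact hfree v hv
    simp only [hm]
    rw [this]
    simp
  -- the sum of dimensions dominates the dimension
  let PW : ∀ i : ℕ, W →ₗ[F] Wi x (ω ^ i) := fun i =>
    (prj R x (ω ^ i)).codRestrict (Wi x (ω ^ i)) (prj_mem hR hx (hωi i))
  have hPW : ∀ i v, ((PW i v : Wi x (ω ^ i)) : W) = prj R x (ω ^ i) v := fun _ _ => rfl
  have h1 : Module.finrank F W ≤ ∑ i ∈ Finset.range R, m i := by
    let Φ : W →ₗ[F] (∀ i : Fin R, Wi x (ω ^ (i : ℕ))) := LinearMap.pi fun i => PW i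
    have hinj : Function.Injective Φ := by
      rw [← LinearMap.ker_eq_bot, eq_bot_iff]
      intro v hv
      rw [LinearMap.mem_ker] at hv
      rw [Submodule.mem_bot]
      have h2 : ∀ i : Fin R, prj R x (ω ^ (i : ℕ)) v = 0 := by
        intro i
        have := congrFun hv i
        exact congrArg Subtype.val this
      have h3 := congrArg (fun f : Module.End F W => f v) (sum_prj hR hω x)
      simp only [LinearMap.sum_apply, Module.End.one_apply] at h3
      rw [← h3, Finset.sum_range]
      exact Finset.sum_eq_zero fun i _ => h2 i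
    have := LinearMap.finrank_le_finrank_of_injective hinj
    rw [Module.finrank_pi_fintype] at this
    rwa [← Fin.sum_univ_eq_sum_range (fun i => m i) R]
  -- the sum of squares is dominated by the commutant
  have h2 : ∑ i ∈ Finset.range R, (m i) ^ 2 ≤ Module.finrank F (Cx x) := by
    let comp : ∀ i : Fin R, Module.End F (Wi x (ω ^ (i : ℕ))) →ₗ[F] Module.End F W := fun i =>
      { toFun := fun f => (Submodule.subtype _) ∘ₗ f ∘ₗ PW i
        map_add' := by
          intro f g
          ext v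
          simp
        map_smul' := by
          intro c f
          ext v
          simp }
    have hcomp : ∀ (i : Fin R) (f : Module.End F (Wi x (ω ^ (i : ℕ)))) (v : W),
        comp i f v = ((f (PW i v) : Wi x (ω ^ (i : ℕ))) : W) := fun _ _ _ => rfl
    let Λ₀ : (∀ i : Fin R, Module.End F (Wi x (ω ^ (i : ℕ)))) →ₗ[F] Module.End F W :=
      ∑ i : Fin R, (comp i) ∘ₗ LinearMap.proj i
    have hΛ₀ : ∀ (f : ∀ i : Fin R, Module.End F (Wi x (ω ^ (i : ℕ)))) (v : W),
        Λ₀ f v = ∑ i : Fin R, ((f i (PW i v) : Wi x (ω ^ (i : ℕ))) : W) := by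
      intro f v
      simp only [Λ₀, LinearMap.sum_apply, LinearMap.comp_apply, LinearMap.proj_apply]
      rfl
    have hPi : ∀ (i j : Fin R) (w : W), w ∈ Wi x (ω ^ (j : ℕ)) → i ≠ j → PW i w = 0 := by
      intro i j w hw hij
      apply Subtype.ext
      rw [hPW, prj_apply_eig hR (hωi i) (hωi j) (mem_Wi.mp hw)]
      rw [if_neg]
      · rfl
      · intro h
        exact hij (Fin.ext (hω.pow_inj i.2 j.2 h.symm))
    have hPj : ∀ (j : Fin R) (w : Wi x (ω ^ (j : ℕ))), PW j (w : W) = w := by
      intro j w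
      apply Subtype.ext
      rw [hPW, prj_apply_eig hR (hωi j) (hωi j) (mem_Wi.mp w.2), if_pos rfl]
    have hmem : ∀ f, Λ₀ f ∈ Cx x := by
      intro f
      rw [mem_Cx]
      ext v
      rw [Module.End.mul_apply, Module.End.mul_apply, hΛ₀, hΛ₀, map_sum]
      refine Finset.sum_congr rfl fun i _ => ?_
      have h3 : PW i (x v) = (ω ^ (i : ℕ)) • PW i v := by
        apply Subtype.ext
        rw [hPW]
        show prj R x (ω ^ (i : ℕ)) (x v) = (ω ^ (i : ℕ)) • prj R x (ω ^ (i : ℕ)) v
        have h4 : (prj R x (ω ^ (i : ℕ)) * x) = (ω ^ (i : ℕ)) • prj R x (ω ^ (i : ℕ)) := by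
          rw [prj_mul_x, x_mul_prj hR hx (hωi i)]
        exact congrArg (fun g : Module.End F W => g v) h4
      rw [h3, map_smul]
      exact (mem_Wi.mp (f i (PW i v)).2).symm
    let Λ : (∀ i : Fin R, Module.End F (Wi x (ω ^ (i : ℕ)))) →ₗ[F] Cx x :=
      LinearMap.codRestrict (Cx x) Λ₀ hmem
    have hinj : Function.Injective Λ := by
      rw [← LinearMap.ker_eq_bot, eq_bot_iff]
      intro f hf
      rw [LinearMap.mem_ker] at hf
      rw [Submodule.mem_bot]
      have h0 : Λ₀ f = 0 := congrArg Subtype.val hf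
      funext j
      refine LinearMap.ext fun w => ?_
      apply Subtype.ext
      have h1 := congrArg (fun g : Module.End F W => g (w : W)) h0
      simp only [LinearMap.zero_apply] at h1
      rw [hΛ₀, Finset.sum_eq_single j] at h1
      · rw [hPj] at h1
        exact h1
      · intro i _ hij
        rw [hPi i j w w.2 hij, map_zero]
        rfl
      · intro h
        exact absurd (Finset.mem_univ j) h
    have := LinearMap.finrank_le_finrank_of_injective hinj
    rw [Module.finrank_pi_fintype] at this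
    have e : ∀ i : Fin R, Module.finrank F (Module.End F (Wi x (ω ^ (i : ℕ)))) = (m i) ^ 2 := by
      intro i
      rw [Module.finrank_linearMap, sq]
    simp only [e] at this
    rwa [← Fin.sum_univ_eq_sum_range (fun i => (m i) ^ 2) R]
  -- Cauchy--Schwarz
  set s := (Finset.range R).erase 0 with hs
  have hcard : s.card = R - 1 := by
    rw [hs, Finset.card_erase_of_mem (Finset.mem_range.mpr hpos), Finset.card_range]
  have h3 : ∑ i ∈ Finset.range R, m i = ∑ i ∈ s, m i := by
    rw [← Finset.add_sum_erase _ _ (Finset.mem_range.mpr hpos), hm0, zero_add]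
  have h4 : ∑ i ∈ s, (m i) ^ 2 ≤ ∑ i ∈ Finset.range R, (m i) ^ 2 :=
    Finset.sum_le_sum_of_subset (Finset.erase_subset _ _)
  have h5 : (∑ i ∈ s, m i) ^ 2 ≤ s.card * ∑ i ∈ s, (m i) ^ 2 := sq_sum_le_card_mul_sum_sq
  calc (Module.finrank F W) ^ 2 ≤ (∑ i ∈ s, m i) ^ 2 := by
        rw [← h3]
        exact Nat.pow_le_pow_left h1 2
    _ ≤ s.card * ∑ i ∈ s, (m i) ^ 2 := h5
    _ ≤ (R - 1) * Module.finrank F (Cx x) := by
        rw [hcard]
        exact Nat.mul_le_mul_left _ (h4.trans h2)

end Cfsg.Agent.Lib.PGroup.HH
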