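import Mathlib
import Cfsg.Agent.Lib.PGroup.HHEig

/-!
# The Hall--Higman dimension estimate

Let `Q` act on `W` with commutators acting as scalars.  If `x` with `x ^ R = 1` normalizes the action,
has no nonzero fixed vector, and permutes the nontrivial elements of `Q / N` in regular orbits,
then `|Q / N| ≤ (R - 1) ^ 2`.
-/

namespace Cfsg.Agent.Lib.PGroup.HH

open scoped BigOperators

variable {F W Q : Type*} [Field F] [AddCommGroup W] [Module F W] [Group Q]

/-- Commutators act as the scalars `β`. -/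
def IsCom (ρ : Q →* Module.End F W) (β : Q → Q → F) : Prop :=
  ∀ h g, ρ h * ρ g * ρ h⁻¹ = β h g • ρ g

section basic

variable {ρ : Q →* Module.End F W} {β : Q → Q → F}

theorem rho_mul_inv' {M : Type*} [Monoid M] (ρ : Q →* M) (g : Q) : ρ g * ρ g⁻¹ = 1 := by
  rw [← map_mul, mul_inv_cancel, map_one]

theorem rho_inv_mul' {M : Type*} [Monoid M] (ρ : Q →* M) (g : Q) : ρ g⁻¹ * ρ g = 1 := by
  rw [← map_mul, inv_mul_cancel, map_one]

variable [Nontrivial W]

theorem rho_ne_zero (ρ : Q →* Module.End F W) (g : Q) : ρ g ≠ 0 := fun h => by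
  have := rho_mul_inv' ρ g
  rw [h, zero_mul] at this
  exact zero_ne_one this

theorem smul_rho_inj (ρ : Q →* Module.End F W) {a b : F} {g : Q} (h : a • ρ g = b • ρ g) : a = b :=
  smul_left_injective F (rho_ne_zero ρ g) h

variable (hc : IsCom ρ β)
include hc

theorem beta_mul_left (h h' g : Q) : β (h * h') g = β h g * β h' g := by
  apply smul_rho_inj ρ (g := g)
  calc β (h * h') g • ρ g = ρ (h * h') * ρ g * ρ (h * h')⁻¹ := (hc _ _).symm
    _ = ρ h * (ρ h' * ρ g * ρ h'⁻¹) * ρ h⁻¹ := by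
        rw [mul_inv_rev, map_mul, map_mul]
        simp only [mul_assoc]
    _ = ρ h * (β h' g • ρ g) * ρ h⁻¹ := by rw [hc]
    _ = β h' g • (ρ h * ρ g * ρ h⁻¹) := by rw [mul_smul_comm, smul_mul_assoc]
    _ = β h' g • β h g • ρ g := by rw [hc]
    _ = (β h g * β h' g) • ρ g := by rw [smul_smul, mul_comm]

theorem beta_mul_right (h g g' : Q) : β h (g * g') = β h g * β h g' := by
  apply smul_rho_inj ρ (g := g * g')
  calc β h (g * g') • ρ (g * g') = ρ h * ρ (g * g') * ρ h⁻¹ := (hc _ _).symm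
    _ = (ρ h * ρ g * ρ h⁻¹) * (ρ h * ρ g' * ρ h⁻¹) := by
        have := rho_inv_mul' ρ h
        rw [map_mul]
        calc ρ h * (ρ g * ρ g') * ρ h⁻¹ = ρ h * ρ g * 1 * (ρ g' * ρ h⁻¹) := by
              simp only [mul_one, mul_assoc]
          _ = _ := by rw [← this]; simp only [mul_assoc]
    _ = (β h g • ρ g) * (β h g' • ρ g') := by rw [hc, hc]
    _ = (β h g * β h g') • ρ (g * g') := by
        rw [smul_mul_smul_comm, map_mul]

theorem beta_one_left (g : Q) : β 1 g = 1 := by
  apply smul_rho_inj ρ (g := g)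
  rw [← hc, one_smul, inv_one, map_one, one_mul, mul_one]

theorem beta_one_right (h : Q) : β h 1 = 1 := by
  apply smul_rho_inj ρ (g := (1 : Q))
  rw [← hc, one_smul, map_one, mul_one, rho_mul_inv']

theorem beta_ne_zero (h g : Q) : β h g ≠ 0 := by
  intro h0
  have := beta_mul_left hc h h⁻¹ g
  rw [mul_inv_cancel, beta_one_left hc, h0, zero_mul] at this
  exact one_ne_zero this

theorem beta_inv_left (h g : Q) : β h⁻¹ g = (β h g)⁻¹ := by
  have := beta_mul_left hc h h⁻¹ g
  rw [mul_inv_cancel, beta_one_left hc] at this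
  exact eq_inv_of_mul_eq_one_right this.symm

theorem beta_inv_right (h g : Q) : β h g⁻¹ = (β h g)⁻¹ := by
  have := beta_mul_right hc h g g⁻¹
  rw [mul_inv_cancel, beta_one_right hc] at this
  exact eq_inv_of_mul_eq_one_right this.symm

theorem beta_skew (h g : Q) : β h g * β g h = 1 := by
  apply smul_rho_inj ρ (g := h * g)
  have h1 : ρ h * ρ g = β h g • (ρ g * ρ h) := by
    have := hc h g
    calc ρ h * ρ g = (ρ h * ρ g * ρ h⁻¹) * ρ h := by
          rw [mul_assoc (ρ h * ρ g), rho_inv_mul', mul_one]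
      _ = _ := by rw [this, smul_mul_assoc]
  have h2 : ρ g * ρ h = β g h • (ρ h * ρ g) := by
    have := hc g h
    calc ρ g * ρ h = (ρ g * ρ h * ρ g⁻¹) * ρ g := by
          rw [mul_assoc (ρ g * ρ h), rho_inv_mul', mul_one]
      _ = _ := by rw [this, smul_mul_assoc]
  rw [one_smul, map_mul, mul_smul]
  rw [h2] at h1
  rw [smul_smul] at h1
  rw [smul_smul]
  exact h1.symm

end basic

section sums

variable {ρ : Q →* Module.End F W} {β : Q → Q → F} [Nontrivial W] [Fintype Q] (hc : IsCom ρ β)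
include hc

theorem sum_beta_left {a : Q} {h₀ : Q} (h : β h₀ a ≠ 1) : ∑ k : Q, β k a = 0 := by
  have e : ∑ k : Q, β k a = β h₀ a * ∑ k : Q, β k a := by
    rw [Finset.mul_sum]
    refine (Fintype.sum_equiv (Equiv.mulLeft h₀) _ _ fun k => ?_).symm
    exact (beta_mul_left hc h₀ k a).symm
  have h1 : (1 - β h₀ a) * ∑ k : Q, β k a = 0 := by
    rw [sub_mul, one_mul, ← e, sub_self]
  exact (mul_eq_zero.mp h1).resolve_left (sub_ne_zero.mpr (Ne.symm h))

theorem sum_beta_right {a : Q} {g₀ : Q} (h : β a g₀ ≠ 1) : ∑ k : Q, β a k = 0 := by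
  have e : ∑ k : Q, β a k = β a g₀ * ∑ k : Q, β a k := by
    rw [Finset.mul_sum]
    refine (Fintype.sum_equiv (Equiv.mulLeft g₀) _ _ fun k => ?_).symm
    exact (beta_mul_right hc a g₀ k).symm
  have h1 : (1 - β a g₀) * ∑ k : Q, β a k = 0 := by
    rw [sub_mul, one_mul, ← e, sub_self]
  exact (mul_eq_zero.mp h1).resolve_left (sub_ne_zero.mpr (Ne.symm h))

end sums

/-- Twisted averaging. -/
noncomputable def pj [Fintype Q] (ρ : Q →* Module.End F W) (β : Q → Q → F) (g : Q) :
    Module.End F W →ₗ[F] Module.End F W :=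
  ((Fintype.card Q : F))⁻¹ • ∑ h : Q, (β h g)⁻¹ •
    ((LinearMap.mulLeft F (ρ h)) ∘ₗ (LinearMap.mulRight F (ρ h⁻¹)))

theorem pj_apply [Fintype Q] (ρ : Q →* Module.End F W) (β : Q → Q → F) (g : Q) (f : Module.End F W) :
    pj ρ β g f = ((Fintype.card Q : F))⁻¹ • ∑ h : Q, (β h g)⁻¹ • (ρ h * f * ρ h⁻¹) := by
  simp only [pj, LinearMap.smul_apply, LinearMap.sum_apply, LinearMap.comp_apply,
    LinearMap.mulLeft_apply, LinearMap.mulRight_apply, mul_assoc]

/-- The commutant of the whole representation. -/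
def Cm (ρ : Q →* Module.End F W) : Submodule F (Module.End F W) where
  carrier := {f | ∀ g, ρ g * f = f * ρ g}
  add_mem' := by
    intro a b ha hb g
    rw [mul_add, add_mul, ha, hb]
  zero_mem' := by simp
  smul_mem' := by
    intro c a ha g
    rw [mul_smul_comm, smul_mul_assoc, ha]

theorem mem_Cm {ρ : Q →* Module.End F W} {f : Module.End F W} : f ∈ Cm ρ ↔ ∀ g, ρ g * f = f * ρ g := Iff.rfl

section proj

variable {ρ : Q →* Module.End F W} {β : Q → Q → F} [Nontrivial W] [Fintype Q] (hc : IsCom ρ β)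
include hc

/-- `pj g f` transforms by the character `β · g`. -/
theorem pj_conj (g k : Q) (f : Module.End F W) :
    ρ k * pj ρ β g f * ρ k⁻¹ = β k g • pj ρ β g f := by
  rw [pj_apply, mul_smul_comm, smul_mul_assoc, smul_comm]
  congr 1
  rw [Finset.mul_sum, Finset.sum_mul, Finset.smul_sum]
  refine Fintype.sum_equiv (Equiv.mulLeft k) _ _ fun h => ?_
  simp only [Equiv.coe_mulLeft]
  rw [smul_smul, mul_smul_comm, smul_mul_assoc, beta_mul_left hc, mul_inv,
    mul_inv_cancel_left₀ (beta_ne_zero hc k g)]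
  congr 1
  rw [mul_inv_rev, map_mul, map_mul]
  simp only [mul_assoc]

/-- A vector in the `β · g'` isotypic part under the averaging. -/
theorem pj_of_eigen (hQ : (Fintype.card Q : F) ≠ 0) {g g' : Q} {f : Module.End F W}
    (hf : ∀ k, ρ k * f * ρ k⁻¹ = β k g' • f) :
    pj ρ β g f = (open Classical in if ∀ h, β h (g⁻¹ * g') = 1 then f else 0) := by
  classical
  have h1 : pj ρ β g f = ((Fintype.card Q : F))⁻¹ • (∑ h : Q, β h (g⁻¹ * g')) • f := by
    rw [pj_apply, Finset.sum_smul]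
    congr 1
    refine Finset.sum_congr rfl fun h _ => ?_
    rw [hf, smul_smul, beta_mul_right hc, beta_inv_right hc]
  rw [h1]
  by_cases h : ∀ h, β h (g⁻¹ * g') = 1
  · rw [if_pos h]
    simp only [h, Finset.sum_const, Finset.card_univ, nsmul_eq_mul, mul_one]
    rw [smul_smul, inv_mul_cancel₀ hQ, one_smul]
  · rw [if_neg h]
    push Not at h
    obtain ⟨h₀, hh⟩ := h
    rw [sum_beta_left hc hh, zero_smul, smul_zero]

/-- An element of the commutant times `ρ g` lies in the `g`-isotypic part. -/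
theorem rho_mul_eigen {c : Module.End F W} (hcm : c ∈ Cm ρ) (g k : Q) :
    ρ k * (ρ g * c) * ρ k⁻¹ = β k g • (ρ g * c) := by
  have h1 : ρ k * (ρ g * c) * ρ k⁻¹ = (ρ k * ρ g * ρ k⁻¹) * (ρ k * c * ρ k⁻¹) := by
    have e := rho_inv_mul' ρ k
    calc ρ k * (ρ g * c) * ρ k⁻¹ = ρ k * ρ g * 1 * c * ρ k⁻¹ := by simp only [mul_one, mul_assoc]
      _ = _ := by rw [← e]; simp only [mul_assoc]
  have h2 : ρ k * c * ρ k⁻¹ = c := by
    rw [hcm k, mul_assoc, rho_mul_inv', mul_one]
  rw [h1, h2, hc, smul_mul_assoc]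

/-- The inverse of `ρ g` times a `g`-isotypic element lies in the commutant. -/
theorem inv_mul_mem_Cm {g : Q} {f : Module.End F W} (hf : ∀ k, ρ k * f * ρ k⁻¹ = β k g • f) :
    ρ g⁻¹ * f ∈ Cm ρ := by
  intro k
  have h1 : ρ k * (ρ g⁻¹ * f) * ρ k⁻¹ = (ρ k * ρ g⁻¹ * ρ k⁻¹) * (ρ k * f * ρ k⁻¹) := by
    have e := rho_inv_mul' ρ k
    calc ρ k * (ρ g⁻¹ * f) * ρ k⁻¹ = ρ k * ρ g⁻¹ * 1 * f * ρ k⁻¹ := by simp only [mul_one, mul_assoc]
      _ = _ := by rw [← e]; simp only [mul_assoc]
  rw [hc, hf, beta_inv_right hc, smul_mul_smul_comm, inv_mul_cancel₀ (beta_ne_zero hc k g), one_smul] at h1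
  calc ρ k * (ρ g⁻¹ * f) = (ρ k * (ρ g⁻¹ * f) * ρ k⁻¹) * ρ k := by
        rw [mul_assoc _ (ρ k⁻¹), rho_inv_mul', mul_one]
    _ = _ := by rw [h1]

end proj

/-- Regular orbits: representatives. -/
theorem exists_reps {A : Type*} [DecidableEq A] (t : A → A) {R : ℕ} (hR : 0 < R) (ht : ∀ a, t^[R] a = a) :
    ∀ (n : ℕ) (S : Finset A), S.card = n → (∀ a ∈ S, t a ∈ S) →
      (∀ a ∈ S, ∀ i, 0 < i → i < R → t^[i] a ≠ a) →
      ∃ Rp : Finset A, Rp ⊆ S ∧ R * Rp.card = S.card ∧ ∀ a ∈ S, ∃ r ∈ Rp, ∃ i : ℕ, a = t^[i] r := by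
  intro n
  induction n using Nat.strong_induction_on with
  | _ n ih =>
    intro S hS hst hreg
    rcases S.eq_empty_or_nonempty with rfl | ⟨a, ha⟩
    · exact ⟨∅, by simp, by simp, by simp⟩
    have hstit : ∀ i, t^[i] a ∈ S := by
      intro i
      induction i with
      | zero => exact ha
      | succ i ihi =>
        rw [Function.iterate_succ_apply']
        exact hst _ ihi
    set O := (Finset.range R).image (fun i => t^[i] a) with hO
    have hinj : Set.InjOn (fun i => t^[i] a) (Finset.range R : Set ℕ) := by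
      have key : ∀ i j, i < j → j < R → t^[i] a ≠ t^[j] a := by
        intro i j hij hj heq
        have e : t^[j - i] (t^[i] a) = t^[i] a := by
          rw [← Function.iterate_add_apply, Nat.sub_add_cancel hij.le]
          exact heq.symm
        exact hreg _ (hstit i) (j - i) (by omega) (by omega) e
      intro i hi j hj heq
      rcases lt_trichotomy i j with h | h | h
      · exact absurd heq (key i j h (by simpa using hj))
      · exact h
      · exact absurd heq.symm (key j i h (by simpa using hi))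
    have hOcard : O.card = R := by
      rw [hO, Finset.card_image_of_injOn hinj, Finset.card_range]
    have hOS : O ⊆ S := by
      intro b hb
      obtain ⟨i, _, rfl⟩ := Finset.mem_image.mp hb
      exact hstit i
    have haO : a ∈ O := Finset.mem_image.mpr ⟨0, Finset.mem_range.mpr hR, rfl⟩
    have hSc : (S \ O).card + R = S.card := by
      rw [← hOcard]
      exact Finset.card_sdiff_add_card_eq_card hOS
    obtain ⟨Rp, hRpS, hRpc, hRpa⟩ := ih (S \ O).card (by omega) (S \ O) rfl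
      (by
        intro b hb
        rw [Finset.mem_sdiff] at hb ⊢
        refine ⟨hst b hb.1, fun hbO => hb.2 ?_⟩
        obtain ⟨i, hi, hti⟩ := Finset.mem_image.mp hbO
        have hi' := Finset.mem_range.mp hi
        have e1 : t^[R - 1] (t b) = b := by
          rw [← Function.iterate_succ_apply, Nat.succ_eq_add_one, Nat.sub_add_cancel hR, ht]
        rw [← e1, ← hti, ← Function.iterate_add_apply]
        rcases Nat.eq_zero_or_pos i with rfl | hipos
        · exact Finset.mem_image.mpr ⟨R - 1, Finset.mem_range.mpr (by omega), by simp⟩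
        · have e2 : R - 1 + i = (i - 1) + R := by omega
          rw [e2, Function.iterate_add_apply, ht]
          exact Finset.mem_image.mpr ⟨i - 1, Finset.mem_range.mpr (by omega), rfl⟩)
      (fun b hb i h0 h1 => hreg b (Finset.mem_sdiff.mp hb).1 i h0 h1)
    have haRp : a ∉ Rp := fun h => (Finset.mem_sdiff.mp (hRpS h)).2 haO
    refine ⟨insert a Rp, ?_, ?_, ?_⟩
    · intro b hb
      rcases Finset.mem_insert.mp hb with rfl | hb
      · exact ha
      · exact (Finset.mem_sdiff.mp (hRpS hb)).1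
    · rw [Finset.card_insert_of_notMem haRp, mul_add, mul_one, hRpc, hSc]
    · intro b hb
      by_cases hbO : b ∈ O
      · obtain ⟨i, _, hti⟩ := Finset.mem_image.mp hbO
        exact ⟨a, Finset.mem_insert_self _ _, i, hti.symm⟩
      · obtain ⟨r, hr, i, hi⟩ := hRpa b (Finset.mem_sdiff.mpr ⟨hb, hbO⟩)
        exact ⟨r, Finset.mem_insert_of_mem hr, i, hi⟩

section main

variable {ρ : Q →* Module.End F W} {β : Q → Q → F} [Nontrivial W] [Fintype Q] (hc : IsCom ρ β)
variable {N : Subgroup Q}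
include hc

theorem beta_of_mem (hN : ∀ n ∈ N, ∃ c : F, ρ n = c • 1) {n : Q} (hn : n ∈ N) (h : Q) : β h n = 1 := by
  apply smul_rho_inj ρ (g := n)
  obtain ⟨c, hc'⟩ := hN n hn
  rw [← hc, one_smul, hc', mul_smul_comm, smul_mul_assoc, mul_one, rho_mul_inv']

theorem mem_of_left (hrad : ∀ a, (∀ h, β h a = 1) → a ∈ N) {h : Q} (hh : ∀ g, β h g = 1) : h ∈ N := by
  apply hrad
  intro g
  have := beta_skew hc h g
  rw [hh, one_mul] at this
  exact this

theorem pj_coset (hN : ∀ n ∈ N, ∃ c : F, ρ n = c • 1) {g n : Q} (hn : n ∈ N) (f : Module.End F W) :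
    pj ρ β (g * n) f = pj ρ β g f := by
  rw [pj_apply, pj_apply]
  congr 1
  refine Finset.sum_congr rfl fun h _ => ?_
  rw [beta_mul_right hc, beta_of_mem hc hN hn, mul_one]

theorem eq_zero_of_pj (hN : ∀ n ∈ N, ∃ c : F, ρ n = c • 1) (hrad : ∀ a, (∀ h, β h a = 1) → a ∈ N)
    (hQ : (Fintype.card Q : F) ≠ 0) {f : Module.End F W} (hf : ∀ g, pj ρ β g f = 0) : f = 0 := by
  classical
  have h1 : ∑ g : Q, pj ρ β g f = ((Fintype.card Q : F))⁻¹ •
      ∑ h : Q, (∑ g : Q, (β h g)⁻¹) • (ρ h * f * ρ h⁻¹) := by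
    simp only [pj_apply, Finset.sum_smul]
    rw [← Finset.smul_sum, Finset.sum_comm]
  have h2 : ∀ h : Q, (∑ g : Q, (β h g)⁻¹) • (ρ h * f * ρ h⁻¹) =
      if h ∈ N then (Fintype.card Q : F) • f else 0 := by
    intro h
    by_cases hh : h ∈ N
    · rw [if_pos hh]
      obtain ⟨c, hc'⟩ := hN h hh
      have e1 : ρ h * f * ρ h⁻¹ = f := by
        have e0 : ρ h * f = f * ρ h := by
          rw [hc', smul_mul_assoc, mul_smul_comm, one_mul, mul_one]
        rw [e0, mul_assoc, rho_mul_inv', mul_one]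
      have e2 : ∀ g, β h g = 1 := by
        intro g
        have := beta_skew hc h g
        rw [beta_of_mem hc hN hh, mul_one] at this
        exact this
      rw [e1]
      simp [e2]
    · rw [if_neg hh]
      have : ¬ ∀ g, β h g = 1 := fun hall => hh (mem_of_left hc hrad hall)
      push Not at this
      obtain ⟨g₀, hg₀⟩ := this
      have e3 : ∑ g : Q, (β h g)⁻¹ = ∑ g : Q, β h g := by
        refine Fintype.sum_equiv (Equiv.inv Q) _ _ fun g => ?_
        simp [beta_inv_right hc]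
      rw [e3, sum_beta_right hc hg₀, zero_smul]
  rw [Finset.sum_eq_zero (fun g _ => hf g), Finset.sum_congr rfl (fun h _ => h2 h)] at h1
  rw [Finset.sum_ite, Finset.sum_const_zero, add_zero, Finset.sum_const, smul_comm, smul_smul,
    inv_mul_cancel₀ hQ, one_smul] at h1
  have hcard : (Finset.univ.filter (fun h : Q => h ∈ N)).card = Fintype.card N := by
    rw [Fintype.card_subtype]
  rw [hcard] at h1
  have hdvd : Fintype.card N ∣ Fintype.card Q := by
    rw [← Nat.card_eq_fintype_card, ← Nat.card_eq_fintype_card]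
    exact Subgroup.card_subgroup_dvd_card N
  have hNF : (Fintype.card N : F) ≠ 0 := by
    intro h0
    obtain ⟨k, hk⟩ := hdvd
    apply hQ
    rw [hk, Nat.cast_mul, h0, zero_mul]
  rw [← Nat.cast_smul_eq_nsmul F] at h1
  exact (smul_eq_zero.mp h1.symm).resolve_left hNF

/-- The commutant lower bound from independence of the isotypic parts. -/
theorem card_mul_le [FiniteDimensional F W] [N.Normal] [Fintype (Q ⧸ N)]
    (hN : ∀ n ∈ N, ∃ c : F, ρ n = c • 1) (hrad : ∀ a, (∀ h, β h a = 1) → a ∈ N)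
    (hQ : (Fintype.card Q : F) ≠ 0) :
    Fintype.card (Q ⧸ N) * Module.finrank F (Cm ρ) ≤ (Module.finrank F W) ^ 2 := by
  classical
  let s : Q ⧸ N → Q := fun p => Quotient.out p
  have hs : ∀ p : Q ⧸ N, ((s p : Q) : Q ⧸ N) = p := fun p => QuotientGroup.out_eq' p
  let Φ : (Q ⧸ N → Cm ρ) →ₗ[F] Module.End F W :=
    ∑ p : Q ⧸ N, (LinearMap.mulLeft F (ρ (s p))) ∘ₗ (Cm ρ).subtype ∘ₗ LinearMap.proj p
  have hΦ : ∀ c : Q ⧸ N → Cm ρ, Φ c = ∑ p : Q ⧸ N, ρ (s p) * (c p : Module.End F W) := by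
    intro c
    simp [Φ, LinearMap.sum_apply]
  have hinj : Function.Injective Φ := by
    rw [← LinearMap.ker_eq_bot, eq_bot_iff]
    intro c hc0
    rw [LinearMap.mem_ker, hΦ] at hc0
    rw [Submodule.mem_bot]
    funext p₀
    have h1 := congrArg (pj ρ β (s p₀)) hc0
    rw [map_sum, map_zero] at h1
    have h2 : ∀ p : Q ⧸ N, pj ρ β (s p₀) (ρ (s p) * (c p : Module.End F W)) =
        if p₀ = p then ρ (s p) * (c p : Module.End F W) else 0 := by
      intro p
      rw [pj_of_eigen hc hQ (rho_mul_eigen hc (c p).2 (s p))]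
      have e : (∀ h, β h ((s p₀)⁻¹ * s p) = 1) ↔ p₀ = p := by
        constructor
        · intro h
          have hm := hrad _ h
          rw [← hs p₀, ← hs p]
          exact QuotientGroup.eq.mpr hm
        · intro h
          subst h
          intro k
          rw [inv_mul_cancel, beta_one_right hc]
      by_cases hp : p₀ = p
      · rw [if_pos hp, if_pos (e.mpr hp)]
      · rw [if_neg hp, if_neg (fun h => hp (e.mp h))]
    rw [Finset.sum_congr rfl (fun p _ => h2 p), Finset.sum_ite_eq, if_pos (Finset.mem_univ _)] at h1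
    have h3 : (c p₀ : Module.End F W) = ρ (s p₀)⁻¹ * (ρ (s p₀) * (c p₀ : Module.End F W)) := by
      rw [← mul_assoc, rho_inv_mul', one_mul]
    apply Subtype.ext
    rw [h3, h1, mul_zero]
    rfl
  have := LinearMap.finrank_le_finrank_of_injective hinj
  rw [Module.finrank_pi_fintype, Module.finrank_linearMap, Finset.sum_const, Finset.card_univ,
    smul_eq_mul] at this
  rwa [sq]

/-- The dimension estimate for the fixed points of `Ad x`. -/
theorem hh_core [FiniteDimensional F W] [N.Normal] [Finite (Q ⧸ N)]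
    (hN : ∀ n ∈ N, ∃ c : F, ρ n = c • 1) (hrad : ∀ a, (∀ h, β h a = 1) → a ∈ N)
    (hQ : (Fintype.card Q : F) ≠ 0) {R : ℕ} (hR : (R : F) ≠ 0) {ω : F} (hω : IsPrimitiveRoot ω R)
    {x : Module.End F W} (hx : x ^ R = 1) (hfree : ∀ v, x v = v → v = 0)
    (θ : Q ≃* Q) (hθ : ∀ g, x * ρ g = ρ (θ g) * x)
    (hreg : ∀ g, g ∉ N → ∀ i, 0 < i → i < R → (θ^[i] g)⁻¹ * g ∉ N) :
    Nat.card (Q ⧸ N) ≤ (R - 1) ^ 2 := by
  classical
  haveI : Fintype (Q ⧸ N) := Fintype.ofFinite _
  have hRpos : 0 < R := by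
    rcases Nat.eq_zero_or_pos R with rfl | h
    · simp at hR
    · exact h
  -- the inverse of `x`
  set x' := x ^ (R - 1) with hx'
  have hxx' : x * x' = 1 := by
    rw [hx', ← pow_succ', Nat.sub_add_cancel hRpos, hx]
  have hx'x : x' * x = 1 := by
    rw [hx', ← pow_succ, Nat.sub_add_cancel hRpos, hx]
  have hθ' : ∀ g, x' * ρ (θ g) = ρ g * x' := by
    intro g
    calc x' * ρ (θ g) = x' * (ρ (θ g) * (x * x')) := by rw [hxx', mul_one]
      _ = x' * (x * ρ g) * x' := by rw [← mul_assoc (ρ (θ g)), ← hθ]; simp only [mul_assoc]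
      _ = ρ g * x' := by rw [← mul_assoc, hx'x, one_mul]
  -- invariance of `β`
  have hβθ : ∀ h g, β (θ h) (θ g) = β h g := by
    intro h g
    apply smul_rho_inj ρ (g := θ g)
    rw [← hc]
    have e : ρ (θ h) * ρ (θ g) * ρ (θ h)⁻¹ = x * (ρ h * ρ g * ρ h⁻¹) * x' := by
      have e1 : ρ (θ h)⁻¹ = ρ (θ h⁻¹) := by rw [map_inv θ]
      rw [e1]
      calc ρ (θ h) * ρ (θ g) * ρ (θ h⁻¹) = ρ (θ h) * ρ (θ g) * (x * x') * ρ (θ h⁻¹) := by
            rw [hxx', mul_one]
        _ = ρ (θ h) * (ρ (θ g) * x) * (x' * ρ (θ h⁻¹)) := by simp only [mul_assoc]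
        _ = ρ (θ h) * (x * ρ g) * (ρ h⁻¹ * x') := by rw [hθ g, hθ' h⁻¹]
        _ = (ρ (θ h) * x) * ρ g * ρ h⁻¹ * x' := by simp only [mul_assoc]
        _ = x * (ρ h * ρ g * ρ h⁻¹) * x' := by rw [← hθ h]; simp only [mul_assoc]
    rw [e, hc, mul_smul_comm, smul_mul_assoc, hθ g, mul_assoc, hxx', mul_one]
  -- the averaging is equivariant on the commutant of `x`
  have hpjθ : ∀ g (f : Module.End F W), f ∈ Cx x → pj ρ β g f = 0 → pj ρ β (θ g) f = 0 := by
    intro g f hf h0
    have e1 : pj ρ β (θ g) f = x * pj ρ β g f * x' := by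
      rw [pj_apply, pj_apply, mul_smul_comm, smul_mul_assoc]
      congr 1
      rw [Finset.mul_sum, Finset.sum_mul]
      refine (Fintype.sum_equiv θ.toEquiv _ _ fun h => ?_).symm
      simp only [MulEquiv.toEquiv_eq_coe, EquivLike.coe_coe]
      rw [mul_smul_comm, smul_mul_assoc, hβθ]
      congr 1
      have e2 : x * f * x' = f := by
        rw [← (mem_Cx.mp hf), mul_assoc, hxx', mul_one]
      have e3 : ρ (θ h)⁻¹ = ρ (θ h⁻¹) := by rw [map_inv θ]
      rw [e3]
      calc x * (ρ h * f * ρ h⁻¹) * x' = (x * ρ h) * f * (ρ h⁻¹ * x') := by simp only [mul_assoc]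
        _ = ρ (θ h) * x * f * (x' * ρ (θ h⁻¹)) := by rw [hθ h, hθ' h⁻¹]
        _ = ρ (θ h) * (x * f * x') * ρ (θ h⁻¹) := by simp only [mul_assoc]
        _ = _ := by rw [e2]
    rw [e1, h0, mul_zero, zero_mul]
  have hpjθi : ∀ (i : ℕ) g (f : Module.End F W), f ∈ Cx x → pj ρ β g f = 0 → pj ρ β (θ^[i] g) f = 0 := by
    intro i
    induction i with
    | zero => intro g f _ h; exact h
    | succ i ih =>
      intro g f hf h
      rw [Function.iterate_succ_apply']
      exact hpjθ _ f hf (ih g f hf h)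
  -- the action on the quotient
  have hρθ : ∀ (i : ℕ) g, x ^ i * ρ g = ρ (θ^[i] g) * x ^ i := by
    intro i
    induction i with
    | zero => intro g; simp
    | succ i ih =>
      intro g
      rw [pow_succ, mul_assoc, hθ, ← mul_assoc, ih, mul_assoc, ← pow_succ,
        Function.iterate_succ_apply]
  have hRg : ∀ g, (θ^[R] g)⁻¹ * g ∈ N := by
    intro g
    apply hrad
    intro h
    have h1 := hρθ R g
    rw [hx, one_mul, mul_one] at h1
    apply smul_rho_inj ρ (g := (θ^[R] g)⁻¹ * g)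
    rw [← hc, one_smul]
    have e : ρ ((θ^[R] g)⁻¹ * g) = 1 := by
      rw [map_mul, h1, rho_inv_mul']
    rw [e, mul_one, rho_mul_inv']
  have hNθ : ∀ g, g ∈ N → θ g ∈ N := by
    intro g hg
    apply hrad
    intro h
    obtain ⟨h', rfl⟩ := θ.surjective h
    rw [hβθ, beta_of_mem hc hN hg]
  have hNθi : ∀ (i : ℕ) a b, a⁻¹ * b ∈ N → (θ^[i] a)⁻¹ * θ^[i] b ∈ N := by
    intro i
    induction i with
    | zero => intro a b h; exact h
    | succ i ih =>
      intro a b h
      rw [Function.iterate_succ_apply', Function.iterate_succ_apply']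
      have := hNθ _ (ih a b h)
      rwa [map_mul, map_inv] at this
  let s : Q ⧸ N → Q := fun p => Quotient.out p
  have hs : ∀ p : Q ⧸ N, ((s p : Q) : Q ⧸ N) = p := fun p => QuotientGroup.out_eq' p
  let t : Q ⧸ N → Q ⧸ N := fun p => ((θ (s p) : Q) : Q ⧸ N)
  have ht : ∀ g : Q, t (g : Q ⧸ N) = ((θ g : Q) : Q ⧸ N) := by
    intro g
    show ((θ (s (g : Q ⧸ N)) : Q) : Q ⧸ N) = _
    apply QuotientGroup.eq.mpr
    have h1 : (s (g : Q ⧸ N))⁻¹ * g ∈ N := QuotientGroup.eq.mp (hs _)
    have := hNθ _ h1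
    rwa [map_mul, map_inv] at this
  have hti : ∀ (i : ℕ) (g : Q), t^[i] (g : Q ⧸ N) = ((θ^[i] g : Q) : Q ⧸ N) := by
    intro i g
    induction i generalizing g with
    | zero => rfl
    | succ i ih =>
      rw [Function.iterate_succ_apply, ht, ih, Function.iterate_succ_apply]
  have htR : ∀ a, t^[R] a = a := by
    intro a
    rw [← hs a, hti]
    exact QuotientGroup.eq.mpr (by
      have := hRg (s a)
      exact this)
  have hone : ∀ a : Q ⧸ N, a = 1 ↔ s a ∈ N := by
    intro a
    conv_lhs => rw [← hs a]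
    exact QuotientGroup.eq_one_iff _
  obtain ⟨Rp, hRpS, hRpc, hRpa⟩ := exists_reps t hRpos htR _ (Finset.univ.erase (1 : Q ⧸ N)) rfl
    (by
      intro a ha
      simp only [Finset.mem_erase, Finset.mem_univ, and_true] at ha ⊢
      intro h1
      apply ha
      have h2 : t^[R - 1] (t a) = a := by
        rw [← Function.iterate_succ_apply, Nat.succ_eq_add_one, Nat.sub_add_cancel hRpos, htR]
      rw [← h2, h1]
      have h3 : t^[R - 1] (1 : Q ⧸ N) = ((θ^[R - 1] (1 : Q) : Q) : Q ⧸ N) := hti _ 1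
      rw [h3]
      have h4 : ∀ i : ℕ, θ^[i] (1 : Q) = 1 := by
        intro i
        induction i with
        | zero => rfl
        | succ i ih => rw [Function.iterate_succ_apply', ih, map_one]
      rw [h4]
      rfl)
    (by
      intro a ha i h0 h1 heq
      simp only [Finset.mem_erase, Finset.mem_univ, and_true] at ha
      have ha' : s a ∉ N := fun h => ha ((hone a).mpr h)
      have := hreg (s a) ha' i h0 h1
      apply this
      have heq' : ((θ^[i] (s a) : Q) : Q ⧸ N) = ((s a : Q) : Q ⧸ N) := by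
        rw [← hti, hs a]
        exact heq
      exact QuotientGroup.eq.mp heq')
  -- the injection of the commutant of `x`
  have hcardS : (Finset.univ.erase (1 : Q ⧸ N)).card + 1 = Fintype.card (Q ⧸ N) := by
    rw [Finset.card_erase_of_mem (Finset.mem_univ _), Finset.card_univ]
    have : 0 < Fintype.card (Q ⧸ N) := Fintype.card_pos
    omega
  have h1notin : (1 : Q ⧸ N) ∉ Rp := fun h => by
    have := hRpS h
    simp at this
  set Rp' := insert (1 : Q ⧸ N) Rp with hRp'
  have hRp'c : Rp'.card = Rp.card + 1 := Finset.card_insert_of_notMem h1notin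
  have hbound : Module.finrank F (Cx x) ≤ Rp'.card * Module.finrank F (Cm ρ) := by
    let Ψ₀ : ∀ r : Rp', Cx x →ₗ[F] Cm ρ := fun r =>
      LinearMap.codRestrict (Cm ρ) ((LinearMap.mulLeft F (ρ (s r.1)⁻¹)) ∘ₗ pj ρ β (s r.1) ∘ₗ (Cx x).subtype)
        (fun f => inv_mul_mem_Cm hc (fun k => pj_conj hc (s r.1) k f.1))
    let Ψ : Cx x →ₗ[F] (Rp' → Cm ρ) := LinearMap.pi Ψ₀
    have hinj : Function.Injective Ψ := by
      rw [← LinearMap.ker_eq_bot, eq_bot_iff]
      intro f hf
      rw [LinearMap.mem_ker] at hf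
      rw [Submodule.mem_bot]
      have h1 : ∀ r ∈ Rp', pj ρ β (s r) (f : Module.End F W) = 0 := by
        intro r hr
        have h2 := congrFun hf ⟨r, hr⟩
        have h3 : ρ (s r)⁻¹ * pj ρ β (s r) (f : Module.End F W) = 0 := congrArg Subtype.val h2
        calc pj ρ β (s r) (f : Module.End F W) =
            ρ (s r) * (ρ (s r)⁻¹ * pj ρ β (s r) (f : Module.End F W)) := by
              rw [← mul_assoc, rho_mul_inv', one_mul]
          _ = 0 := by rw [h3, mul_zero]
      have h2 : ∀ a : Q ⧸ N, pj ρ β (s a) (f : Module.End F W) = 0 := by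
        intro a
        by_cases ha : a = 1
        · exact h1 a (by rw [ha]; exact Finset.mem_insert_self _ _)
        · obtain ⟨r, hr, i, hi⟩ := hRpa a (by simp [ha])
          have h3 := hpjθi i (s r) _ f.2 (h1 r (Finset.mem_insert_of_mem hr))
          have h4 : ((s a : Q) : Q ⧸ N) = ((θ^[i] (s r) : Q) : Q ⧸ N) := by
            rw [hs a, hi, ← hti, hs r]
          obtain ⟨n, hn⟩ : ∃ n, s a = θ^[i] (s r) * n := by
            refine ⟨(θ^[i] (s r))⁻¹ * s a, ?_⟩
            group
          have hnN : n ∈ N := by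
            have := QuotientGroup.eq.mp h4.symm
            rw [hn] at this
            simpa using this
          rw [hn, pj_coset hc hN hnN]
          exact h3
      have h3 : (f : Module.End F W) = 0 := by
        apply eq_zero_of_pj hc hN hrad hQ
        intro g
        have h4 : g = s (g : Q ⧸ N) * ((s (g : Q ⧸ N))⁻¹ * g) := by group
        rw [h4, pj_coset hc hN (QuotientGroup.eq.mp (hs _))]
        exact h2 _
      exact Subtype.ext h3
    have := LinearMap.finrank_le_finrank_of_injective hinj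
    rw [Module.finrank_pi_fintype, Finset.sum_const, Finset.card_univ, smul_eq_mul, Fintype.card_coe] at this
    exact this
  have hκ : 0 < Module.finrank F (Cm ρ) := by
    have hone' : (1 : Module.End F W) ∈ Cm ρ := by
      intro g
      rw [mul_one, one_mul]
    have : Nontrivial (Cm ρ) := ⟨⟨⟨1, hone'⟩, 0, fun h => one_ne_zero (congrArg Subtype.val h)⟩⟩
    exact Module.finrank_pos
  have h1 := card_mul_le hc hN hrad hQ
  have h2 := sq_le hR hω hx hfree
  rw [Nat.card_eq_fintype_card]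
  set a := Fintype.card (Q ⧸ N) with ha
  set κ := Module.finrank F (Cm ρ) with hκdef
  have h3 : a * κ ≤ (R - 1) * (Rp'.card * κ) :=
    h1.trans (h2.trans (Nat.mul_le_mul_left _ hbound))
  have h4 : a ≤ (R - 1) * Rp'.card := by
    have : a * κ ≤ ((R - 1) * Rp'.card) * κ := by rw [mul_assoc]; exact h3
    exact Nat.le_of_mul_le_mul_right this hκ
  rw [hRp'c] at h4
  have h5 : R * Rp.card + 1 = a := by rw [hRpc]; exact hcardS
  obtain ⟨r, rfl⟩ : ∃ r, R = r + 1 := ⟨R - 1, by omega⟩
  simp only [Nat.add_sub_cancel] at h4 ⊢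
  have h6 : Rp.card + 1 ≤ r := by
    have : (r + 1) * Rp.card + 1 ≤ r * (Rp.card + 1) := by rw [h5]; exact h4
    nlinarith
  obtain ⟨r', rfl⟩ : ∃ r', r = r' + 1 := ⟨r - 1, by omega⟩
  have h7 : Rp.card ≤ r' := by omega
  rw [← h5]
  nlinarith

end main

end Cfsg.Agent.Lib.PGroup.HH
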