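import Mathlib

/-!
# The Dedekind relation argument

A commuting family of operators permuted by an operator `x` with `1 + x + ⋯ + x^(K-1) = 0`.
-/

namespace Cfsg.Agent.Lib.PGroup.HH

open scoped BigOperators

variable {F W A : Type*} [Field F] [AddCommGroup W] [Module F W] [Group A]

open Classical in
/-- One step of the Dedekind argument. -/
theorem rel_step {ρ : A →* Module.End F W} (hcomm : ∀ a b, ρ a * ρ b = ρ b * ρ a) (θ : A ≃* A)
    (K : ℕ) (U : Submodule F W) (hU : ∀ a, ∀ u ∈ U, ρ a u ∈ U) :
    ∀ (n : ℕ) (w : ℕ → W), (Finset.filter (fun i => w i ≠ 0) (Finset.range K)).card = n →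
      (∀ i, w i ∈ U) → (∀ g, ∑ i ∈ Finset.range K, ρ (θ^[i] g) (w i) = 0) →
      (∃ i < K, w i ≠ 0) → ∃ e, 0 < e ∧ e < K ∧ ∃ u ∈ U, u ≠ 0 ∧ ∀ g, ρ (θ^[e] g) u = ρ g u := by
  classical
  intro n
  induction n using Nat.strong_induction_on with
  | _ n ih =>
    intro w hn hwU hrel hne
    obtain ⟨i₀, hi₀, hwi₀⟩ := hne
    have hinv : ∀ (i : ℕ) (g : A), ∃ g₀, θ^[i] g₀ = g := by
      intro i g
      induction i generalizing g with
      | zero => exact ⟨g, rfl⟩
      | succ i ih' =>
        obtain ⟨g₁, hg₁⟩ := θ.surjective g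
        obtain ⟨g₀, hg₀⟩ := ih' g₁
        exact ⟨g₀, by rw [Function.iterate_succ_apply', hg₀, hg₁]⟩
    have hone : ∀ i : ℕ, θ^[i] (1 : A) = 1 := by
      intro i
      induction i with
      | zero => rfl
      | succ i ih' => rw [Function.iterate_succ_apply', ih', map_one]
    have hmul : ∀ (i : ℕ) (a b : A), θ^[i] (a * b) = θ^[i] a * θ^[i] b := by
      intro i a b
      induction i with
      | zero => rfl
      | succ i ih' => rw [Function.iterate_succ_apply', Function.iterate_succ_apply',
          Function.iterate_succ_apply', ih', map_mul]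
    by_cases hA : ∃ g₀, ∃ i₁ < K, i₁ ≠ i₀ ∧ (ρ (θ^[i₁] g₀) - ρ (θ^[i₀] g₀)) (w i₁) ≠ 0
    · obtain ⟨g₀, i₁, hi₁, hne₁, hw₁⟩ := hA
      let w' : ℕ → W := fun i => (ρ (θ^[i] g₀) - ρ (θ^[i₀] g₀)) (w i)
      have hsub : Finset.filter (fun i => w' i ≠ 0) (Finset.range K) ⊂
          Finset.filter (fun i => w i ≠ 0) (Finset.range K) := by
        refine Finset.ssubset_iff_of_subset ?_ |>.mpr ⟨i₀, ?_, ?_⟩
        · intro i hi
          simp only [Finset.mem_filter] at hi ⊢
          refine ⟨hi.1, fun h0 => hi.2 ?_⟩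
          simp only [w', h0, map_zero]
        · simp only [Finset.mem_filter, Finset.mem_range]
          exact ⟨hi₀, hwi₀⟩
        · simp only [Finset.mem_filter, not_and, not_not]
          intro _
          simp [w']
      refine ih _ (hn ▸ Finset.card_lt_card hsub) w' rfl ?_ ?_ ⟨i₁, hi₁, hw₁⟩
      · intro i
        simp only [w', LinearMap.sub_apply]
        exact U.sub_mem (hU _ _ (hwU i)) (hU _ _ (hwU i))
      · intro g
        have h1 := hrel (g * g₀)
        have h2 := congrArg (ρ (θ^[i₀] g₀)) (hrel g)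
        rw [map_sum, map_zero] at h2
        have e : ∀ i, ρ (θ^[i] g) (w' i) =
            ρ (θ^[i] (g * g₀)) (w i) - ρ (θ^[i₀] g₀) (ρ (θ^[i] g) (w i)) := by
          intro i
          simp only [w', LinearMap.sub_apply, map_sub]
          rw [hmul, map_mul]
          congr 1
          have := congrArg (fun f : Module.End F W => f (w i)) (hcomm (θ^[i] g) (θ^[i₀] g₀))
          exact this
        simp only [e, Finset.sum_sub_distrib, h1, h2, sub_zero]
    · push Not at hA
      by_cases hB : ∃ i₁ < K, i₁ ≠ i₀ ∧ w i₁ ≠ 0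
      · obtain ⟨i₁, hi₁, hne₁, hw₁⟩ := hB
        have hkey : ∀ g₀, ρ (θ^[i₁] g₀) (w i₁) = ρ (θ^[i₀] g₀) (w i₁) := by
          intro g₀
          have := hA g₀ i₁ hi₁ hne₁
          rwa [LinearMap.sub_apply, sub_eq_zero] at this
        rcases lt_or_gt_of_ne hne₁ with hlt | hlt
        · refine ⟨i₀ - i₁, by omega, by omega, w i₁, hwU _, hw₁, fun g => ?_⟩
          obtain ⟨g₀, rfl⟩ := hinv i₁ g
          rw [← Function.iterate_add_apply, Nat.sub_add_cancel hlt.le, hkey]
        · refine ⟨i₁ - i₀, by omega, by omega, w i₁, hwU _, hw₁, fun g => ?_⟩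
          obtain ⟨g₀, rfl⟩ := hinv i₀ g
          rw [← Function.iterate_add_apply, Nat.sub_add_cancel hlt.le, hkey]
      · push Not at hB
        exfalso
        apply hwi₀
        have h1 := hrel 1
        rw [Finset.sum_eq_single i₀] at h1
        · rw [hone, map_one] at h1
          exact h1
        · intro i hi hne
          rw [hB i (Finset.mem_range.mp hi) hne, map_zero]
        · intro h
          exact absurd (Finset.mem_range.mpr hi₀) h

/-- Arithmetic: a multiple of `e` hits the unique subgroup of order `p`. -/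
theorem exists_mul_mod {p m e : ℕ} (hp : p.Prime) (hm : 0 < m) (he0 : 0 < e) (he : e < p ^ m) :
    ∃ k, e * k % p ^ m = p ^ (m - 1) := by
  obtain ⟨a, c, hc, rfl⟩ := Nat.exists_eq_pow_mul_and_not_dvd (n := e) he0.ne' p hp.ne_one
  have ha : a < m := by
    by_contra hge
    push Not at hge
    have h1 : p ^ m ≤ p ^ a := Nat.pow_le_pow_right hp.pos hge
    have h2 : 0 < c := Nat.pos_of_ne_zero (fun h => by simp [h] at he0)
    have : p ^ a ≤ p ^ a * c := Nat.le_mul_of_pos_right _ h2
    omega
  have hcop : Nat.Coprime c (p ^ m) := by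
    apply Nat.Coprime.pow_right
    exact ((Nat.Prime.coprime_iff_not_dvd hp).mpr hc).symm
  have hm1 : 1 < p ^ m := Nat.one_lt_pow hm.ne' hp.one_lt
  obtain ⟨c', -, hc'⟩ := Nat.exists_mul_mod_eq_one_of_coprime hcop hm1
  refine ⟨c' * p ^ (m - 1 - a), ?_⟩
  have e1 : p ^ a * c * (c' * p ^ (m - 1 - a)) = (c * c') * p ^ (m - 1) := by
    have : m - 1 = a + (m - 1 - a) := by omega
    conv_rhs => rw [this, pow_add]
    ring
  rw [e1]
  have e2 : p ^ (m - 1) < p ^ m := Nat.pow_lt_pow_right hp.one_lt (by omega)
  have e3 : c * c' = (c * c') / p ^ m * p ^ m + 1 := by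
    conv_lhs => rw [← Nat.div_add_mod (c * c') (p ^ m), hc']
    ring
  rw [e3, add_mul, one_mul]
  have : (c * c') / p ^ m * p ^ m * p ^ (m - 1) = p ^ m * ((c * c') / p ^ m * p ^ (m - 1)) := by ring
  rw [this, Nat.mul_add_mod, Nat.mod_eq_of_lt e2]

/-- If `x` permutes a commuting family, and `1 + x + ⋯ + x^(K-1) = 0` with `K = p ^ m`, then the
commutators with the unique subgroup of order `p` act trivially. -/
theorem rel_ab [Fintype A] {ρ : A →* Module.End F W} (hcomm : ∀ a b, ρ a * ρ b = ρ b * ρ a)
    (θ : A ≃* A) {p m : ℕ} (hp : p.Prime) (hm : 0 < m)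
    (hθK : ∀ g, θ^[p ^ m] g = g) (hcard : (Fintype.card A : F) ≠ 0)
    (x : Module.End F W) (hxρ : ∀ g, x * ρ g = ρ (θ g) * x)
    (hT : ∑ i ∈ Finset.range (p ^ m), x ^ i = 0) (g : A) :
    ρ (g⁻¹ * θ^[p ^ (m - 1)] g) = 1 := by
  classical
  set y : A → A := θ^[p ^ (m - 1)] with hy
  have hmul : ∀ (i : ℕ) (a b : A), θ^[i] (a * b) = θ^[i] a * θ^[i] b := by
    intro i a b
    induction i with
    | zero => rfl
    | succ i ih' => rw [Function.iterate_succ_apply', Function.iterate_succ_apply',
        Function.iterate_succ_apply', ih', map_mul]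
  have hinvit : ∀ (i : ℕ) (a : A), θ^[i] a⁻¹ = (θ^[i] a)⁻¹ := by
    intro i a
    induction i with
    | zero => rfl
    | succ i ih' => rw [Function.iterate_succ_apply', Function.iterate_succ_apply', ih', map_inv]
  -- the averaging over the commutators
  let B : Subgroup A := Subgroup.closure (Set.range fun g : A => g⁻¹ * y g)
  have hBθ : ∀ b ∈ B, θ b ∈ B := by
    intro b hb
    induction hb using Subgroup.closure_induction with
    | mem c hc =>
      obtain ⟨a, rfl⟩ := hc
      refine Subgroup.subset_closure ⟨θ a, ?_⟩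
      have hc : y (θ a) = θ (y a) := by
        simp only [hy]
        rw [← Function.iterate_succ_apply (⇑θ) (p ^ (m - 1)) a,
          Function.iterate_succ_apply' (⇑θ) (p ^ (m - 1)) a]
      simp only [map_mul, map_inv, hc]
    | one => rw [map_one]; exact B.one_mem
    | mul a b _ _ ha hb => rw [map_mul]; exact B.mul_mem ha hb
    | inv a _ ha => rw [map_inv]; exact B.inv_mem ha
  have hθBinj : Function.Bijective (fun b : B => (⟨θ b.1, hBθ b.1 b.2⟩ : B)) := by
    refine (Finite.injective_iff_bijective).mp fun a b h => ?_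
    apply Subtype.ext
    exact θ.injective (congrArg Subtype.val h)
  let π : Module.End F W := (Fintype.card B : F)⁻¹ • ∑ b : B, ρ (b : A)
  have hBcard : (Fintype.card B : F) ≠ 0 := by
    have hdvd : Fintype.card B ∣ Fintype.card A := by
      rw [← Nat.card_eq_fintype_card, ← Nat.card_eq_fintype_card]
      exact Subgroup.card_subgroup_dvd_card B
    intro h0
    obtain ⟨k, hk⟩ := hdvd
    apply hcard
    rw [hk, Nat.cast_mul, h0, zero_mul]
  have hπb : ∀ b₀ ∈ B, ρ b₀ * π = π := by
    intro b₀ hb₀
    simp only [π]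
    rw [mul_smul_comm, Finset.mul_sum]
    congr 1
    refine Fintype.sum_equiv (Equiv.mulLeft (⟨b₀, hb₀⟩ : B)) _ _ fun b => ?_
    rw [← map_mul]
    rfl
  have hπa : ∀ a, ρ a * π = π * ρ a := by
    intro a
    simp only [π]
    rw [mul_smul_comm, smul_mul_assoc, Finset.mul_sum, Finset.sum_mul]
    congr 1
    exact Finset.sum_congr rfl fun b _ => hcomm _ _
  have hπx : x * π = π * x := by
    simp only [π]
    rw [mul_smul_comm, smul_mul_assoc, Finset.mul_sum, Finset.sum_mul]
    congr 1
    refine Fintype.sum_bijective _ hθBinj _ _ fun b => ?_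
    exact hxρ b.1
  have hππ : π * π = π := by
    have : π * π = (Fintype.card B : F)⁻¹ • ∑ b : B, ρ (b : A) * π := by
      conv_lhs => enter [1]; simp only [π]
      rw [smul_mul_assoc, Finset.sum_mul]
    rw [this]
    simp only [hπb _ (Subtype.prop _)]
    rw [Finset.sum_const, Finset.card_univ, ← Nat.cast_smul_eq_nsmul F, smul_smul,
      inv_mul_cancel₀ hBcard, one_smul]
  -- the kernel of the averaging vanishes
  have hker : ∀ v, π v = 0 → v = 0 := by
    intro v hv
    by_contra hne
    set U : Submodule F W := LinearMap.ker π with hUdef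
    have hU : ∀ a, ∀ u ∈ U, ρ a u ∈ U := by
      intro a u hu
      rw [hUdef, LinearMap.mem_ker] at hu ⊢
      have := congrArg (fun f : Module.End F W => f u) (hπa a)
      simp only [Module.End.mul_apply] at this
      rw [← this, hu, map_zero]
    have hxi : ∀ (i : ℕ) (g : A), x ^ i * ρ g = ρ (θ^[i] g) * x ^ i := by
      intro i g
      induction i generalizing g with
      | zero => simp
      | succ i ih =>
        rw [pow_succ, mul_assoc, hxρ, ← mul_assoc, ih, mul_assoc, ← pow_succ,
          Function.iterate_succ_apply]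
    have hxU : ∀ i : ℕ, (x ^ i) v ∈ U := by
      intro i
      induction i with
      | zero => simpa [hUdef] using hv
      | succ i ih =>
        rw [pow_succ']
        rw [hUdef, LinearMap.mem_ker] at ih ⊢
        have := congrArg (fun f : Module.End F W => f ((x ^ i) v)) hπx
        simp only [Module.End.mul_apply] at this
        rw [Module.End.mul_apply, ← this, ih, map_zero]
    have hKpos : 0 < p ^ m := pow_pos hp.pos m
    obtain ⟨e, he0, heK, u, huU, hu0, hu⟩ := rel_step hcomm θ (p ^ m) U hU _ (fun i => (x ^ i) v) rfl hxU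
      (by
        intro g
        have e1 : ∀ i, ρ (θ^[i] g) ((x ^ i) v) = (x ^ i) (ρ g v) := by
          intro i
          have := congrArg (fun f : Module.End F W => f v) (hxi i g)
          exact this.symm
        simp only [e1]
        have := congrArg (fun f : Module.End F W => f (ρ g v)) hT
        simpa [LinearMap.sum_apply] using this)
      ⟨0, hKpos, by simpa using hne⟩
    -- `u` is fixed by `B`
    have hu1 : ∀ (k : ℕ) (g : A), ρ (θ^[e * k] g) u = ρ g u := by
      intro k g
      induction k with
      | zero => rfl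
      | succ k ih =>
        rw [mul_add, mul_one, add_comm, Function.iterate_add_apply, hu, ih]
    obtain ⟨k, hk⟩ := exists_mul_mod hp hm he0 heK
    have hper : ∀ g, Function.IsPeriodicPt (⇑θ) (p ^ m) g := hθK
    have hu2 : ∀ g, ρ (y g) u = ρ g u := by
      intro g
      have := hu1 k g
      rwa [← (hper g).iterate_mod_apply, hk] at this
    have hfix : ∀ b ∈ B, ρ b u = u := by
      intro b hb
      induction hb using Subgroup.closure_induction with
      | mem c hc =>
        obtain ⟨a, rfl⟩ := hc
        rw [map_mul, Module.End.mul_apply, hu2]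
        rw [← Module.End.mul_apply, ← map_mul, inv_mul_cancel, map_one]
        rfl
      | one => simp
      | mul a b _ _ ha hb => rw [map_mul, Module.End.mul_apply, hb, ha]
      | inv a _ ha =>
        have h2 : ρ a⁻¹ (ρ a u) = u := by
          rw [← Module.End.mul_apply, ← map_mul, inv_mul_cancel, map_one]
          rfl
        rw [ha] at h2
        exact h2
    have : π u = u := by
      simp only [π]
      rw [LinearMap.smul_apply, LinearMap.sum_apply]
      simp only [hfix _ (Subtype.prop _)]
      rw [Finset.sum_const, Finset.card_univ, ← Nat.cast_smul_eq_nsmul F, smul_smul,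
        inv_mul_cancel₀ hBcard, one_smul]
    rw [hUdef, LinearMap.mem_ker] at huU
    exact hu0 (this.symm.trans huU)
  -- hence `π = 1`
  have hπ1 : π = 1 := by
    refine LinearMap.ext fun v => ?_
    have h1 : π (v - π v) = 0 := by
      rw [map_sub, sub_eq_zero]
      have := congrArg (fun f : Module.End F W => f v) hππ
      exact this.symm
    have := hker _ h1
    rw [sub_eq_zero] at this
    exact this.symm
  have h2 := hπb (g⁻¹ * y g) (Subgroup.subset_closure ⟨g, rfl⟩)
  rwa [hπ1, mul_one] at h2

end Cfsg.Agent.Lib.PGroup.HH
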