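import Mathlib
import Cfsg.Agent.Lib.PGroup.HHEig
import Cfsg.Agent.Lib.PGroup.HHCore
import Cfsg.Agent.Lib.PGroup.HHRel

/-!
# The Hall--Higman step

An application of `hh_core` to a group of class two, with `θ` permuting the operators, and the
radical of the commutator form as the group of scalars.
-/

namespace Cfsg.Agent.Lib.PGroup.HH

open scoped BigOperators commutatorElement

section Iter

variable {Q : Type*} [Group Q]

theorem iter_mul (θ : Q ≃* Q) (i : ℕ) (a b : Q) : θ^[i] (a * b) = θ^[i] a * θ^[i] b := by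
  induction i with
  | zero => rfl
  | succ i ih => rw [Function.iterate_succ_apply', Function.iterate_succ_apply',
      Function.iterate_succ_apply', ih, map_mul]

theorem iter_one (θ : Q ≃* Q) (i : ℕ) : θ^[i] (1 : Q) = 1 := by
  induction i with
  | zero => rfl
  | succ i ih => rw [Function.iterate_succ_apply', ih, map_one]

theorem iter_inv (θ : Q ≃* Q) (i : ℕ) (a : Q) : θ^[i] a⁻¹ = (θ^[i] a)⁻¹ := by
  induction i with
  | zero => rfl
  | succ i ih => rw [Function.iterate_succ_apply', Function.iterate_succ_apply', ih, map_inv]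

/-- The iterate of an automorphism, as an automorphism. -/
noncomputable def itE (θ : Q ≃* Q) (i : ℕ) : Q ≃* Q :=
  MulEquiv.ofBijective (MonoidHom.mk' (θ^[i]) (iter_mul θ i)) (θ.bijective.iterate i)

@[simp] theorem itE_apply (θ : Q ≃* Q) (i : ℕ) (g : Q) : itE θ i g = θ^[i] g := rfl

theorem iter_comm (θ : Q ≃* Q) (i : ℕ) (a b : Q) : θ^[i] ⁅a, b⁆ = ⁅θ^[i] a, θ^[i] b⁆ := by
  rw [← itE_apply, ← itE_apply, ← itE_apply, map_commutatorElement]

theorem iter_swap (θ : Q ≃* Q) (i : ℕ) (a : Q) : θ^[i] (θ a) = θ (θ^[i] a) := by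
  rw [← Function.iterate_succ_apply, Function.iterate_succ_apply']

end Iter

/-- The Fitting-type map is onto, on every invariant subgroup. -/
theorem exists_preimage_f {Q : Type*} [Group Q] [Finite Q] (A : Subgroup Q) [A.Normal]
    (hcomm : ∀ g h : Q, ⁅g, h⁆ ∈ A) (y : Q →* Q) (hyA : ∀ a ∈ A, y a ∈ A)
    (h3 : ∀ g, g⁻¹ * y g ∈ A → g ∈ A) (R : Subgroup Q) (hAR : A ≤ R) (hyR : ∀ r ∈ R, y r ∈ R) :
    ∀ r ∈ R, ∃ g ∈ R, ∃ z ∈ A, r = g⁻¹ * y g * z := by
  classical
  have hcm : ∀ a b : Q ⧸ A, a * b = b * a := by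
    intro a b
    induction a using QuotientGroup.induction_on with | _ a => ?_
    induction b using QuotientGroup.induction_on with | _ b => ?_
    rw [← QuotientGroup.mk_mul, ← QuotientGroup.mk_mul, QuotientGroup.eq]
    have := hcomm b⁻¹ a⁻¹
    have e : (a * b)⁻¹ * (b * a) = ⁅b⁻¹, a⁻¹⁆ := by
      rw [commutatorElement_def]; group
    rw [e]; exact this
  let Fh : Q →* Q ⧸ A := MonoidHom.mk' (fun g => (QuotientGroup.mk (g⁻¹ * y g) : Q ⧸ A)) (by
    intro a b
    have e : (a * b)⁻¹ * y (a * b) = b⁻¹ * ((a⁻¹ * y a) * y b) := by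
      rw [map_mul]; group
    have e2 : b⁻¹ * y b = b⁻¹ * y b := rfl
    show (QuotientGroup.mk ((a * b)⁻¹ * y (a * b)) : Q ⧸ A) = QuotientGroup.mk (a⁻¹ * y a) * QuotientGroup.mk (b⁻¹ * y b)
    rw [e, QuotientGroup.mk_mul, QuotientGroup.mk_mul, QuotientGroup.mk_mul A b⁻¹ (y b),
      ← mul_assoc, ← mul_assoc, hcm ((b⁻¹ : Q) : Q ⧸ A)])
  have hFA : ∀ a ∈ A, Fh a = 1 := by
    intro a ha
    show (QuotientGroup.mk (a⁻¹ * y a) : Q ⧸ A) = 1
    rw [QuotientGroup.eq_one_iff]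
    exact A.mul_mem (A.inv_mem ha) (hyA a ha)
  let φ : Q ⧸ A →* Q ⧸ A := QuotientGroup.lift A Fh hFA
  have hφ : ∀ g : Q, φ (g : Q ⧸ A) = (QuotientGroup.mk (g⁻¹ * y g) : Q ⧸ A) := fun g => rfl
  have hinj : Function.Injective φ := by
    rw [injective_iff_map_eq_one]
    intro a ha
    induction a using QuotientGroup.induction_on with | _ a => ?_
    rw [hφ, QuotientGroup.eq_one_iff] at ha
    rw [QuotientGroup.eq_one_iff]
    exact h3 a ha
  let S : Subgroup (Q ⧸ A) := R.map (QuotientGroup.mk' A)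
  have hmaps : ∀ s ∈ S, φ s ∈ S := by
    rintro s ⟨g, hg, rfl⟩
    refine ⟨g⁻¹ * y g, R.mul_mem (R.inv_mem hg) (hyR g hg), ?_⟩
    rfl
  let ψ : S → S := fun s => ⟨φ s.1, hmaps s.1 s.2⟩
  have hψ : Function.Surjective ψ := by
    apply Finite.surjective_of_injective
    intro a b hab
    exact Subtype.ext (hinj (congrArg Subtype.val hab))
  intro r hr
  obtain ⟨⟨s, hs⟩, hs2⟩ := hψ ⟨(r : Q ⧸ A), ⟨r, hr, rfl⟩⟩
  obtain ⟨g, hg, rfl⟩ := hs
  have e := congrArg Subtype.val hs2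
  have e' : (QuotientGroup.mk (g⁻¹ * y g) : Q ⧸ A) = (r : Q ⧸ A) := e
  rw [QuotientGroup.eq] at e'
  refine ⟨g, hg, _, e', ?_⟩
  group

/-- A free iterate: if `θ ^ i` moves a coset, so does the unique involution-type iterate. -/
theorem iter_fix_mod {Q : Type*} [Group Q] (R : Subgroup Q) (θ : Q ≃* Q) (hθR : ∀ r ∈ R, θ r ∈ R)
    {i : ℕ} {g : Q} (h : (θ^[i] g)⁻¹ * g ∈ R) (k : ℕ) : (θ^[i * k] g)⁻¹ * g ∈ R := by
  have hit : ∀ (j : ℕ), ∀ r ∈ R, θ^[j] r ∈ R := by
    intro j r hr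
    induction j with
    | zero => exact hr
    | succ j ih =>
      rw [Function.iterate_succ_apply']
      exact hθR _ ih
  induction k with
  | zero => simpa using R.one_mem
  | succ k ih =>
    have e : θ^[i * (k + 1)] g = θ^[i * k] (θ^[i] g) := by
      rw [mul_add, mul_one, Function.iterate_add_apply]
    have e2 : θ^[i] g = g * ((θ^[i] g)⁻¹ * g)⁻¹ := by group
    have e4 : θ^[i * k] (θ^[i] g) = θ^[i * k] g * (θ^[i * k] ((θ^[i] g)⁻¹ * g))⁻¹ := by
      calc θ^[i * k] (θ^[i] g) = θ^[i * k] (g * ((θ^[i] g)⁻¹ * g)⁻¹) := by rw [← e2]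
        _ = _ := by rw [iter_mul, iter_inv]
    rw [e, e4]
    have e3 : (θ^[i * k] g * (θ^[i * k] ((θ^[i] g)⁻¹ * g))⁻¹)⁻¹ * g =
        θ^[i * k] ((θ^[i] g)⁻¹ * g) * ((θ^[i * k] g)⁻¹ * g) := by group
    rw [e3]
    exact R.mul_mem (hit _ _ h) ih

variable {F W Q : Type*} [Field F] [AddCommGroup W] [Module F W] [Group Q]

/-- The sum of the powers vanishes when there is no fixed vector. -/
theorem sum_pow_eq_zero {x : Module.End F W} {K : ℕ} (hx : x ^ K = 1)
    (hfree : ∀ v, x v = v → v = 0) : ∑ i ∈ Finset.range K, x ^ i = 0 := by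
  refine LinearMap.ext fun v => ?_
  apply hfree
  have h1 : x * ∑ i ∈ Finset.range K, x ^ i = ∑ i ∈ Finset.range K, x ^ i := by
    rw [Finset.mul_sum]
    simp only [← pow_succ']
    apply shift_sum (fun i => x ^ i)
    simp [hx]
  have := congrArg (fun f : Module.End F W => f v) h1
  simpa using this

theorem exists_primitive_root [IsAlgClosed F] {K : ℕ} (hK0 : K ≠ 0) (hK : (K : F) ≠ 0) :
    ∃ ω : F, IsPrimitiveRoot ω K := by
  haveI : NeZero (K : F) := ⟨hK⟩
  haveI : NeZero K := ⟨hK0⟩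
  exact HasEnoughRootsOfUnity.exists_primitiveRoot F K

/-- The commutator form of a representation whose commutators are scalars. -/
theorem isCom_of_scalar (ρ : Q →* Module.End F W) (A : Subgroup Q) (ν : Q → F)
    (hcomm : ∀ g h : Q, ⁅g, h⁆ ∈ A) (hν : ∀ a ∈ A, ρ a = ν a • 1) :
    IsCom ρ (fun h g => ν ⁅h, g⁆) := by
  intro h g
  have e : h * g * h⁻¹ = ⁅h, g⁆ * g := by
    rw [commutatorElement_def]; group
  rw [← map_mul, ← map_mul, e, map_mul, hν _ (hcomm h g), smul_mul_assoc, one_mul]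

/-- The radical of the commutator form. -/
def radG [Nontrivial W] {ρ : Q →* Module.End F W} {β : Q → Q → F} (hc : IsCom ρ β) : Subgroup Q where
  carrier := {g | ∀ h, β h g = 1}
  mul_mem' := by
    intro a b ha hb h
    rw [beta_mul_right hc, ha, hb, one_mul]
  one_mem' := fun h => beta_one_right hc h
  inv_mem' := by
    intro a ha h
    rw [beta_inv_right hc, ha, inv_one]

theorem mem_radG [Nontrivial W] {ρ : Q →* Module.End F W} {β : Q → Q → F} (hc : IsCom ρ β) {g : Q} :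
    g ∈ radG hc ↔ ∀ h, β h g = 1 := Iff.rfl

instance radG_normal [Nontrivial W] {ρ : Q →* Module.End F W} {β : Q → Q → F} (hc : IsCom ρ β) :
    (radG hc).Normal := by
  constructor
  intro n hn g h
  rw [mem_radG] at hn
  rw [beta_mul_right hc, beta_mul_right hc, hn, mul_one, beta_inv_right hc,
    mul_inv_cancel₀ (beta_ne_zero hc h g)]

/-- **The Hall--Higman step.** -/
theorem hh_step [IsAlgClosed F] [FiniteDimensional F W] [Nontrivial W] [Fintype Q]
    (ρ : Q →* Module.End F W) (A : Subgroup Q) [A.Normal] (ν : Q → F)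
    (hcomm : ∀ g h : Q, ⁅g, h⁆ ∈ A) (hν : ∀ a ∈ A, ρ a = ν a • 1)
    (θ : Q ≃* Q) (hθA : ∀ a ∈ A, θ a ∈ A) (hνθ : ∀ a ∈ A, ν (θ a) = ν a)
    {p m : ℕ} (hp : p.Prime) (hm : 0 < m) (hθK : ∀ g, θ^[p ^ m] g = g)
    (hyA : ∀ a ∈ A, θ^[p ^ (m - 1)] a = a) (h3 : ∀ g, g⁻¹ * θ^[p ^ (m - 1)] g ∈ A → g ∈ A)
    (hQ : (Fintype.card Q : F) ≠ 0) (hpF : (p : F) ≠ 0)
    (τ : Module.End F W) (hτρ : ∀ g, τ * ρ g = ρ (θ g) * τ) (hτK : τ ^ p ^ m = 1)
    (hfree : ∀ v, τ v = v → v = 0) :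
    (∀ r ∈ radG (isCom_of_scalar ρ A ν hcomm hν), ∃ a ∈ A, ρ r = ν a • 1) ∧
    (∀ g, g ∉ radG (isCom_of_scalar ρ A ν hcomm hν) → ∀ i, 0 < i → i < p ^ m →
      (θ^[i] g)⁻¹ * g ∉ radG (isCom_of_scalar ρ A ν hcomm hν)) ∧
    Nat.card (Q ⧸ radG (isCom_of_scalar ρ A ν hcomm hν)) ≤ (p ^ m - 1) ^ 2 := by
  classical
  have hc := isCom_of_scalar ρ A ν hcomm hν
  set R := radG (isCom_of_scalar ρ A ν hcomm hν) with hRdef
  have hKF : ((p ^ m : ℕ) : F) ≠ 0 := by
    rw [Nat.cast_pow]; exact pow_ne_zero _ hpF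
  have hAR : A ≤ R := by
    intro a ha h
    have e : ⁅h, a⁆ = h * a * h⁻¹ * a⁻¹ := commutatorElement_def h a
    have hν1 : ρ (h * a * h⁻¹) = ρ a := by
      rw [map_mul, map_mul, hν a ha]
      simp only [mul_smul_comm, smul_mul_assoc, mul_one]
      rw [← map_mul, mul_inv_cancel, map_one]
    have h2 : ρ ⁅h, a⁆ = 1 := by
      rw [e, map_mul, hν1, ← map_mul, mul_inv_cancel, map_one]
    have h3' : ν ⁅h, a⁆ • (1 : Module.End F W) = 1 := by
      rw [← hν _ (hcomm h a), h2]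
    obtain ⟨v, hv⟩ := exists_ne (0 : W)
    have := congrArg (fun f : Module.End F W => f v) h3'
    simp only [LinearMap.smul_apply, Module.End.one_apply] at this
    have h4 : (ν ⁅h, a⁆ - 1) • v = 0 := by
      rw [sub_smul, this, one_smul, sub_self]
    rcases smul_eq_zero.mp h4 with h5 | h5
    · exact sub_eq_zero.mp h5
    · exact absurd h5 hv
  have hθinv : ∀ g, θ.symm (θ g) = g := θ.symm_apply_apply
  have hθR : ∀ r ∈ R, θ r ∈ R := by
    intro r hr h
    have e : ⁅h, θ r⁆ = θ ⁅θ.symm h, r⁆ := by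
      rw [map_commutatorElement, MulEquiv.apply_symm_apply]
    show ν ⁅h, θ r⁆ = 1
    rw [e, hνθ _ (hcomm _ _)]
    exact hr (θ.symm h)
  have hitR : ∀ (j : ℕ), ∀ r ∈ R, θ^[j] r ∈ R := by
    intro j r hr
    induction j with
    | zero => exact hr
    | succ j ih =>
      rw [Function.iterate_succ_apply']
      exact hθR _ ih
  have hitA : ∀ (j : ℕ), ∀ r ∈ A, θ^[j] r ∈ A := by
    intro j r hr
    induction j with
    | zero => exact hr
    | succ j ih =>
      rw [Function.iterate_succ_apply']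
      exact hθA _ ih
  let y : Q →* Q := (itE θ (p ^ (m - 1))).toMonoidHom
  have hy : ∀ g, y g = θ^[p ^ (m - 1)] g := fun g => rfl
  have hpre := exists_preimage_f A hcomm y (fun a ha => by rw [hy]; exact hitA _ _ ha)
    (fun g hg => h3 g (by rw [← hy]; exact hg)) R hAR (fun r hr => by rw [hy]; exact hitR _ _ hr)
  -- `R` acts by scalars
  have hcommR : ∀ a b : R, ρ (a : Q) * ρ (b : Q) = ρ (b : Q) * ρ (a : Q) := by
    intro a b
    have h1 := hc a.1 b.1
    have h2 : (ν ⁅a.1, b.1⁆) = 1 := b.2 a.1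
    simp only at h1
    rw [h2, one_smul] at h1
    calc ρ a.1 * ρ b.1 = ρ a.1 * ρ b.1 * (ρ a.1⁻¹ * ρ a.1) := by
          rw [← map_mul ρ a.1⁻¹, inv_mul_cancel, map_one, mul_one]
      _ = (ρ a.1 * ρ b.1 * ρ a.1⁻¹) * ρ a.1 := by rw [mul_assoc, mul_assoc, mul_assoc]
      _ = ρ b.1 * ρ a.1 := by rw [h1]
  let θR : R ≃* R := MulEquiv.ofBijective
    (MonoidHom.mk' (fun r : R => (⟨θ r.1, hθR r.1 r.2⟩ : R)) (fun a b => Subtype.ext (map_mul θ a.1 b.1)))
    (by
      refine (Finite.injective_iff_bijective).mp fun a b h => ?_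
      apply Subtype.ext
      exact θ.injective (congrArg Subtype.val h))
  have hθRit : ∀ (i : ℕ) (r : R), ((θR^[i] r : R) : Q) = θ^[i] r.1 := by
    intro i r
    induction i with
    | zero => rfl
    | succ i ih =>
      rw [Function.iterate_succ_apply', Function.iterate_succ_apply', ← ih]
      rfl
  have hRcard : (Fintype.card R : F) ≠ 0 := by
    have hdvd : Fintype.card R ∣ Fintype.card Q := by
      rw [← Nat.card_eq_fintype_card, ← Nat.card_eq_fintype_card]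
      exact Subgroup.card_subgroup_dvd_card R
    intro h0
    obtain ⟨k, hk⟩ := hdvd
    apply hQ
    rw [hk, Nat.cast_mul, h0, zero_mul]
  have hT := sum_pow_eq_zero hτK hfree
  have hrel := rel_ab (ρ := ρ.comp R.subtype) (fun a b => hcommR a b) θR hp hm
    (fun g => Subtype.ext (by rw [hθRit]; exact hθK g.1)) hRcard τ (fun g => hτρ g.1) hT
  have hscal : ∀ r ∈ R, ∃ a ∈ A, ρ r = ν a • 1 := by
    intro r hr
    obtain ⟨g, hgR, z, hz, rfl⟩ := hpre r hr
    refine ⟨z, hz, ?_⟩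
    have := hrel ⟨g, hgR⟩
    have e : ρ (g⁻¹ * y g) = 1 := by
      have e2 : (((⟨g, hgR⟩ : R)⁻¹ * θR^[p ^ (m - 1)] ⟨g, hgR⟩ : R) : Q) = g⁻¹ * y g := by
        rw [Subgroup.coe_mul, hθRit, hy]
        rfl
      rw [← e2]
      exact this
    rw [map_mul, e, one_mul, hν z hz]
  have hreg : ∀ g, g ∉ R → ∀ i, 0 < i → i < p ^ m → (θ^[i] g)⁻¹ * g ∉ R := by
    intro g hg i hi0 hiK hmem
    apply hg
    obtain ⟨k, hk⟩ := exists_mul_mod hp hm hi0 hiK
    have h1 := iter_fix_mod R θ hθR hmem k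
    have hper : Function.IsPeriodicPt (⇑θ) (p ^ m) g := hθK g
    rw [← hper.iterate_mod_apply, hk] at h1
    have h2 : g⁻¹ * y g ∈ R := by
      have := R.inv_mem h1
      rw [hy]
      convert this using 1
      group
    obtain ⟨g', hg', z, hz, e⟩ := hpre _ h2
    have h4 : (g * g'⁻¹)⁻¹ * y (g * g'⁻¹) = y g' * z * (y g')⁻¹ := by
      rw [map_mul, map_inv]
      have e2 : y g = g * (g'⁻¹ * y g' * z) := by rw [← e]; group
      rw [e2]; group
    have h5 : (g * g'⁻¹)⁻¹ * θ^[p ^ (m - 1)] (g * g'⁻¹) ∈ A := by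
      rw [← hy, h4]
      exact Subgroup.Normal.conj_mem inferInstance z hz (y g')
    have h6 := h3 _ h5
    have : g = (g * g'⁻¹) * g' := by group
    rw [this]
    exact R.mul_mem (hAR h6) hg'
  obtain ⟨ω, hω⟩ := exists_primitive_root (F := F) (pow_pos hp.pos m).ne' hKF
  refine ⟨hscal, hreg, ?_⟩
  exact hh_core (N := R) hc (fun n hn => by
      obtain ⟨a, _, e⟩ := hscal n hn
      exact ⟨_, e⟩) (fun a ha => (mem_radG _).2 ha) hQ hKF hω hτK hfree θ hτρ hreg

end Cfsg.Agent.Lib.PGroup.HH
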