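import Mathlib
import Cfsg.Agent.Lib.PGroup.HHStep
import Cfsg.Agent.Lib.PGroup.HHCount

/-!
# Restriction of operators, and quotient counts
-/

namespace Cfsg.Agent.Lib.PGroup.HH

open scoped BigOperators commutatorElement

variable {F W Q : Type*} [Field F] [AddCommGroup W] [Module F W] [Group Q]

/-- Restriction of a representation to an invariant subspace. -/
def resHom (ρ : Q →* Module.End F W) (U : Submodule F W) (hU : ∀ g, ∀ u ∈ U, ρ g u ∈ U) :
    Q →* Module.End F U where
  toFun g := (ρ g).restrict (hU g)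
  map_one' := by
    apply LinearMap.ext
    intro u
    apply Subtype.ext
    simp [LinearMap.restrict_apply]
  map_mul' a b := by
    apply LinearMap.ext
    intro u
    apply Subtype.ext
    simp [LinearMap.restrict_apply]

theorem resHom_apply (ρ : Q →* Module.End F W) (U : Submodule F W) (hU : ∀ g, ∀ u ∈ U, ρ g u ∈ U)
    (g : Q) (u : U) : ((resHom ρ U hU g u : U) : W) = ρ g u := rfl

theorem resOp_pow {x : Module.End F W} {U : Submodule F W} (hx : ∀ u ∈ U, x u ∈ U) (n : ℕ) (u : U) :
    (((x.restrict hx) ^ n) u : W) = (x ^ n) u := by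
  induction n with
  | zero => simp
  | succ n ih =>
    rw [pow_succ', pow_succ', Module.End.mul_apply, Module.End.mul_apply]
    show x ((((x.restrict hx) ^ n) u : U) : W) = _
    rw [ih]

/-- An operator of finite order different from the identity has an eigenvalue different from 1. -/
theorem exists_eig_ne_one [IsAlgClosed F] {x : Module.End F W} {R : ℕ} (hR : (R : F) ≠ 0)
    (hx : x ^ R = 1) (hne : x ≠ 1) : ∃ l : F, l ^ R = 1 ∧ l ≠ 1 ∧ ∃ v : W, v ≠ 0 ∧ x v = l • v := by
  have hR0 : R ≠ 0 := by
    rintro rfl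
    simp at hR
  obtain ⟨ω, hω⟩ := exists_primitive_root (F := F) hR0 hR
  by_contra hcon
  push Not at hcon
  apply hne
  have hsum := sum_prj hR hω x
  have hRpos : 0 < R := Nat.pos_of_ne_zero hR0
  refine LinearMap.ext fun v => ?_
  have hv := congrArg (fun f : Module.End F W => f v) hsum
  simp only [LinearMap.sum_apply, Module.End.one_apply] at hv
  have hμ : ∀ i, (ω ^ i) ^ R = 1 := fun i => by rw [← pow_mul, mul_comm, pow_mul, hω.pow_eq_one, one_pow]
  have hzero : ∀ i ∈ Finset.range R, i ≠ 0 → prj R x (ω ^ i) v = 0 := by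
    intro i hi hi0
    by_contra hne0
    have hne1 : ω ^ i ≠ 1 := by
      intro h
      have hd := hω.dvd_of_pow_eq_one i h
      exact hi0 (Nat.eq_zero_of_dvd_of_lt hd (Finset.mem_range.mp hi))
    exact hcon _ (hμ i) hne1 _ hne0 (mem_Wi.mp (prj_mem hR hx (hμ i) v))
  rw [Finset.sum_eq_single 0 hzero (fun h => absurd (Finset.mem_range.mpr hRpos) h)] at hv
  have h0 := mem_Wi.mp (prj_mem hR hx (hμ 0) v)
  rw [pow_zero, one_smul] at h0
  rw [pow_zero] at hv
  rw [hv] at h0
  rw [h0]
  rfl

/-- A regular automorphism on a quotient. -/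
theorem dvd_index_sub_one [Finite Q] (R : Subgroup Q) [R.Normal] (θ : Q ≃* Q) (hθR : ∀ r ∈ R, θ r ∈ R)
    {K : ℕ} (hK : 0 < K) (hθK : ∀ g, θ^[K] g = g)
    (hreg : ∀ g, g ∉ R → ∀ i, 0 < i → i < K → (θ^[i] g)⁻¹ * g ∉ R) : K ∣ R.index - 1 := by
  have hit : ∀ (j : ℕ), ∀ r ∈ R, θ^[j] r ∈ R := by
    intro j r hr
    induction j with
    | zero => exact hr
    | succ j ih =>
      rw [Function.iterate_succ_apply']
      exact hθR _ ih
  have hinv : ∀ g, θ g ∈ R → g ∈ R := by
    intro g hg
    have h1 := hit (K - 1) _ hg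
    rw [← Function.iterate_succ_apply] at h1
    have e : (K - 1).succ = K := by omega
    rwa [e, hθK] at h1
  let φ : Q ⧸ R →* Q ⧸ R := QuotientGroup.map R R θ.toMonoidHom (fun r hr => hθR r hr)
  have hφ : ∀ g : Q, φ (g : Q ⧸ R) = ((θ g : Q) : Q ⧸ R) := fun g => rfl
  have hinj : Function.Injective φ := by
    rw [injective_iff_map_eq_one]
    intro a ha
    induction a using QuotientGroup.induction_on with | _ a => ?_
    rw [hφ, QuotientGroup.eq_one_iff] at ha
    rw [QuotientGroup.eq_one_iff]
    exact hinv a ha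
  let π : Equiv.Perm (Q ⧸ R) := Equiv.ofBijective φ (Finite.injective_iff_bijective.mp hinj)
  have hπ : ∀ (i : ℕ) (g : Q), (π ^ i) (g : Q ⧸ R) = ((θ^[i] g : Q) : Q ⧸ R) := by
    intro i g
    induction i with
    | zero => rfl
    | succ i ih =>
      rw [pow_succ', Equiv.Perm.mul_apply, ih, Function.iterate_succ_apply']
      rfl
  have := dvd_card_sub_one π ((1 : Q) : Q ⧸ R) hK (by
      intro x
      induction x using QuotientGroup.induction_on with | _ x => ?_
      rw [hπ, hθK]) (by
      have h1 := hπ 1 1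
      rw [pow_one] at h1
      rw [h1, Function.iterate_one, map_one]) (by
      intro x hx i hi0 hiK
      induction x using QuotientGroup.induction_on with | _ x => ?_
      rw [hπ]
      intro h
      rw [QuotientGroup.eq] at h
      refine hreg x (fun hxR => hx ?_) i hi0 hiK h
      rw [eq_comm, QuotientGroup.eq]
      simpa using hxR)
  exact this

end Cfsg.Agent.Lib.PGroup.HH
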