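import Mathlib
import Cfsg.Agent.Lib.PGroup.HHRes
import Cfsg.Agent.Lib.Transfer.Special
import Cfsg.Prelude.Def_Transfer

/-!
# Hall--Higman for an extraspecial group, at the level of a field
-/

namespace Cfsg.Agent.Lib.PGroup.HH

open scoped BigOperators commutatorElement

variable {F W Q : Type*} [Field F] [AddCommGroup W] [Module F W] [Group Q]

theorem hh_extra [IsAlgClosed F] [FiniteDimensional F W] [Nontrivial W] [Fintype Q] {q r : ℕ}
    (hq : q.Prime) (hr : r.Prime) (hqr : q ≠ r) (hQ : Cfsg.IsExtraspecial q Q)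
    (ρ : Q →* Module.End F W) (hρ : Function.Injective ρ) (σ : Q ≃* Q) (hσ : ∀ g, σ^[r] g = g)
    (hfix : ∀ g, σ g = g → g ∈ Subgroup.center Q) (hfixz : ∀ g ∈ Subgroup.center Q, σ g = g)
    (x : Module.End F W) (hxρ : ∀ g, x * ρ g = ρ (σ g) * x) (hxr : x ^ r = 1)
    (hfree : ∀ v, x v = v → v = 0) (hqF : (q : F) ≠ 0) (hrF : (r : F) ≠ 0) :
    q = 2 ∧ ∃ n : ℕ, r = 2 ^ n + 1 ∧ Nat.card Q = 2 ^ (2 * n + 1) := by
  classical
  haveI : Fact q.Prime := ⟨hq⟩
  obtain ⟨⟨hPg, hFr, hC⟩, hZcard⟩ := hQ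
  let A : Subgroup Q := Subgroup.center Q
  have hAcard : Nat.card A = q := hZcard
  have hcomm : ∀ g h : Q, ⁅g, h⁆ ∈ A := by
    intro g h
    show ⁅g, h⁆ ∈ Subgroup.center Q
    rw [← hC]
    exact Subgroup.commutator_mem_commutator (Subgroup.mem_top g) (Subgroup.mem_top h)
  have hQF : (Fintype.card Q : F) ≠ 0 := by
    obtain ⟨n, hn⟩ := IsPGroup.iff_card.mp hPg
    rw [← Nat.card_eq_fintype_card, hn, Nat.cast_pow]
    exact pow_ne_zero _ hqF
  have hAnt : 1 < Nat.card A := by rw [hAcard]; exact hq.one_lt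
  haveI : Nontrivial A := Finite.one_lt_card_iff_nontrivial.mp hAnt
  obtain ⟨⟨z₀, hz₀⟩, hz₁⟩ := exists_ne (1 : A)
  have hz₀1 : z₀ ≠ 1 := fun h => hz₁ (Subtype.ext h)
  have hgen : ∀ a : A, a ≠ 1 → ∀ b : A, ∃ k : ℕ, a ^ k = b := by
    intro a ha b
    have := mem_powers_of_prime_card (G := A) hAcard (g := a) (g' := b) ha
    exact this
  have hzq : z₀ ^ q = 1 := by
    have := pow_card_eq_one' (x := (⟨z₀, hz₀⟩ : A))
    rw [hAcard] at this
    exact congrArg Subtype.val this
  have hqq : (ρ z₀) ^ q = 1 := by rw [← map_pow, hzq, map_one]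
  have hρz : ρ z₀ ≠ 1 := by
    intro h
    exact hz₀1 (hρ (by rw [h, map_one]))
  obtain ⟨l, hlq, hl1, v, hv0, hvl⟩ := exists_eig_ne_one hqF hqq hρz
  have hcentral : ∀ g, ρ z₀ * ρ g = ρ g * ρ z₀ := by
    intro g
    rw [← map_mul, ← map_mul]
    congr 1
    exact (Subgroup.mem_center_iff.mp hz₀ g).symm
  let U : Submodule F W := Wi (ρ z₀) l
  have hUg : ∀ g, ∀ u ∈ U, ρ g u ∈ U := by
    intro g u hu
    have hu' : ρ z₀ u = l • u := mem_Wi.mp hu
    refine mem_Wi.mpr ?_
    have := congrArg (fun f : Module.End F W => f u) (hcentral g)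
    simp only [Module.End.mul_apply] at this
    rw [this, hu', map_smul]
  have hUx : ∀ u ∈ U, x u ∈ U := by
    intro u hu
    have hu' : ρ z₀ u = l • u := mem_Wi.mp hu
    refine mem_Wi.mpr ?_
    have := congrArg (fun f : Module.End F W => f u) (hxρ z₀)
    simp only [Module.End.mul_apply] at this
    rw [hfixz z₀ hz₀] at this
    rw [← this, hu', map_smul]
  haveI : Nontrivial U := by
    refine ⟨⟨⟨v, mem_Wi.mpr hvl⟩, 0, fun h => hv0 (congrArg Subtype.val h)⟩⟩
  let ρ' := resHom ρ U hUg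
  have hρ'z : ρ' z₀ = l • 1 := by
    apply LinearMap.ext
    intro u
    apply Subtype.ext
    exact mem_Wi.mp u.2
  have haν : ∀ a : Q, a ∈ A → ∃ c : F, ρ' a = c • 1 := by
    intro a ha
    by_cases ha1 : a = 1
    · exact ⟨1, by rw [ha1, map_one, one_smul]⟩
    · obtain ⟨k, hk⟩ := hgen ⟨z₀, hz₀⟩ hz₁ ⟨a, ha⟩
      have e : z₀ ^ k = a := congrArg Subtype.val hk
      refine ⟨l ^ k, ?_⟩
      rw [← e, map_pow, hρ'z, smul_pow, one_pow]
  choose! ν hν using haν
  have hθA : ∀ a ∈ A, σ a ∈ A := fun a ha => by rw [hfixz a ha]; exact ha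
  have hνθ : ∀ a ∈ A, ν (σ a) = ν a := fun a ha => by rw [hfixz a ha]
  have hr1 : r ^ 1 = r := pow_one r
  have hr0 : r ^ (1 - 1) = 1 := by simp
  have hit : ∀ (g z : Q) (k : ℕ), σ g = g * z → σ z = z → σ^[k] g = g * z ^ k := by
    intro g z k h1 h2
    induction k with
    | zero => simp
    | succ k ih =>
      have hzk : ∀ j : ℕ, σ (z ^ j) = z ^ j := fun j => by rw [map_pow, h2]
      rw [Function.iterate_succ_apply', ih, map_mul, h1, hzk, pow_succ', mul_assoc]
  have h3 : ∀ g, g⁻¹ * σ^[r ^ (1 - 1)] g ∈ A → g ∈ A := by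
    intro g hg
    rw [hr0, Function.iterate_one] at hg
    have hz1 : σ g = g * (g⁻¹ * σ g) := by group
    have h4 := hit g (g⁻¹ * σ g) r hz1 (hfixz _ hg)
    rw [hσ g] at h4
    have h5 : (g⁻¹ * σ g) ^ r = 1 := by
      have := congrArg (fun t => g⁻¹ * t) h4
      simpa using this.symm
    have h6 : (g⁻¹ * σ g) ^ q = 1 := by
      have := pow_card_eq_one' (x := (⟨_, hg⟩ : A))
      rw [hAcard] at this
      exact congrArg Subtype.val this
    have h7 : g⁻¹ * σ g = 1 := by
      have hc : Nat.Coprime q r := (Nat.coprime_primes hq hr).mpr hqr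
      have hd := Nat.dvd_gcd (orderOf_dvd_of_pow_eq_one h6) (orderOf_dvd_of_pow_eq_one h5)
      rw [hc.gcd_eq_one, Nat.dvd_one, orderOf_eq_one_iff] at hd
      exact hd
    apply hfix
    have := congrArg (fun t => g * t) h7
    simpa using this
  let τ : Module.End F U := x.restrict hUx
  have hτρ : ∀ g, τ * ρ' g = ρ' (σ g) * τ := by
    intro g
    apply LinearMap.ext
    intro u
    apply Subtype.ext
    have := congrArg (fun f : Module.End F W => f u) (hxρ g)
    exact this
  have hτK : τ ^ r ^ 1 = 1 := by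
    rw [hr1]
    apply LinearMap.ext
    intro u
    apply Subtype.ext
    rw [resOp_pow, hxr]
    rfl
  have hfreeτ : ∀ v, τ v = v → v = 0 := by
    intro u hu
    apply Subtype.ext
    exact hfree u.1 (congrArg Subtype.val hu)
  obtain ⟨hscal, hreg, hle⟩ := hh_step ρ' A ν hcomm hν σ hθA hνθ hr one_pos
    (fun g => by rw [hr1]; exact hσ g)
    (fun a ha => by rw [hr0, Function.iterate_one]; exact hfixz a ha) h3 hQF hrF τ hτρ hτK hfreeτ
  set R := radG (isCom_of_scalar ρ' A ν hcomm hν) with hRdef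
  have hinjA : ∀ a ∈ A, ρ' a = 1 → a = 1 := by
    intro a ha h
    by_contra ha1
    obtain ⟨k, hk⟩ := hgen ⟨a, ha⟩ (fun h' => ha1 (congrArg Subtype.val h')) ⟨z₀, hz₀⟩
    have e : a ^ k = z₀ := congrArg Subtype.val hk
    have : ρ' z₀ = 1 := by rw [← e, map_pow, h, one_pow]
    rw [hρ'z] at this
    obtain ⟨⟨u, hu⟩⟩ : Nontrivial U := inferInstance
    obtain ⟨u₀, hu₀⟩ := exists_ne (0 : U)
    have h8 := congrArg (fun f : Module.End F U => f u₀) this
    simp only [LinearMap.smul_apply, Module.End.one_apply] at h8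
    have h9 : (l - 1) • u₀ = 0 := by rw [sub_smul, h8, one_smul, sub_self]
    rcases smul_eq_zero.mp h9 with h10 | h10
    · exact hl1 (sub_eq_zero.mp h10)
    · exact hu₀ h10
  have hRA : R = A := by
    apply le_antisymm
    · intro g hg
      refine Subgroup.mem_center_iff.mpr fun h => ?_
      have h1 : ν ⁅h, g⁆ = 1 := (mem_radG _).1 hg h
      have h2 : ρ' ⁅h, g⁆ = 1 := by rw [hν _ (hcomm h g), h1, one_smul]
      exact commutatorElement_eq_one_iff_mul_comm.mp (hinjA _ (hcomm h g) h2)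
    · intro a ha
      refine (mem_radG _).2 fun h => ?_
      have h1 : ⁅h, a⁆ = 1 :=
        commutatorElement_eq_one_iff_mul_comm.mpr (Subgroup.mem_center_iff.mp ha h)
      show ν ⁅h, a⁆ = 1
      rw [h1]
      have h2 := hν 1 A.one_mem
      rw [map_one] at h2
      obtain ⟨u₀, hu₀⟩ := exists_ne (0 : U)
      have h8 := congrArg (fun f : Module.End F U => f u₀) h2
      simp only [LinearMap.smul_apply, Module.End.one_apply] at h8
      have h9 : (ν 1 - 1) • u₀ = 0 := by rw [sub_smul, ← h8, one_smul, sub_self]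
      rcases smul_eq_zero.mp h9 with h10 | h10
      · exact sub_eq_zero.mp h10
      · exact absurd h10 hu₀
  rw [hRA] at hle hreg
  obtain ⟨n, hn⟩ := Cfsg.Agent.Lib.Transfer.card_eq_odd_pow_aux (X := Q) A hAcard _ ⊤ rfl le_top
    (fun a _ b _ => hcomm a b)
    (fun a ha b _ => (Subgroup.mem_center_iff.mp ha b))
    (by
      ext g
      simp only [Subgroup.mem_inf, Subgroup.mem_top, true_and, Subgroup.mem_centralizer_iff]
      constructor
      · intro h
        exact Subgroup.mem_center_iff.mpr fun b => (h b (Set.mem_univ b))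
      · intro h b _
        exact Subgroup.mem_center_iff.mp h b)
  rw [Subgroup.card_top] at hn
  have hidx : A.index = q ^ (2 * n) := by
    have h1 := Subgroup.card_mul_index A
    rw [hAcard, hn, pow_succ, mul_comm] at h1
    exact Nat.eq_of_mul_eq_mul_right hq.pos h1
  have hn0 : n ≠ 0 := by
    rintro rfl
    have h1 : A = ⊤ := Subgroup.index_eq_one.mp (by simpa using hidx)
    have h2 : commutator Q = ⊥ := (commutator_eq_bot_iff_center_eq_top (G := Q)).mpr h1
    have h3 : z₀ ∈ commutator Q := by rw [hC]; exact hz₀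
    rw [h2, Subgroup.mem_bot] at h3
    exact hz₀1 h3
  have hdvd := dvd_index_sub_one A σ hθA hr.pos hσ (fun g hg i hi0 hi => hreg g hg i hi0 (by rwa [hr1]))
  have hNq : 2 ≤ q ^ n := by
    calc 2 ≤ q := hq.two_le
      _ ≤ q ^ n := Nat.le_self_pow hn0 q
  have hle' : Nat.card (Q ⧸ A) = (q ^ n) ^ 2 := by
    show A.index = _
    rw [hidx, ← pow_mul, mul_comm]
  rw [hle'] at hle
  have hmain := arith_main (p := r) (m := 1) (N := q ^ n) hr (Or.inr rfl) one_pos hNq
    (by
      rw [hr1, ← pow_mul, mul_comm n 2, ← hidx]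
      exact hdvd) hle
  rw [hr1] at hmain
  have hq2 : q = 2 := by
    rcases hr.eq_two_or_odd' with h2 | h2
    · exfalso
      omega
    · have h4 : Even (q ^ n) := by
        rw [← hmain] at h2
        by_contra hne
        have h3 : Odd (q ^ n) := Nat.not_even_iff_odd.mp hne
        exact (Nat.not_even_iff_odd.mpr h2) (h3.add_odd odd_one)
      have h5 : 2 ∣ q ^ n := h4.two_dvd
      have h6 := Nat.Prime.dvd_of_dvd_pow Nat.prime_two h5
      exact ((Nat.prime_dvd_prime_iff_eq Nat.prime_two hq).mp h6).symm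
  subst hq2
  exact ⟨rfl, n, hmain.symm, hn⟩

end Cfsg.Agent.Lib.PGroup.HH
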