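import Mathlib
import Cfsg.Agent.Lib.PGroup.HHExtra

/-!
# From elementary abelian groups to modules over an algebraically closed field
-/

namespace Cfsg.Agent.Lib.PGroup.HH

open scoped BigOperators TensorProduct

section

variable (p : ℕ) [Fact p.Prime]

/-- The algebraically closed field of characteristic `p`. -/
abbrev Kr := AlgebraicClosure (ZMod p)

variable (M : Type*) [AddCommGroup M] [Module (ZMod p) M]

/-- The scalar extension. -/
abbrev Wr := Kr p ⊗[ZMod p] M

/-- Scalar extension of operators. -/
noncomputable def bcE : Module.End (ZMod p) M →ₐ[ZMod p] Module.End (Kr p) (Wr p M) :=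
  Module.End.baseChangeHom _ _ _

theorem bcE_inj : Function.Injective (bcE p M) := LinearMap.baseChangeHom_injective (ZMod p) M (Kr p)

/-- Scalar extension of operators, as a hom of monoids. -/
noncomputable def bcM : Module.End (ZMod p) M →* Module.End (Kr p) (Wr p M) :=
  (bcE p M).toRingHom.toMonoidHom

theorem bcM_inj : Function.Injective (bcM p M) := bcE_inj p M

theorem bcM_eq (f : Module.End (ZMod p) M) : bcM p M f = bcE p M f := rfl

variable {p}

theorem Kr_cast_ne {q : ℕ} (hq : q.Prime) (h : p ≠ q) : (q : Kr p) ≠ 0 := by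
  intro h0
  rw [CharP.cast_eq_zero_iff (Kr p) p q] at h0
  exact h ((Nat.prime_dvd_prime_iff_eq Fact.out hq).mp h0)

variable {M}

theorem wr_nontrivial [Nontrivial M] : Nontrivial (Wr p M) := by
  by_contra hcon
  rw [not_nontrivial_iff_subsingleton] at hcon
  have h1 : bcE p M 0 = bcE p M 1 := by
    apply LinearMap.ext
    intro v
    exact Subsingleton.elim _ _
  have h2 := bcE_inj p M h1
  obtain ⟨v, hv⟩ := exists_ne (0 : M)
  have h3 := congrArg (fun f : Module.End (ZMod p) M => f v) h2
  exact hv h3.symm

theorem free_of_sum_zero {F W : Type*} [Field F] [AddCommGroup W] [Module F W] {x : Module.End F W} {K : ℕ}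
    (hK : (K : F) ≠ 0) (hT : ∑ i ∈ Finset.range K, x ^ i = 0) : ∀ v, x v = v → v = 0 := by
  intro v hv
  have h1 : ∀ i : ℕ, (x ^ i) v = v := by
    intro i
    induction i with
    | zero => rfl
    | succ i ih => rw [pow_succ', Module.End.mul_apply, ih, hv]
  have h2 := congrArg (fun f : Module.End F W => f v) hT
  simp only [LinearMap.sum_apply, h1, Finset.sum_const, Finset.card_range, LinearMap.zero_apply] at h2
  rw [← Nat.cast_smul_eq_nsmul F] at h2
  exact (smul_eq_zero.mp h2).resolve_left hK

theorem bc_free {x₀ : Module.End (ZMod p) M} {K : ℕ} (hK : (K : Kr p) ≠ 0) (hx : x₀ ^ K = 1)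
    (hfree : ∀ v, x₀ v = v → v = 0) : ∀ v, bcM p M x₀ v = v → v = 0 := by
  apply free_of_sum_zero hK
  have h1 := sum_pow_eq_zero hx hfree
  have h2 := congrArg (bcE p M) h1
  rw [map_sum, map_zero] at h2
  simp only [map_pow] at h2
  exact h2

/-- The extraspecial theorem for a module over the prime field. -/
theorem extra_module {q r : ℕ} (hq : q.Prime) (hr : r.Prime) (hpq : p ≠ q) (hpr : p ≠ r) (hqr : q ≠ r)
    [Finite M] [Nontrivial M] {Q : Type*} [Group Q] [Fintype Q] (hQ : Cfsg.IsExtraspecial q Q)
    (act : Q →* Module.End (ZMod p) M) (hact : Function.Injective act) (σ : Q ≃* Q)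
    (hσ : ∀ g, σ^[r] g = g) (hfix : ∀ g, σ g = g → g ∈ Subgroup.center Q)
    (hfixz : ∀ g ∈ Subgroup.center Q, σ g = g)
    (x₀ : Module.End (ZMod p) M) (hx₀ : ∀ g, x₀ * act g = act (σ g) * x₀) (hxr : x₀ ^ r = 1)
    (hfree : ∀ v, x₀ v = v → v = 0) :
    q = 2 ∧ ∃ n : ℕ, r = 2 ^ n + 1 ∧ Nat.card Q = 2 ^ (2 * n + 1) := by
  haveI : Nontrivial (Wr p M) := wr_nontrivial
  haveI : Module.Finite (ZMod p) M := Module.Finite.of_finite
  have hr' := Kr_cast_ne hr hpr
  refine hh_extra (F := Kr p) (W := Wr p M) hq hr hqr hQ ((bcM p M).comp act)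
    ((bcM_inj p M).comp hact) σ hσ hfix hfixz (bcM p M x₀) ?_ ?_ (bc_free hr' hxr hfree)
    (Kr_cast_ne hq hpq) hr'
  · intro g
    simp only [MonoidHom.comp_apply]
    rw [← map_mul, ← map_mul, hx₀]
  · rw [← map_pow, hxr, map_one]

end

section Aut

/-- Elementary abelian groups, as a proposition about the type. -/
def IsElem (p : ℕ) (A : Type*) [Group A] : Prop := (∀ a b : A, a * b = b * a) ∧ ∀ a : A, a ^ p = 1

/-- The additive copy of an elementary abelian group. -/
def EMod (_p : ℕ) (A : Type*) : Type _ := Additive A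

variable {p : ℕ} {A : Type*} [Group A]

/-- The map to the additive copy. -/
def eOf (p : ℕ) (a : A) : EMod p A := Additive.ofMul a

/-- The map from the additive copy. -/
def eTo (v : EMod p A) : A := Additive.toMul v

@[simp] theorem eTo_eOf (a : A) : eTo (eOf p a) = a := rfl

@[simp] theorem eOf_eTo (v : EMod p A) : eOf p (eTo v) = v := rfl

instance [hA : Fact (IsElem p A)] : AddCommGroup (EMod p A) :=
  { (inferInstance : AddGroup (Additive A)) with
    add_comm := fun a b => congrArg Additive.ofMul (hA.out.1 (Additive.toMul a) (Additive.toMul b)) }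

theorem eTo_add [Fact (IsElem p A)] (v w : EMod p A) : eTo (v + w) = eTo v * eTo w := rfl

theorem eTo_zero [Fact (IsElem p A)] : eTo (0 : EMod p A) = 1 := rfl

theorem eOf_eq_zero [Fact (IsElem p A)] {a : A} : eOf p a = 0 ↔ a = 1 := Iff.rfl

theorem eTo_eq_one [Fact (IsElem p A)] {v : EMod p A} : eTo v = 1 ↔ v = 0 := Iff.rfl

noncomputable instance [hA : Fact (IsElem p A)] : Module (ZMod p) (EMod p A) :=
  AddCommGroup.zmodModule (n := p) (fun x => by
    have h1 : (Additive.toMul x) ^ p = 1 := hA.out.2 _
    exact congrArg Additive.ofMul h1)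

instance [Finite A] : Finite (EMod p A) := (inferInstance : Finite (Additive A))

instance [Nontrivial A] : Nontrivial (EMod p A) := (inferInstance : Nontrivial (Additive A))

/-- Automorphisms of an elementary abelian group as operators on the additive copy. -/
noncomputable def eEnd [Fact (IsElem p A)] : MulAut A →* Module.End (ZMod p) (EMod p A) where
  toFun f := AddMonoidHom.toZModLinearMap p
    { toFun := fun v => eOf p (f (eTo v))
      map_zero' := map_one f
      map_add' := fun a b => map_mul f _ _ }
  map_one' := by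
    apply LinearMap.ext
    intro v
    rfl
  map_mul' a b := by
    apply LinearMap.ext
    intro v
    rfl

theorem eEnd_apply [Fact (IsElem p A)] (f : MulAut A) (v : EMod p A) : eEnd f v = eOf p (f (eTo v)) := rfl

theorem eEnd_eq_one [Fact (IsElem p A)] {f : MulAut A} (h : eEnd (p := p) f = 1) : f = 1 := by
  ext a
  have := congrArg (fun t : Module.End (ZMod p) (EMod p A) => t (eOf p a)) h
  exact congrArg (fun v : EMod p A => eTo v) this

end Aut

end Cfsg.Agent.Lib.PGroup.HH
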