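import Mathlib
import Cfsg.Agent.Lib.PGroup.HHDescent
import Cfsg.Agent.Lib.Hall.CoprimeLemmas

/-!
# Conjugation actions on an elementary abelian subgroup
-/

namespace Cfsg.Agent.Lib.PGroup.HH

open Subgroup Cfsg.Agent.Lib.Hall

variable {G : Type*} [Group G] [Finite G]

/-- The conjugation action of the normalizer. -/
noncomputable def nAct (V : Subgroup G) : normalizer (V : Set G) →* MulAut V where
  toFun g := normalizerAut V g.2
  map_one' := by
    ext v
    show (1 : G) * v * (1 : G)⁻¹ = v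
    group
  map_mul' a b := by
    ext v
    show (a.1 * b.1) * v * (a.1 * b.1)⁻¹ = a.1 * (b.1 * v * b.1⁻¹) * a.1⁻¹
    group

theorem nAct_coe (V : Subgroup G) (g : normalizer (V : Set G)) (v : V) :
    ((nAct V g v : V) : G) = g.1 * v * g.1⁻¹ := rfl

/-- Everything in a group of prime order is a power of a nonidentity element. -/
theorem exists_pow_of_prime_card {X : Subgroup G} {r : ℕ} (hr : r.Prime) (hX : Nat.card X = r) {x₀ : G}
    (hx₀ : x₀ ∈ X) (hne : x₀ ≠ 1) {a : G} (ha : a ∈ X) : ∃ k : ℕ, x₀ ^ k = a := by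
  haveI : Fact r.Prime := ⟨hr⟩
  haveI := Fintype.ofFinite X
  have h1 : (⟨x₀, hx₀⟩ : X) ≠ 1 := fun h => hne (congrArg Subtype.val h)
  obtain ⟨k, hk⟩ := mem_powers_of_prime_card (G := X) hX (g := ⟨x₀, hx₀⟩) (g' := ⟨a, ha⟩) h1
  exact ⟨k, congrArg Subtype.val hk⟩

/-- Iterating the automorphism induced by an element. -/
theorem normalizerAut_iter (K : Subgroup G) {g : G} (hg : g ∈ normalizer (K : Set G)) (i : ℕ) (k : K) :
    (((normalizerAut K hg)^[i] k : K) : G) = g ^ i * k * (g ^ i)⁻¹ := by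
  induction i with
  | zero => simp
  | succ i ih =>
    rw [Function.iterate_succ_apply', normalizerAut_coe, ih, pow_succ']
    group

end Cfsg.Agent.Lib.PGroup.HH
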