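import Mathlib

/-!
# Arithmetic for the fixed-point-free case
-/

namespace Cfsg.Agent.Lib.PGroup.HH

/-- The exponent in `2 ^ d ≡ 1` modulo `2 ^ n + 1` is a multiple of `2 * n`. -/
theorem two_n_dvd {n d : ℕ} (hn : 0 < n) (hd : 2 ^ n + 1 ∣ 2 ^ d - 1) : 2 * n ∣ d := by
  set K := 2 ^ n + 1 with hK
  have hNpos : 1 ≤ 2 ^ n := Nat.one_le_two_pow
  have hKgt : 2 < K := by
    have : 2 ≤ 2 ^ n := by
      calc 2 = 2 ^ 1 := rfl
        _ ≤ 2 ^ n := Nat.pow_le_pow_right (by norm_num) hn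
    omega
  have hone : ∀ e : ℕ, 1 ≤ 2 ^ e := fun e => Nat.one_le_two_pow
  have hbase : 2 ^ (2 * n) ≡ 1 [MOD K] := by
    have h1 : 2 ^ (2 * n) = 1 + K * (2 ^ n - 1) := by
      rw [mul_comm 2 n, pow_mul, hK]
      obtain ⟨N, hN⟩ : ∃ N, 2 ^ n = N + 1 := ⟨2 ^ n - 1, by omega⟩
      rw [hN]
      simp only [Nat.add_sub_cancel]
      ring
    rw [h1]
    simp [Nat.ModEq]
  have hdm : 2 ^ d ≡ 1 [MOD K] := by
    exact ((Nat.modEq_iff_dvd' (hone d)).mpr hd).symm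
  have hsplit : d = 2 * n * (d / (2 * n)) + d % (2 * n) := (Nat.div_add_mod d (2 * n)).symm
  set b := d % (2 * n) with hb
  have hblt : b < 2 * n := Nat.mod_lt _ (by omega)
  have hbm : 2 ^ b ≡ 1 [MOD K] := by
    have h1 : 2 ^ d ≡ 1 * 2 ^ b [MOD K] := by
      rw [hsplit, pow_add, pow_mul]
      exact Nat.ModEq.mul_right _ ((hbase.pow _).trans (by rw [one_pow]))
    rw [one_mul] at h1
    exact h1.symm.trans hdm
  have hb0 : b = 0 := by
    by_contra hne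
    have hbd : K ∣ 2 ^ b - 1 := (Nat.modEq_iff_dvd' (hone b)).mp hbm.symm
    have hbpos : 2 ≤ 2 ^ b := by
      calc 2 = 2 ^ 1 := rfl
        _ ≤ 2 ^ b := Nat.pow_le_pow_right (by norm_num) (by omega)
    by_cases hle : b ≤ n
    · have h1 : 2 ^ b ≤ 2 ^ n := Nat.pow_le_pow_right (by norm_num) hle
      have h2 := Nat.le_of_dvd (by omega) hbd
      omega
    · push Not at hle
      obtain ⟨c, hc'⟩ : ∃ c, b = n + c := ⟨b - n, by omega⟩
      have hc : c < n := by omega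
      have hc0 : 0 < c := by omega
      have e : 2 ^ b = 2 ^ n * 2 ^ c := by rw [hc', pow_add]
      have h1 : K ∣ 2 ^ b + 2 ^ c := by
        rw [e, hK]
        exact ⟨2 ^ c, by ring⟩
      have h2 : K ∣ (2 ^ b + 2 ^ c) - (2 ^ b - 1) := Nat.dvd_sub h1 hbd
      have h3 : (2 ^ b + 2 ^ c) - (2 ^ b - 1) = 2 ^ c + 1 := by
        have := hone b
        have := hone c
        omega
      rw [h3] at h2
      have h4 := Nat.le_of_dvd (by have := hone c; omega) h2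
      have h5 : 2 ^ c < 2 ^ n := Nat.pow_lt_pow_right (by norm_num) hc
      omega
  rw [hb0, add_zero] at hsplit
  exact ⟨_, hsplit⟩

/-- The lifting-the-exponent estimate. -/
theorem arith_fpf {p m m₀ n d : ℕ} (hp : p.Prime) (hp2 : p ≠ 2) (hn : 0 < n) (hm₀ : 0 < m₀) (hm₀m : m₀ ≤ m)
    (harith : 2 ^ n + 1 = p ^ m₀) (hd0 : d ≠ 0) (hd : p ^ m ∣ 2 ^ d - 1) : 2 * n * p ^ (m - m₀) ≤ d := by
  haveI : Fact p.Prime := ⟨hp⟩
  have hodd : Odd p := hp.odd_of_ne_two hp2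
  have hdvd0 : p ^ m₀ ∣ p ^ m := pow_dvd_pow p hm₀m
  obtain ⟨a, ha⟩ := two_n_dvd hn (by rw [harith]; exact hdvd0.trans hd)
  have ha0 : a ≠ 0 := by
    rintro rfl
    simp at ha
    exact hd0 ha
  let x := 2 ^ (2 * n)
  have hxgt : 1 < x := Nat.one_lt_two_pow (by omega)
  have hNpos : 2 ≤ 2 ^ n := by
    calc 2 = 2 ^ 1 := rfl
      _ ≤ 2 ^ n := Nat.pow_le_pow_right (by norm_num) hn
  have hxfac : x - 1 = (2 ^ n - 1) * p ^ m₀ := by
    rw [← harith]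
    show 2 ^ (2 * n) - 1 = _
    rw [mul_comm 2 n, pow_mul]
    obtain ⟨N, hN⟩ : ∃ N, 2 ^ n = N + 1 := ⟨2 ^ n - 1, by omega⟩
    rw [hN]
    simp only [Nat.add_sub_cancel]
    have : (N + 1) ^ 2 = N * (N + 1 + 1) + 1 := by ring
    rw [this]
    simp
  have hpdvd : p ∣ x - 1 := by
    rw [hxfac]
    exact Dvd.dvd.mul_left (dvd_pow_self p hm₀.ne') _
  have hpx : ¬ p ∣ x := by
    intro h
    have := Nat.Prime.dvd_of_dvd_pow hp h
    exact hp2 ((Nat.prime_dvd_prime_iff_eq hp Nat.prime_two).mp this)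
  have hlte := padicValNat.pow_sub_pow (p := p) (x := x) (y := 1) hodd hxgt hpdvd hpx ha0
  rw [one_pow] at hlte
  have hpN : ¬ p ∣ 2 ^ n - 1 := by
    intro h
    have h1 : p ∣ 2 ^ n + 1 := by rw [harith]; exact dvd_pow_self p hm₀.ne'
    have h2 : p ∣ (2 ^ n + 1) - (2 ^ n - 1) := Nat.dvd_sub h1 h
    have h3 : (2 ^ n + 1) - (2 ^ n - 1) = 2 := by omega
    rw [h3] at h2
    exact hp2 ((Nat.prime_dvd_prime_iff_eq hp Nat.prime_two).mp h2)
  have hval : padicValNat p (x - 1) = m₀ := by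
    rw [hxfac, padicValNat.mul (by omega) (pow_ne_zero _ hp.ne_zero),
      padicValNat.eq_zero_of_not_dvd hpN, padicValNat.prime_pow, zero_add]
  have hxa : x ^ a - 1 = 2 ^ d - 1 := by
    show (2 ^ (2 * n)) ^ a - 1 = _
    rw [← pow_mul, ← ha]
  have hne : 2 ^ d - 1 ≠ 0 := by
    have : 1 < 2 ^ d := Nat.one_lt_two_pow hd0
    omega
  have hle : m ≤ padicValNat p (2 ^ d - 1) := (padicValNat_dvd_iff_le hne).mp hd
  rw [← hxa, hlte, hval] at hle
  have hle2 : m - m₀ ≤ padicValNat p a := by omega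
  have hdvd : p ^ (m - m₀) ∣ a := (padicValNat_dvd_iff_le ha0).mpr hle2
  have hle3 := Nat.le_of_dvd (Nat.pos_of_ne_zero ha0) hdvd
  rw [ha]
  exact Nat.mul_le_mul_left _ hle3

end Cfsg.Agent.Lib.PGroup.HH
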