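import Mathlib
import Cfsg.Agent.Lib.PGroup.HHRes
import Cfsg.Agent.Lib.Transfer.Special

/-!
# The order of the quotient by the radical
-/

namespace Cfsg.Agent.Lib.PGroup.HH

open scoped BigOperators commutatorElement

variable {F W Q : Type*} [Field F] [AddCommGroup W] [Module F W] [Group Q]

/-- There are at most `q` solutions of `X ^ q = 1`. -/
theorem card_le_of_pow_eq_one {Z : Type*} [Finite Z] {q : ℕ} (hq : 0 < q) (s : Z → F) (hs : Function.Injective s)
    (h : ∀ z, s z ^ q = 1) : Nat.card Z ≤ q := by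
  classical
  haveI := Fintype.ofFinite Z
  rw [Nat.card_eq_fintype_card]
  have h1 : Fintype.card Z ≤ (Polynomial.nthRoots q (1 : F)).toFinset.card := by
    apply Finset.card_le_card_of_injOn (f := s)
    · intro z _
      simp only [Multiset.mem_toFinset, Finset.mem_coe]
      exact (Polynomial.mem_nthRoots hq).mpr (h z)
    · intro a _ b _ hab
      exact hs hab
  have h2 : (Polynomial.nthRoots q (1 : F)).toFinset.card ≤ Multiset.card (Polynomial.nthRoots q (1 : F)) :=
    Multiset.toFinset_card_le _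
  have h3 := Polynomial.card_nthRoots q (1 : F)
  omega

/-- The quotient by the radical of the commutator form is a square. -/
theorem card_quot_rad [Nontrivial W] [Finite Q] {q : ℕ} (hq : q.Prime) (hQ : IsPGroup q Q)
    (ρ : Q →* Module.End F W) (A : Subgroup Q) (ν : Q → F) (hcomm : ∀ g h : Q, ⁅g, h⁆ ∈ A)
    (hν : ∀ a ∈ A, ρ a = ν a • 1) (R : Subgroup Q) [R.Normal] (hR : ∀ g, g ∈ R ↔ ∀ h : Q, ν ⁅h, g⁆ = 1)
    (hAR : A ≤ R) (hscal : ∀ r ∈ R, ∃ a ∈ A, ρ r = ν a • 1) (hνq : ∀ a ∈ A, (ν a) ^ q = 1)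
    {c : Q} (hcA : c ∈ A) (hc : ν c ≠ 1) : ∃ n, R.index = q ^ (2 * n) := by
  classical
  haveI : Fact q.Prime := ⟨hq⟩
  have hsmulinj : ∀ a b : F, a • (1 : Module.End F W) = b • 1 → a = b := by
    intro a b h
    obtain ⟨v, hv⟩ := exists_ne (0 : W)
    have h1 := congrArg (fun t : Module.End F W => t v) h
    simp only [LinearMap.smul_apply, Module.End.one_apply] at h1
    have h2 : (a - b) • v = 0 := by rw [sub_smul, h1, sub_self]
    rcases smul_eq_zero.mp h2 with h3 | h3
    · exact sub_eq_zero.mp h3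
    · exact absurd h3 hv
  let K₁ : Subgroup Q := ρ.ker
  have hK₁ : ∀ g, g ∈ K₁ ↔ ρ g = 1 := fun g => MonoidHom.mem_ker
  haveI : K₁.Normal := MonoidHom.normal_ker ρ
  have hK₁R : K₁ ≤ R := by
    intro g hg
    rw [hR]
    intro h
    have h1 : ρ ⁅h, g⁆ = 1 := by
      have hg' : g⁻¹ ∈ K₁ := K₁.inv_mem hg
      rw [commutatorElement_def, map_mul, map_mul, map_mul, (hK₁ g).mp hg, mul_one,
        (hK₁ _).mp hg', mul_one, ← map_mul, mul_inv_cancel, map_one]
    rw [hν _ (hcomm h g)] at h1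
    apply hsmulinj
    rw [h1, one_smul]
  let mk := QuotientGroup.mk' K₁
  have hmk : ∀ g, mk g = 1 ↔ ρ g = 1 := by
    intro g
    show (QuotientGroup.mk g : Q ⧸ K₁) = 1 ↔ _
    rw [QuotientGroup.eq_one_iff, hK₁]
  have hmks : Function.Surjective mk := QuotientGroup.mk'_surjective K₁
  let Z : Subgroup (Q ⧸ K₁) := R.map mk
  -- the scalar map
  have hscex : ∀ z : Z, ∃ (t : F), t ^ q = 1 ∧ ∃ g : Q, mk g = z.1 ∧ ρ g = t • 1 := by
    rintro ⟨z, r, hr, rfl⟩
    obtain ⟨a, ha, e⟩ := hscal r hr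
    exact ⟨ν a, hνq a ha, r, rfl, e⟩
  choose s hs1 g' hg'1 hg'2 using hscex
  have hsinj : Function.Injective s := by
    intro z w hzw
    apply Subtype.ext
    rw [← hg'1 z, ← hg'1 w]
    have h1 : ρ (g' z) = ρ (g' w) := by rw [hg'2, hg'2, hzw]
    have h2 : mk (g' z * (g' w)⁻¹) = 1 := by
      rw [hmk, map_mul, h1, ← map_mul, mul_inv_cancel, map_one]
    rw [map_mul, map_inv] at h2
    exact mul_inv_eq_one.mp h2
  have hZle : Nat.card Z ≤ q := card_le_of_pow_eq_one hq.pos s hsinj hs1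
  have hZP : IsPGroup q Z := (hQ.of_surjective mk hmks).to_subgroup Z
  obtain ⟨k, hk⟩ := IsPGroup.iff_card.mp hZP
  have hcZ : (⟨mk c, c, hAR hcA, rfl⟩ : Z) ≠ 1 := by
    intro h
    have h1 : mk c = 1 := congrArg Subtype.val h
    rw [hmk, hν c hcA] at h1
    apply hc
    apply hsmulinj
    rw [h1, one_smul]
  have hZcard : Nat.card Z = q := by
    have hk0 : k ≠ 0 := by
      rintro rfl
      rw [pow_zero] at hk
      haveI : Subsingleton Z := (Nat.card_eq_one_iff_unique.mp hk).1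
      exact hcZ (Subsingleton.elim _ _)
    have hk1 : k = 1 := by
      by_contra hne
      have : 2 ≤ k := by omega
      have h1 : q ^ 2 ≤ q ^ k := Nat.pow_le_pow_right hq.pos this
      have h2 : q < q ^ 2 := by nlinarith [hq.two_le]
      omega
    rw [hk, hk1, pow_one]
  have hmkeq : ∀ a b : Q, ρ a = ρ b → mk a = mk b := by
    intro a b h
    have h2 : mk (a * b⁻¹) = 1 := by
      rw [hmk, map_mul, h, ← map_mul, mul_inv_cancel, map_one]
    rw [map_mul, map_inv] at h2
    exact mul_inv_eq_one.mp h2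
  have hZC : Z ≤ Subgroup.centralizer ((⊤ : Subgroup (Q ⧸ K₁)) : Set (Q ⧸ K₁)) := by
    rintro _ ⟨r, hr, rfl⟩
    rw [Subgroup.mem_centralizer_iff]
    intro y _
    obtain ⟨h, rfl⟩ := hmks y
    obtain ⟨a, _, e⟩ := hscal r hr
    rw [← map_mul, ← map_mul]
    apply hmkeq
    rw [map_mul, map_mul, e]
    simp only [mul_smul_comm, smul_mul_assoc, mul_one, one_mul]
  obtain ⟨n, hn⟩ := Cfsg.Agent.Lib.Transfer.card_eq_odd_pow_aux (X := Q ⧸ K₁) Z hZcard _ ⊤ rfl le_top
    (by
      intro x _ y _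
      obtain ⟨g, rfl⟩ := hmks x
      obtain ⟨h, rfl⟩ := hmks y
      rw [← map_commutatorElement]
      exact ⟨_, hAR (hcomm g h), rfl⟩)
    hZC
    (by
      apply le_antisymm
      · rintro x ⟨-, hx⟩
        obtain ⟨g, rfl⟩ := hmks x
        refine ⟨g, ?_, rfl⟩
        show g ∈ R
        rw [hR]
        intro h
        have hx' := Subgroup.mem_centralizer_iff.mp hx (mk h) (Subgroup.mem_top _)
        have h1 : mk ⁅h, g⁆ = 1 := by
          rw [map_commutatorElement, commutatorElement_eq_one_iff_mul_comm]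
          exact hx'
        rw [hmk, hν _ (hcomm h g)] at h1
        apply hsmulinj
        rw [h1, one_smul]
      · intro x hx
        exact ⟨Subgroup.mem_top _, hZC hx⟩)
  rw [Subgroup.card_top] at hn
  have hindex : K₁.relIndex R * R.index = K₁.index := Subgroup.relIndex_mul_index hK₁R
  have hrel : K₁.relIndex R = Nat.card Z := by
    let f : R →* Q ⧸ K₁ := mk.comp R.subtype
    have h1 : f.ker = K₁.subgroupOf R := by
      ext r
      rw [MonoidHom.mem_ker, Subgroup.mem_subgroupOf]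
      show (QuotientGroup.mk r.1 : Q ⧸ K₁) = 1 ↔ _
      rw [QuotientGroup.eq_one_iff]
    have h2 : f.range = Z := by
      rw [MonoidHom.range_comp, Subgroup.range_subtype]
    show (K₁.subgroupOf R).index = _
    rw [← h1, Subgroup.index_ker, h2]
  have hK₁idx : K₁.index = q ^ (2 * n + 1) := hn
  rw [hrel, hZcard, hK₁idx, pow_succ, mul_comm] at hindex
  exact ⟨n, Nat.eq_of_mul_eq_mul_right hq.pos hindex⟩

end Cfsg.Agent.Lib.PGroup.HH
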