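import Mathlib
import Cfsg.Agent.Lib.PGroup.HHRes

/-!
# Characters of a central subgroup and their eigenspaces
-/

namespace Cfsg.Agent.Lib.PGroup.HH

open scoped BigOperators commutatorElement

variable {F W Q : Type*} [Field F] [AddCommGroup W] [Module F W] [Group Q]

/-- A common eigenvector in an invariant subspace for a finite commuting family. -/
theorem exists_common_eigen [IsAlgClosed F] [FiniteDimensional F W] {ι : Type*} (f : ι → Module.End F W)
    (hf : ∀ a b, f a * f b = f b * f a) (S : Finset ι) :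
    ∀ U : Submodule F W, U ≠ ⊥ → (∀ a, ∀ u ∈ U, f a u ∈ U) →
      ∃ v ∈ U, v ≠ 0 ∧ ∀ a ∈ S, ∃ c : F, f a v = c • v := by
  classical
  induction S using Finset.induction_on with
  | empty =>
    intro U hU _
    obtain ⟨v, hv, hv0⟩ := Submodule.exists_mem_ne_zero_of_ne_bot hU
    exact ⟨v, hv, hv0, by simp⟩
  | insert a S _ ih =>
    intro U hU hinv
    haveI : Nontrivial U := Submodule.nontrivial_iff_ne_bot.mpr hU
    obtain ⟨c, hc⟩ := Module.End.exists_eigenvalue ((f a).restrict (hinv a))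
    obtain ⟨w, hw⟩ := hc.exists_hasEigenvector
    have hw1 : (f a).restrict (hinv a) w = c • w := hw.apply_eq_smul
    have hw2 : f a w.1 = c • w.1 := congrArg Subtype.val hw1
    have hw0 : w.1 ≠ 0 := fun h => hw.2 (Subtype.ext h)
    let U₁ : Submodule F W := U ⊓ Wi (f a) c
    have hU₁ : U₁ ≠ ⊥ := by
      intro h
      have : w.1 ∈ U₁ := ⟨w.2, mem_Wi.mpr hw2⟩
      rw [h, Submodule.mem_bot] at this
      exact hw0 this
    have hinv₁ : ∀ b, ∀ u ∈ U₁, f b u ∈ U₁ := by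
      intro b u hu
      refine ⟨hinv b u hu.1, mem_Wi.mpr ?_⟩
      have h1 : f a u = c • u := mem_Wi.mp hu.2
      have := congrArg (fun t : Module.End F W => t u) (hf a b)
      simp only [Module.End.mul_apply] at this
      rw [this, h1, map_smul]
    obtain ⟨v, hv, hv0, hvS⟩ := ih U₁ hU₁ hinv₁
    refine ⟨v, hv.1, hv0, ?_⟩
    intro b hb
    rcases Finset.mem_insert.mp hb with rfl | hb
    · exact ⟨c, mem_Wi.mp hv.2⟩
    · exact hvS b hb

/-- A character of a finite abelian group of operators, nontrivial on `c`. -/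
theorem exists_char [IsAlgClosed F] [FiniteDimensional F W] [Finite Q] (A : Subgroup Q) (ρ : Q →* Module.End F W)
    (hA : ∀ a ∈ A, ∀ g, a * g = g * a) {c : Q} (hcA : c ∈ A) {n : ℕ} (hn : (n : F) ≠ 0)
    (hcn : c ^ n = 1) (hc : ρ c ≠ 1) :
    ∃ ν : Q → F, ∃ v : W, v ≠ 0 ∧ (∀ a ∈ A, ρ a v = ν a • v) ∧ ν c ≠ 1 ∧
      (∀ a ∈ A, ∀ b ∈ A, ν (a * b) = ν a * ν b) ∧ (∀ a ∈ A, ν a ≠ 0) := by
  classical
  haveI := Fintype.ofFinite Q
  obtain ⟨l, hln, hl1, v₀, hv₀, hv₀l⟩ := exists_eig_ne_one (x := ρ c) hn (by rw [← map_pow, hcn, map_one]) hc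
  let f : A → Module.End F W := fun a => ρ a
  have hf : ∀ a b, f a * f b = f b * f a := by
    intro a b
    show ρ a.1 * ρ b.1 = ρ b.1 * ρ a.1
    rw [← map_mul, ← map_mul, hA a.1 a.2 b.1]
  let U : Submodule F W := Wi (ρ c) l
  have hU : U ≠ ⊥ := by
    intro h
    have : v₀ ∈ U := mem_Wi.mpr hv₀l
    rw [h, Submodule.mem_bot] at this
    exact hv₀ this
  have hinv : ∀ a, ∀ u ∈ U, f a u ∈ U := by
    intro a u hu
    refine mem_Wi.mpr ?_
    have h1 : ρ c u = l • u := mem_Wi.mp hu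
    have := congrArg (fun t : Module.End F W => t u) (hf ⟨c, hcA⟩ a)
    simp only [Module.End.mul_apply] at this
    have h2 : ρ c (f a u) = f a (ρ c u) := this
    rw [h2, h1, map_smul]
  obtain ⟨v, hvU, hv0, hvS⟩ := exists_common_eigen f hf Finset.univ U hU hinv
  have hex : ∀ a : Q, a ∈ A → ∃ t : F, ρ a v = t • v := by
    intro a ha
    exact hvS ⟨a, ha⟩ (Finset.mem_univ _)
  choose! ν hν using hex
  have hmul : ∀ a ∈ A, ∀ b ∈ A, ν (a * b) = ν a * ν b := by
    intro a ha b hb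
    have h1 := hν _ (A.mul_mem ha hb)
    rw [map_mul, Module.End.mul_apply, hν b hb, map_smul, hν a ha, smul_smul] at h1
    have h2 : (ν (a * b) - ν b * ν a) • v = 0 := by rw [sub_smul, ← h1, sub_self]
    rcases smul_eq_zero.mp h2 with h3 | h3
    · rw [sub_eq_zero.mp h3, mul_comm]
    · exact absurd h3 hv0
  have hone : ν 1 = 1 := by
    have h1 := hν 1 A.one_mem
    rw [map_one, Module.End.one_apply] at h1
    have h2 : (ν 1 - 1) • v = 0 := by rw [sub_smul, ← h1, one_smul, sub_self]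
    rcases smul_eq_zero.mp h2 with h3 | h3
    · exact sub_eq_zero.mp h3
    · exact absurd h3 hv0
  refine ⟨ν, v, hv0, hν, ?_, hmul, ?_⟩
  · have h1 := hν c hcA
    rw [mem_Wi.mp hvU] at h1
    intro h
    rw [h] at h1
    apply hl1
    have h2 : (l - 1) • v = 0 := by rw [sub_smul, h1, one_smul, sub_self]
    rcases smul_eq_zero.mp h2 with h3 | h3
    · exact sub_eq_zero.mp h3
    · exact absurd h3 hv0
  · intro a ha h0
    have h1 := hmul a ha a⁻¹ (A.inv_mem ha)
    rw [mul_inv_cancel, hone, h0, zero_mul] at h1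
    exact one_ne_zero h1

/-- The orthogonality of two distinct characters. -/
theorem sum_char_eq_zero {B : Type*} [Group B] [Fintype B] (χ₁ χ₂ : B → F)
    (h1 : ∀ a b, χ₁ (a * b) = χ₁ a * χ₁ b) (h2 : ∀ a b, χ₂ (a * b) = χ₂ a * χ₂ b)
    (h10 : ∀ a, χ₁ a ≠ 0) {b₀ : B} (hb₀ : χ₁ b₀ ≠ χ₂ b₀) : ∑ b, (χ₁ b)⁻¹ * χ₂ b = 0 := by
  classical
  set S := ∑ b, (χ₁ b)⁻¹ * χ₂ b with hS
  have e : S = (χ₁ b₀)⁻¹ * χ₂ b₀ * S := by
    rw [hS, Finset.mul_sum]
    refine (Fintype.sum_equiv (Equiv.mulLeft b₀) _ _ fun b => ?_).symm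
    simp only [Equiv.coe_mulLeft]
    rw [h1, h2, mul_inv]
    ring
  have e2 : (1 - (χ₁ b₀)⁻¹ * χ₂ b₀) * S = 0 := by
    rw [sub_mul, one_mul, ← e, sub_self]
  rcases mul_eq_zero.mp e2 with h3 | h3
  · exfalso
    apply hb₀
    have h4 : (χ₁ b₀)⁻¹ * χ₂ b₀ = 1 := (sub_eq_zero.mp h3).symm
    field_simp [h10 b₀] at h4
    exact h4.symm
  · exact h3

/-- The minimal period of a property closed under addition and subtraction. -/
theorem exists_period {P : ℕ → Prop} (hadd : ∀ i j, P i → P j → P (i + j)) (hsub : ∀ i j, P (i + j) → P i → P j)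
    (h0 : P 0) {K : ℕ} (hK : 0 < K) (hPK : P K) :
    ∃ l, 0 < l ∧ l ∣ K ∧ P l ∧ ∀ i, 0 < i → i < l → ¬ P i := by
  classical
  have hex : ∃ l, 0 < l ∧ P l := ⟨K, hK, hPK⟩
  let l := Nat.find hex
  have hl : 0 < l ∧ P l := Nat.find_spec hex
  have hmin : ∀ i, 0 < i → i < l → ¬ P i := fun i hi0 hil hPi => Nat.find_min hex hil ⟨hi0, hPi⟩
  refine ⟨l, hl.1, ?_, hl.2, hmin⟩
  have hmul : ∀ t, P (l * t) := by
    intro t
    induction t with
    | zero => simpa using h0
    | succ t ih => rw [mul_add, mul_one]; exact hadd _ _ ih hl.2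
  have hs : P (K % l) := by
    apply hsub (l * (K / l)) _ _ (hmul _)
    rw [Nat.div_add_mod]
    exact hPK
  by_contra hnd
  have h1 : K % l ≠ 0 := fun h => hnd (Nat.dvd_of_mod_eq_zero h)
  exact hmin _ (Nat.pos_of_ne_zero h1) (Nat.mod_lt _ hl.1) hs

/-- **Principle A.** A vector in an eigenspace of a central subgroup, fixed by the stabilizer power,
vanishes if the operator `x` has no fixed vectors. -/
theorem fixed_eigen_zero [Finite Q] (A : Subgroup Q) (ρ : Q →* Module.End F W) (ν : Q → F) (σ : Q ≃* Q)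
    (hAσ : ∀ a ∈ A, σ a ∈ A) (hmul : ∀ a ∈ A, ∀ b ∈ A, ν (a * b) = ν a * ν b) (hν0 : ∀ a ∈ A, ν a ≠ 0)
    (hA : (Nat.card A : F) ≠ 0)
    (x : Module.End F W) (hxρ : ∀ g, x * ρ g = ρ (σ g) * x) (hfree : ∀ v, x v = v → v = 0)
    {l : ℕ} (hl : ∀ i, 0 < i → i < l → ¬ ∀ a ∈ A, ν (σ^[i] a) = ν a) (hl0 : 0 < l)
    {w : W} (hw : ∀ a ∈ A, ρ a w = ν a • w) (hwl : (x ^ l) w = w) : w = 0 := by
  classical
  haveI := Fintype.ofFinite Q
  haveI : Fintype A := Fintype.ofFinite A
  -- the sum is fixed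
  let s : W := ∑ i ∈ Finset.range l, (x ^ i) w
  have hs : x s = s := by
    simp only [s, map_sum]
    simp only [← Module.End.mul_apply, ← pow_succ']
    exact shift_sum (fun i => (x ^ i) w) l (by simpa using hwl)
  have hs0 : s = 0 := hfree s hs
  have hAit : ∀ (j : ℕ), ∀ r ∈ A, σ^[j] r ∈ A := by
    intro j r hr
    induction j with
    | zero => exact hr
    | succ j ih =>
      rw [Function.iterate_succ_apply']
      exact hAσ _ ih
  have hxi : ∀ (i : ℕ) (g : Q), x ^ i * ρ g = ρ (σ^[i] g) * x ^ i := by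
    intro i g
    induction i generalizing g with
    | zero => simp
    | succ i ih =>
      rw [pow_succ, mul_assoc, hxρ, ← mul_assoc, ih, mul_assoc, ← pow_succ,
        Function.iterate_succ_apply]
  let π : Module.End F W := ∑ a : A, (ν a)⁻¹ • ρ (a : Q)
  have hbij : ∀ i : ℕ, Function.Bijective (fun b : A => (⟨σ^[i] b.1, hAit i b.1 b.2⟩ : A)) := by
    intro i
    refine (Finite.injective_iff_bijective).mp fun a b h => ?_
    apply Subtype.ext
    exact (σ.injective.iterate i) (congrArg Subtype.val h)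
  have hπ : ∀ i, π ((x ^ i) w) = (∑ b : A, (ν (σ^[i] b.1))⁻¹ * ν b.1) • (x ^ i) w := by
    intro i
    simp only [π, LinearMap.sum_apply, LinearMap.smul_apply]
    rw [← (hbij i).sum_comp, Finset.sum_smul]
    refine Finset.sum_congr rfl fun b _ => ?_
    have h1 := congrArg (fun t : Module.End F W => t w) (hxi i b.1)
    simp only [Module.End.mul_apply] at h1
    rw [← h1, hw b.1 b.2, map_smul, smul_smul]
  have hzero : ∀ i ∈ Finset.range l, i ≠ 0 → π ((x ^ i) w) = 0 := by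
    intro i hi hi0
    rw [hπ]
    have hnot := hl i (Nat.pos_of_ne_zero hi0) (Finset.mem_range.mp hi)
    push Not at hnot
    obtain ⟨b₀, hb₀, hb₀'⟩ := hnot
    have : (∑ b : A, (ν (σ^[i] b.1))⁻¹ * ν b.1) = 0 :=
      sum_char_eq_zero (fun b : A => ν (σ^[i] b.1)) (fun b : A => ν b.1)
        (fun a b => by
          show ν (σ^[i] (a.1 * b.1)) = _
          rw [iter_mul, hmul _ (hAit i _ a.2) _ (hAit i _ b.2)])
        (fun a b => hmul _ a.2 _ b.2)
        (fun a => hν0 _ (hAit i _ a.2)) (b₀ := ⟨b₀, hb₀⟩) hb₀'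
    rw [this, zero_smul]
  have h1 : π s = 0 := by rw [hs0, map_zero]
  simp only [s, map_sum] at h1
  rw [Finset.sum_eq_single 0 hzero (fun h => absurd (Finset.mem_range.mpr hl0) h), hπ] at h1
  simp only [Function.iterate_zero, id_eq, pow_zero, Module.End.one_apply] at h1
  have h2 : (∑ b : A, (ν b.1)⁻¹ * ν b.1) = (Nat.card A : F) := by
    rw [Finset.sum_congr rfl fun b _ => inv_mul_cancel₀ (hν0 b.1 b.2)]
    simp [Nat.card_eq_fintype_card]
  rw [h2] at h1
  exact (smul_eq_zero.mp h1).resolve_left hA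

end Cfsg.Agent.Lib.PGroup.HH
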