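import Mathlib
import Cfsg.Agent.Lib.PGroup.HHStep

/-!
# The minimal situation: structure of the group

`Q` is a `q`-group with an automorphism `σ`, `y` a power of `σ` of order `p`, such that `y` acts
nontrivially but trivially on every proper `σ`-invariant subgroup.
-/

namespace Cfsg.Agent.Lib.PGroup.HH

open scoped BigOperators commutatorElement

variable {Q : Type*} [Group Q]

/-- A commutator of central commutators: powers. -/
theorem comm_pow_left {g h : Q} (hc : ∀ a b : Q, ∀ c : Q, ⁅a, b⁆ * c = c * ⁅a, b⁆) (n : ℕ) :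
    ⁅g ^ n, h⁆ = ⁅g, h⁆ ^ n := by
  induction n with
  | zero => simp
  | succ n ih =>
    have e : ⁅g ^ (n + 1), h⁆ = g ^ n * ⁅g, h⁆ * (h * (g ^ n)⁻¹ * h⁻¹) := by
      rw [commutatorElement_def, commutatorElement_def, pow_succ]
      group
    rw [e, ← hc g h (g ^ n), mul_assoc, pow_succ', ← ih, commutatorElement_def (g ^ n) h]
    congr 1
    group

variable [Finite Q]

/-- If `y` has order dividing `p` and is trivial on all `g⁻¹ * y g`, then `y` is trivial. -/
theorem y_trivial_of_L {p : ℕ} (hcop : p.Coprime (Nat.card Q)) (y : Q →* Q) (hyp : ∀ g, y^[p] g = g)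
    (hL : ∀ g, y (g⁻¹ * y g) = g⁻¹ * y g) (g : Q) : y g = g := by
  set l := g⁻¹ * y g with hl
  have h1 : y g = g * l := by rw [hl]; group
  have hyl : y l = l := hL g
  have h2 : ∀ j : ℕ, y^[j] g = g * l ^ j := by
    intro j
    induction j with
    | zero => simp
    | succ j ih =>
      rw [Function.iterate_succ_apply', ih, map_mul, map_pow, hyl, h1, pow_succ', mul_assoc]
  have h3 := h2 p
  rw [hyp g] at h3
  have h4 : l ^ p = 1 := by
    have := congrArg (fun t => g⁻¹ * t) h3
    simpa using this.symm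
  have h5 : l = 1 := by
    have hd := Nat.dvd_gcd (orderOf_dvd_of_pow_eq_one h4) (orderOf_dvd_natCard l)
    rw [hcop.gcd_eq_one, Nat.dvd_one, orderOf_eq_one_iff] at hd
    exact hd
  rw [h1, h5, mul_one]

/-- The structure of the minimal situation. -/
theorem min_struct {q p : ℕ} (hq : q.Prime) (hp : p.Prime) (hQ : IsPGroup q Q) (hpq : p ≠ q) (σ : Q ≃* Q)
    {k : ℕ} (hσK : ∀ g, σ^[k * p] g = g) (hy : ∃ g, σ^[k] g ≠ g)
    (hmin : ∀ A : Subgroup Q, (∀ a ∈ A, σ a ∈ A) → A ≠ ⊤ → ∀ a ∈ A, σ^[k] a = a) :
    (∀ a ∈ commutator Q, ∀ g, a * g = g * a) ∧ (∀ a ∈ commutator Q, σ^[k] a = a) ∧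
    (∀ g, g⁻¹ * σ^[k] g ∈ commutator Q → g ∈ commutator Q) ∧ (∀ a ∈ commutator Q, a ^ q = 1) := by
  classical
  let y : Q →* Q := (itE σ k).toMonoidHom
  have hyd : ∀ g, y g = σ^[k] g := fun g => rfl
  have hnt : Nontrivial Q := by
    obtain ⟨g, hg⟩ := hy
    by_contra hcon
    rw [not_nontrivial_iff_subsingleton] at hcon
    exact hg (Subsingleton.elim _ _)
  haveI : Fact q.Prime := ⟨hq⟩
  haveI : Group.IsNilpotent Q := hQ.isNilpotent
  haveI : Group.IsSolvable Q := inferInstance
  have hcop : p.Coprime (Nat.card Q) := by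
    obtain ⟨n, hn⟩ := IsPGroup.iff_card.mp hQ
    rw [hn]
    exact Nat.Coprime.pow_right _ ((Nat.coprime_primes hp hq).mpr hpq)
  have hyp : ∀ g, y^[p] g = g := by
    intro g
    have e : ∀ j : ℕ, y^[j] g = σ^[k * j] g := by
      intro j
      induction j with
      | zero => rfl
      | succ j ih =>
        rw [Function.iterate_succ_apply', ih, hyd, ← Function.iterate_add_apply, mul_add, mul_one, add_comm]
    rw [e, hσK]
  have hσy : ∀ g, σ (y g) = y (σ g) := fun g => by
    rw [hyd, hyd, iter_swap]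
  -- the subgroup generated by the `g⁻¹ * y g`
  let L : Subgroup Q := Subgroup.closure (Set.range fun g : Q => g⁻¹ * y g)
  have hLσ : ∀ a ∈ L, σ a ∈ L := by
    intro b hb
    induction hb using Subgroup.closure_induction with
    | mem c hc =>
      obtain ⟨a, rfl⟩ := hc
      refine Subgroup.subset_closure ⟨σ a, ?_⟩
      simp only [map_mul, map_inv, hσy]
    | one => rw [map_one]; exact L.one_mem
    | mul a b _ _ ha hb => rw [map_mul]; exact L.mul_mem ha hb
    | inv a _ ha => rw [map_inv]; exact L.inv_mem ha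
  have hLtop : L = ⊤ := by
    by_contra hne
    obtain ⟨g, hg⟩ := hy
    have h1 := hmin L hLσ hne
    apply hg
    exact y_trivial_of_L hcop y hyp (fun t => h1 _ (Subgroup.subset_closure ⟨t, rfl⟩)) g
  let A : Subgroup Q := commutator Q
  have hAne : A ≠ ⊤ := (Group.IsSolvable.commutator_lt_top_of_nontrivial Q).ne
  have hAσ : ∀ a ∈ A, σ a ∈ A := by
    intro a ha
    have := (Subgroup.characteristic_iff_le_comap.mp (inferInstance : (commutator Q).Characteristic) σ) ha
    exact this
  have hAy := hmin A hAσ hAne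
  -- `A` is central
  have hAc : ∀ a ∈ A, ∀ g, a * g = g * a := by
    intro a ha g
    have hall : ∀ l ∈ L, l * a = a * l := by
      intro l hl
      induction hl using Subgroup.closure_induction with
      | mem c hc =>
        obtain ⟨t, rfl⟩ := hc
        have h1 : t * a * t⁻¹ ∈ A := Subgroup.Normal.conj_mem inferInstance a ha t
        have h2 : y (t * a * t⁻¹) = t * a * t⁻¹ := hAy _ h1
        have hya : y a = a := hAy a ha
        rw [map_mul, map_mul, map_inv, hya] at h2
        have h3 : y t * a * (y t)⁻¹ = t * a * t⁻¹ := h2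
        have : (t⁻¹ * y t) * a = a * (t⁻¹ * y t) := by
          calc (t⁻¹ * y t) * a = t⁻¹ * (y t * a * (y t)⁻¹) * y t := by group
            _ = t⁻¹ * (t * a * t⁻¹) * y t := by rw [h3]
            _ = a * (t⁻¹ * y t) := by group
        exact this
      | one => simp
      | mul b c _ _ hb hc => rw [mul_assoc, hc, ← mul_assoc, hb, mul_assoc]
      | inv b _ hb =>
        have : b⁻¹ * (b * a) * b⁻¹ = b⁻¹ * (a * b) * b⁻¹ := by rw [hb]
        calc b⁻¹ * a = b⁻¹ * (a * b) * b⁻¹ := by group
          _ = b⁻¹ * (b * a) * b⁻¹ := by rw [hb]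
          _ = a * b⁻¹ := by group
    exact (hall g (by rw [hLtop]; exact Subgroup.mem_top g)).symm
  -- the map on the abelianization
  let of : Q →* Abelianization Q := Abelianization.of
  have hofker : ∀ g, of g = 1 ↔ g ∈ A := by
    intro g
    show (QuotientGroup.mk g : Q ⧸ commutator Q) = 1 ↔ _
    rw [QuotientGroup.eq_one_iff]
  have hofsurj : Function.Surjective of := QuotientGroup.mk_surjective
  let Fh : Q →* Abelianization Q := of⁻¹ * (of.comp y)
  have hFh : ∀ g, Fh g = of (g⁻¹ * y g) := by
    intro g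
    simp only [Fh, MonoidHom.mul_apply, MonoidHom.inv_apply, MonoidHom.comp_apply, map_mul, map_inv]
  have hFsurj : Function.Surjective Fh := by
    intro t
    obtain ⟨g, rfl⟩ := hofsurj t
    have hmem : ∀ l ∈ L, of l ∈ Fh.range := by
      intro l hl
      induction hl using Subgroup.closure_induction with
      | mem c hc =>
        obtain ⟨t, rfl⟩ := hc
        exact ⟨t, hFh t⟩
      | one => rw [map_one]; exact Subgroup.one_mem _
      | mul b c _ _ hb hc => rw [map_mul]; exact Subgroup.mul_mem _ hb hc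
      | inv b _ hb => rw [map_inv]; exact Subgroup.inv_mem _ hb
    exact hmem g (by rw [hLtop]; exact Subgroup.mem_top g)
  let φ : Abelianization Q →* Abelianization Q := Abelianization.lift Fh
  have hφ : ∀ g, φ (of g) = Fh g := fun g => Abelianization.lift_apply_of Fh g
  have hφsurj : Function.Surjective φ := by
    intro t
    obtain ⟨g, hg⟩ := hFsurj t
    exact ⟨of g, by rw [hφ, hg]⟩
  have hφinj : Function.Injective φ := Finite.injective_iff_surjective.mpr hφsurj
  have h3 : ∀ g, g⁻¹ * y g ∈ A → g ∈ A := by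
    intro g hg
    rw [← hofker]
    apply hφinj
    rw [hφ, map_one, hFh, hofker]
    exact hg
  -- exponent
  have hAbP : IsPGroup q (Abelianization Q) := hQ.of_surjective of hofsurj
  have hAbnt : Nontrivial (Abelianization Q) := by
    by_contra hcon
    rw [not_nontrivial_iff_subsingleton] at hcon
    apply hAne
    rw [eq_top_iff]
    intro g _
    rw [← hofker]
    exact Subsingleton.elim _ _
  let pw : Abelianization Q →* Abelianization Q := powMonoidHom q
  have hpwnotsurj : ¬ Function.Surjective pw := by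
    intro hs
    have hinj : Function.Injective pw := Finite.injective_iff_surjective.mpr hs
    obtain ⟨n, hn⟩ := IsPGroup.iff_card.mp hAbP
    have hn0 : n ≠ 0 := by
      rintro rfl
      have : Nat.card (Abelianization Q) = 1 := by simpa using hn
      have := Finite.one_lt_card (α := Abelianization Q)
      omega
    have hdvd : q ∣ Nat.card (Abelianization Q) := by
      rw [hn]; exact dvd_pow_self q hn0
    obtain ⟨t, ht⟩ := exists_prime_orderOf_dvd_card' q hdvd
    have h1 : t ^ q = 1 := by rw [← ht]; exact pow_orderOf_eq_one t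
    have h2 : t = 1 := hinj (by show t ^ q = 1 ^ q; rw [h1, one_pow])
    rw [h2, orderOf_one] at ht
    exact hq.one_lt.ne ht
  let M : Subgroup Q := pw.range.comap of
  have hMσ : ∀ a ∈ M, σ a ∈ M := by
    rintro a ⟨t, ht⟩
    obtain ⟨h, rfl⟩ := hofsurj t
    let ab : Abelianization Q →* Abelianization Q := Abelianization.map σ.toMonoidHom
    have hab : ∀ g, ab (of g) = of (σ g) := fun g => rfl
    refine ⟨of (σ h), ?_⟩
    have ht' : (of h) ^ q = of a := ht
    show (of (σ h)) ^ q = of (σ a)
    rw [← hab, ← hab, ← map_pow, ht']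
  have hMne : M ≠ ⊤ := by
    intro h
    apply hpwnotsurj
    intro t
    obtain ⟨g, rfl⟩ := hofsurj t
    have : g ∈ M := by rw [h]; exact Subgroup.mem_top g
    exact this
  have hMy := hmin M hMσ hMne
  have hpowy : ∀ g, y (g ^ q) = g ^ q := fun g => hMy _ ⟨of g, by
    show (of g) ^ q = of (g ^ q)
    rw [map_pow]⟩
  have hlq : ∀ g, (Fh g) ^ q = 1 := by
    intro g
    have h1 := congrArg of (hpowy g)
    rw [map_pow y, map_pow of, map_pow of] at h1
    rw [hFh, map_mul, map_inv, mul_pow, inv_pow, h1, inv_mul_cancel]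
  have hAbq : ∀ t : Abelianization Q, t ^ q = 1 := by
    intro t
    obtain ⟨g, rfl⟩ := hFsurj t
    exact hlq g
  have hgq : ∀ g, g ^ q ∈ A := by
    intro g
    rw [← hofker, map_pow]
    exact hAbq _
  -- commutators
  have hcomm : ∀ g h : Q, ⁅g, h⁆ ∈ A := fun g h =>
    Subgroup.commutator_mem_commutator (Subgroup.mem_top g) (Subgroup.mem_top h)
  have hcentral : ∀ a b c : Q, ⁅a, b⁆ * c = c * ⁅a, b⁆ := fun a b c => hAc _ (hcomm a b) c
  have hcq : ∀ g h : Q, ⁅g, h⁆ ^ q = 1 := by
    intro g h
    rw [← comm_pow_left hcentral]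
    exact commutatorElement_eq_one_iff_mul_comm.mpr (hAc _ (hgq g) h)
  refine ⟨hAc, hAy, fun g hg => h3 g hg, ?_⟩
  intro a ha
  have ha' : a ∈ commutator Q := ha
  rw [commutator_def, Subgroup.commutator_def] at ha'
  induction ha' using Subgroup.closure_induction with
  | mem c hc =>
    obtain ⟨g, _, h, _, rfl⟩ := hc
    exact hcq g h
  | one => simp
  | mul b c hb hc ihb ihc =>
    have hb' : b ∈ A := hb
    have hc' : c ∈ A := hc
    have hcomm' : Commute b c := hAc b hb' c
    rw [hcomm'.mul_pow, ihb hb', ihc hc', one_mul]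
  | inv b hb ihb =>
    have hb' : b ∈ A := hb
    rw [inv_pow, ihb hb', inv_one]

end Cfsg.Agent.Lib.PGroup.HH
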