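import Mathlib
import Cfsg.Agent.Lib.PGroup.HHMin
import Cfsg.Agent.Lib.PGroup.HHChar
import Cfsg.Agent.Lib.PGroup.HHCard

/-!
# The Hall--Higman theorem in the minimal situation
-/

namespace Cfsg.Agent.Lib.PGroup.HH

open scoped BigOperators commutatorElement

variable {F W Q : Type*} [Field F] [AddCommGroup W] [Module F W] [Group Q]

theorem pow_mul_rho (ρ : Q →* Module.End F W) (σ : Q ≃* Q) (x : Module.End F W)
    (hxρ : ∀ g, x * ρ g = ρ (σ g) * x) (i : ℕ) (g : Q) : x ^ i * ρ g = ρ (σ^[i] g) * x ^ i := by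
  induction i generalizing g with
  | zero => simp
  | succ i ih =>
    rw [pow_succ, mul_assoc, hxρ, ← mul_assoc, ih, mul_assoc, ← pow_succ,
      Function.iterate_succ_apply]

theorem itE_iter (σ : Q ≃* Q) (l i : ℕ) (g : Q) : (itE σ l)^[i] g = σ^[l * i] g := by
  induction i with
  | zero => rfl
  | succ i ih =>
    rw [Function.iterate_succ_apply', ih, mul_add, mul_one, add_comm, Function.iterate_add_apply]
    rfl

/-- **The minimal situation.** -/
theorem hh_min_main [IsAlgClosed F] [FiniteDimensional F W] [Nontrivial W] [Fintype Q] {q p m : ℕ}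
    (hq : q.Prime) (hp : p.Prime) (hpq : p ≠ q) (hQ : IsPGroup q Q) (hm : 0 < m) (hodd : p ≠ 2 ∨ m = 1)
    (ρ : Q →* Module.End F W) (hρ : Function.Injective ρ) (σ : Q ≃* Q) (hσK : ∀ g, σ^[p ^ m] g = g)
    (x : Module.End F W) (hxρ : ∀ g, x * ρ g = ρ (σ g) * x) (hxK : x ^ p ^ m = 1)
    (hfree : ∀ v, x v = v → v = 0) (hqF : (q : F) ≠ 0) (hpF : (p : F) ≠ 0)
    (hy : ∃ g, σ^[p ^ (m - 1)] g ≠ g)
    (hmin : ∀ A : Subgroup Q, (∀ a ∈ A, σ a ∈ A) → A ≠ ⊤ → ∀ a ∈ A, σ^[p ^ (m - 1)] a = a) :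
    (∃ a b : Q, a * b ≠ b * a) ∧ ∃ (ν : Q → F) (l n m₀ : ℕ) (R : Subgroup Q),
      0 < n ∧ 0 < m₀ ∧ m₀ ≤ m ∧ l * p ^ m₀ = p ^ m ∧ q ^ n + 1 = p ^ m₀ ∧
      (∀ a ∈ commutator Q, ∀ b ∈ commutator Q, ν (a * b) = ν a * ν b) ∧
      (∀ a ∈ commutator Q, (ν a) ^ q = 1) ∧
      (∀ a ∈ commutator Q, ν (σ^[l] a) = ν a) ∧
      (∀ g, g ∈ R ↔ ∀ h : Q, ν ⁅h, g⁆ = 1) ∧ R.index = q ^ (2 * n) ∧ R ≠ ⊤ := by
  classical
  haveI : Fact q.Prime := ⟨hq⟩
  have hkp : p ^ (m - 1) * p = p ^ m := by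
    rw [← pow_succ]
    congr 1
    omega
  obtain ⟨hS1, hS2, hS3, hS5⟩ := min_struct hq hp hQ hpq σ (k := p ^ (m - 1))
    (fun g => by rw [hkp]; exact hσK g) hy hmin
  have hKpos : 0 < p ^ m := pow_pos hp.pos m
  have hKF : ((p ^ m : ℕ) : F) ≠ 0 := by
    rw [Nat.cast_pow]; exact pow_ne_zero _ hpF
  have hT := sum_pow_eq_zero hxK hfree
  have hQF : (Fintype.card Q : F) ≠ 0 := by
    obtain ⟨n, hn⟩ := IsPGroup.iff_card.mp hQ
    rw [← Nat.card_eq_fintype_card, hn, Nat.cast_pow]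
    exact pow_ne_zero _ hqF
  -- the nonabelian part
  have hnonab : ∃ a b : Q, a * b ≠ b * a := by
    by_contra hcon
    push Not at hcon
    obtain ⟨g, hg⟩ := hy
    apply hg
    have h1 := rel_ab (ρ := ρ) (fun a b => by rw [← map_mul, ← map_mul, hcon])
      σ hp hm hσK hQF x hxρ hT g
    have h2 : g⁻¹ * σ^[p ^ (m - 1)] g = 1 := hρ (by rw [h1, map_one])
    have := congrArg (fun t => g * t) h2
    simpa using this
  refine ⟨hnonab, ?_⟩
  obtain ⟨a₀, b₀, hab⟩ := hnonab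
  let A : Subgroup Q := commutator Q
  have hcomm : ∀ g h : Q, ⁅g, h⁆ ∈ A := fun g h =>
    Subgroup.commutator_mem_commutator (Subgroup.mem_top g) (Subgroup.mem_top h)
  have hAσ : ∀ a ∈ A, σ a ∈ A := by
    intro a ha
    have := (Subgroup.characteristic_iff_le_comap.mp (inferInstance : (commutator Q).Characteristic) σ) ha
    exact this
  have hAit : ∀ (j : ℕ), ∀ r ∈ A, σ^[j] r ∈ A := by
    intro j r hr
    induction j with
    | zero => exact hr
    | succ j ih =>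
      rw [Function.iterate_succ_apply']
      exact hAσ _ ih
  let c₀ : Q := ⁅a₀, b₀⁆
  have hc₀A : c₀ ∈ A := hcomm a₀ b₀
  have hc₀1 : c₀ ≠ 1 := fun h => hab (commutatorElement_eq_one_iff_mul_comm.mp h)
  have hρc₀ : ρ c₀ ≠ 1 := fun h => hc₀1 (hρ (by rw [h, map_one]))
  obtain ⟨ν, v, hv0, hνv, hνc, hmul, hν0⟩ := exists_char A ρ hS1 hc₀A hqF (hS5 c₀ hc₀A) hρc₀
  have hAcardF : (Nat.card A : F) ≠ 0 := by
    obtain ⟨n, hn⟩ := IsPGroup.iff_card.mp (hQ.to_subgroup A)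
    rw [hn, Nat.cast_pow]
    exact pow_ne_zero _ hqF
  -- the period
  obtain ⟨l, hl0, hlK, hPl, hlmin⟩ := exists_period (P := fun i => ∀ a ∈ A, ν (σ^[i] a) = ν a)
    (fun i j hi hj a ha => by
      rw [Function.iterate_add_apply, hi _ (hAit j a ha), hj a ha])
    (fun i j hij hi a ha => by
      have h1 := hij a ha
      rw [Function.iterate_add_apply, hi _ (hAit j a ha)] at h1
      exact h1)
    (fun a _ => rfl) hKpos (fun a _ => by rw [hσK])
  obtain ⟨e, he, rfl⟩ := (Nat.dvd_prime_pow hp).mp hlK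
  set l := p ^ e with hldef
  -- the eigenspace
  let V : Submodule F W :=
    { carrier := {w | ∀ a ∈ A, ρ a w = ν a • w}
      add_mem' := by
        intro u w hu hw a ha
        rw [map_add, hu a ha, hw a ha, smul_add]
      zero_mem' := by
        intro a _
        simp
      smul_mem' := by
        intro c u hu a ha
        rw [map_smul, hu a ha, smul_comm] }
  have hmemV : ∀ w, w ∈ V ↔ ∀ a ∈ A, ρ a w = ν a • w := fun w => Iff.rfl
  have hVg : ∀ g, ∀ u ∈ V, ρ g u ∈ V := by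
    intro g u hu a ha
    have h1 := congrArg (fun t : Module.End F W => t u) (congrArg ρ (hS1 a ha g))
    simp only [map_mul, Module.End.mul_apply] at h1
    rw [h1, hu a ha, map_smul]
  have hlK' : l ≤ p ^ m := Nat.pow_le_pow_right hp.pos he
  have hxl := pow_mul_rho ρ σ x hxρ l
  have hVx : ∀ u ∈ V, (x ^ l) u ∈ V := by
    intro u hu a ha
    let b : Q := σ^[p ^ m - l] a
    have hbA : b ∈ A := hAit _ a ha
    have hb : σ^[l] b = a := by
      show σ^[l] (σ^[p ^ m - l] a) = a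
      rw [← Function.iterate_add_apply, Nat.add_sub_cancel' hlK', hσK]
    have h1 := congrArg (fun t : Module.End F W => t u) (hxl b)
    simp only [Module.End.mul_apply] at h1
    rw [hb, hu b hbA, map_smul] at h1
    rw [← h1, ← hb, hPl b hbA]
  haveI : Nontrivial V := ⟨⟨⟨v, hνv⟩, 0, fun h => hv0 (congrArg Subtype.val h)⟩⟩
  let ρ' := resHom ρ V hVg
  have hν' : ∀ a ∈ A, ρ' a = ν a • 1 := by
    intro a ha
    apply LinearMap.ext
    intro u
    apply Subtype.ext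
    exact u.2 a ha
  let τ : Module.End F V := (x ^ l).restrict hVx
  have hfixV : ∀ w ∈ V, (x ^ l) w = w → w = 0 := by
    intro w hw hwl
    exact fixed_eigen_zero A ρ ν σ hAσ hmul hν0 hAcardF x hxρ hfree hlmin hl0 hw hwl
  have hfreeτ : ∀ u, τ u = u → u = 0 := by
    intro u hu
    apply Subtype.ext
    exact hfixV u.1 u.2 (congrArg Subtype.val hu)
  have hem : e < m := by
    by_contra hge
    have he' : e = m := by omega
    apply hv0
    apply hfixV v hνv
    rw [hldef, he', hxK]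
    rfl
  let m₀ := m - e
  have hm₀ : 0 < m₀ := by omega
  have hlm₀ : l * p ^ m₀ = p ^ m := by
    rw [hldef, ← pow_add]
    congr 1
    omega
  have hlm₁ : l * p ^ (m₀ - 1) = p ^ (m - 1) := by
    rw [hldef, ← pow_add]
    congr 1
    omega
  let θ : Q ≃* Q := itE σ l
  have hθit : ∀ (i : ℕ) (g : Q), θ^[i] g = σ^[l * i] g := fun i g => itE_iter σ l i g
  have hθA : ∀ a ∈ A, θ a ∈ A := fun a ha => hAit l a ha
  have hνθ : ∀ a ∈ A, ν (θ a) = ν a := hPl
  have hτρ : ∀ g, τ * ρ' g = ρ' (θ g) * τ := by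
    intro g
    apply LinearMap.ext
    intro u
    apply Subtype.ext
    exact congrArg (fun t : Module.End F W => t u.1) (hxl g)
  have hτK : τ ^ p ^ m₀ = 1 := by
    apply LinearMap.ext
    intro u
    apply Subtype.ext
    rw [resOp_pow, ← pow_mul, hlm₀, hxK]
    rfl
  obtain ⟨hscal, hreg, hle⟩ := hh_step ρ' A ν hcomm hν' θ hθA hνθ hp hm₀
    (fun g => by rw [hθit, hlm₀]; exact hσK g)
    (fun a ha => by rw [hθit, hlm₁]; exact hS2 a ha)
    (fun g hg => hS3 g (by rw [hθit, hlm₁] at hg; exact hg)) hQF hpF τ hτρ hτK hfreeτ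
  set R := radG (isCom_of_scalar ρ' A ν hcomm hν') with hRdef
  have hRiff : ∀ g, g ∈ R ↔ ∀ h : Q, ν ⁅h, g⁆ = 1 := fun g => mem_radG _
  have hone : ν 1 = 1 := by
    have h1 := hmul 1 A.one_mem 1 A.one_mem
    rw [mul_one] at h1
    have h0 := hν0 1 A.one_mem
    exact (mul_eq_left₀ h0).mp h1.symm
  have hAR : A ≤ R := by
    intro a ha
    rw [hRiff]
    intro h
    have h1 : ⁅h, a⁆ = 1 := commutatorElement_eq_one_iff_mul_comm.mpr (hS1 a ha h).symm
    rw [h1, hone]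
  have hnpow : ∀ a ∈ A, ∀ n : ℕ, ν (a ^ n) = (ν a) ^ n := by
    intro a ha n
    induction n with
    | zero => simp [hone]
    | succ n ih => rw [pow_succ, hmul _ (A.pow_mem ha n) _ ha, ih, pow_succ]
  have hνq : ∀ a ∈ A, (ν a) ^ q = 1 := by
    intro a ha
    rw [← hnpow a ha, hS5 a ha, hone]
  obtain ⟨n, hn⟩ := card_quot_rad hq hQ ρ' A ν hcomm hν' R hRiff hAR hscal hνq hc₀A hνc
  have hRne : R ≠ ⊤ := by
    intro h
    have : b₀ ∈ R := by rw [h]; exact Subgroup.mem_top _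
    exact hνc ((hRiff _).mp this a₀)
  have hn0 : n ≠ 0 := by
    rintro rfl
    apply hRne
    apply Subgroup.index_eq_one.mp
    simpa using hn
  have hθR : ∀ r ∈ R, θ r ∈ R := by
    intro r hr
    rw [hRiff] at hr ⊢
    intro h
    have e : ⁅h, θ r⁆ = θ ⁅θ.symm h, r⁆ := by
      rw [map_commutatorElement, MulEquiv.apply_symm_apply]
    rw [e, hνθ _ (hcomm _ _)]
    exact hr (θ.symm h)
  have hdvd := dvd_index_sub_one R θ hθR (pow_pos hp.pos m₀)
    (fun g => by rw [hθit, hlm₀]; exact hσK g) hreg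
  have hNq : 2 ≤ q ^ n := by
    calc 2 ≤ q := hq.two_le
      _ ≤ q ^ n := Nat.le_self_pow hn0 q
  have hle' : Nat.card (Q ⧸ R) = (q ^ n) ^ 2 := by
    show R.index = _
    rw [hn, ← pow_mul, mul_comm]
  rw [hle'] at hle
  have hodd' : p ≠ 2 ∨ m₀ = 1 := by
    rcases hodd with h | h
    · exact Or.inl h
    · right; omega
  have hmain := arith_main hp hodd' hm₀ hNq
    (by
      rw [← pow_mul, mul_comm n 2, ← hn]
      exact hdvd) hle
  exact ⟨ν, l, n, m₀, R, Nat.pos_of_ne_zero hn0, hm₀, by omega, hlm₀, hmain, hmul, hνq, hPl, hRiff, hn, hRne⟩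

end Cfsg.Agent.Lib.PGroup.HH
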