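import Mathlib
import Cfsg.Agent.Lib.PGroup.HHMain
import Cfsg.Agent.Lib.PGroup.HHArith

/-!
# The fixed-point-free case
-/

namespace Cfsg.Agent.Lib.PGroup.HH

open scoped BigOperators commutatorElement

variable {F Q : Type*} [Field F] [Group Q]

/-- Products over a periodic sequence. -/
theorem prod_periodic (u : ℕ → F) {l : ℕ} (hper : ∀ i, u (i + l) = u i) (t : ℕ) :
    ∏ i ∈ Finset.range (l * t), u i = (∏ i ∈ Finset.range l, u i) ^ t := by
  have hper2 : ∀ (t i : ℕ), u (l * t + i) = u i := by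
    intro t i
    induction t with
    | zero => simp
    | succ t ih =>
      have : l * (t + 1) + i = (l * t + i) + l := by ring
      rw [this, hper, ih]
  induction t with
  | zero => simp
  | succ t ih =>
    rw [mul_add, mul_one, Finset.prod_range_add, ih, pow_succ]
    congr 1
    exact Finset.prod_congr rfl fun i _ => hper2 t i

/-- **The fixed-point-free case.** There is no fixed-point-free `σ` in the minimal situation. -/
theorem hh_fpf [Fintype Q] {p m m₀ n l : ℕ} (hp : p.Prime) (hp2 : p ≠ 2) (hm : 0 < m)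
    (hn : 0 < n) (hm₀ : 0 < m₀) (hm₀m : m₀ ≤ m) (hlm : l * p ^ m₀ = p ^ m) (harith : 2 ^ n + 1 = p ^ m₀)
    (hQ : IsPGroup 2 Q) (h2F : (2 : F) ≠ 0) (σ : Q ≃* Q) (hσK : ∀ g, σ^[p ^ m] g = g)
    (hfpf : ∀ g, σ g = g → g = 1)
    (hS1 : ∀ a ∈ commutator Q, ∀ g, a * g = g * a)
    (hS3 : ∀ g, g⁻¹ * σ^[p ^ (m - 1)] g ∈ commutator Q → g ∈ commutator Q)
    (hmin : ∀ A : Subgroup Q, (∀ a ∈ A, σ a ∈ A) → A ≠ ⊤ → ∀ a ∈ A, σ^[p ^ (m - 1)] a = a)
    (ν : Q → F) (hmul : ∀ a ∈ commutator Q, ∀ b ∈ commutator Q, ν (a * b) = ν a * ν b)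
    (hνq : ∀ a ∈ commutator Q, (ν a) ^ 2 = 1) (hPl : ∀ a ∈ commutator Q, ν (σ^[l] a) = ν a)
    (R : Subgroup Q) (hRiff : ∀ g, g ∈ R ↔ ∀ h : Q, ν ⁅h, g⁆ = 1) (hidx : R.index = 2 ^ (2 * n))
    (hRne : R ≠ ⊤) : False := by
  classical
  haveI : Fact (Nat.Prime 2) := ⟨Nat.prime_two⟩
  let A : Subgroup Q := commutator Q
  have hcomm : ∀ g h : Q, ⁅g, h⁆ ∈ A := fun g h =>
    Subgroup.commutator_mem_commutator (Subgroup.mem_top g) (Subgroup.mem_top h)
  have hAσ : ∀ a ∈ A, σ a ∈ A := by
    intro a ha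
    have := (Subgroup.characteristic_iff_le_comap.mp (inferInstance : (commutator Q).Characteristic) σ) ha
    exact this
  have hAit : ∀ (j : ℕ), ∀ r ∈ A, σ^[j] r ∈ A := by
    intro j r hr
    induction j with
    | zero => exact hr
    | succ j ih =>
      rw [Function.iterate_succ_apply']
      exact hAσ _ ih
  have hKpos : 0 < p ^ m := pow_pos hp.pos m
  have hl0 : 0 < l := by
    rcases Nat.eq_zero_or_pos l with h | h
    · rw [h, zero_mul] at hlm
      omega
    · exact h
  have hone : ν 1 = 1 := by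
    have h1 := hmul 1 A.one_mem 1 A.one_mem
    rw [mul_one] at h1
    have h0 := hνq 1 A.one_mem
    have h2 : ν 1 ≠ 0 := by
      intro h
      rw [h] at h0
      norm_num at h0
    exact (mul_eq_left₀ h2).mp h1.symm
  have hAR : A ≤ R := by
    intro a ha
    rw [hRiff]
    intro h
    have h1 : ⁅h, a⁆ = 1 := commutatorElement_eq_one_iff_mul_comm.mpr (hS1 a ha h).symm
    rw [h1, hone]
  have hAne : A ≠ ⊤ := fun h => hRne (top_le_iff.mp (h ▸ hAR))
  -- the order of the quotient
  obtain ⟨d, hd⟩ : ∃ d, A.index = 2 ^ d := by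
    obtain ⟨N, hN⟩ := IsPGroup.iff_card.mp hQ
    have hdvd : A.index ∣ Nat.card Q := Subgroup.index_dvd_card A
    rw [hN] at hdvd
    obtain ⟨d, _, hd⟩ := (Nat.dvd_prime_pow Nat.prime_two).mp hdvd
    exact ⟨d, hd⟩
  have hd0 : d ≠ 0 := by
    rintro rfl
    apply hAne
    apply Subgroup.index_eq_one.mp
    simpa using hd
  have hreg : ∀ g, g ∉ A → ∀ i, 0 < i → i < p ^ m → (σ^[i] g)⁻¹ * g ∉ A := by
    intro g hg i hi0 hiK hmem
    apply hg
    obtain ⟨k, hk⟩ := exists_mul_mod hp hm hi0 hiK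
    have h1 := iter_fix_mod A σ hAσ hmem k
    have hper : Function.IsPeriodicPt (⇑σ) (p ^ m) g := hσK g
    rw [← hper.iterate_mod_apply, hk] at h1
    apply hS3
    have := A.inv_mem h1
    convert this using 1
    group
  have hdvdK := dvd_index_sub_one A σ hAσ hKpos hσK hreg
  rw [hd] at hdvdK
  have hdl : 2 * n * l ≤ d := by
    have h1 := arith_fpf hp hp2 hn hm₀ hm₀m harith hd0 hdvdK
    have h2 : l = p ^ (m - m₀) := by
      have h3 : p ^ (m - m₀) * p ^ m₀ = p ^ m := by
        rw [← pow_add]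
        congr 1
        omega
      exact Nat.eq_of_mul_eq_mul_right (pow_pos hp.pos m₀) (hlm.trans h3.symm)
    rw [h2]
    exact h1
  -- the preimages of the radical
  let C : ℕ → Subgroup Q := fun i => R.comap (itE σ i).toMonoidHom
  have hC : ∀ i g, g ∈ C i ↔ σ^[i] g ∈ R := fun i g => Iff.rfl
  have hCidx : ∀ i, (C i).index = 2 ^ (2 * n) := by
    intro i
    rw [← hidx]
    exact Subgroup.index_comap_of_surjective R (itE σ i).surjective
  let J : Subgroup Q := ⨅ i : Fin (l - 1), C (i.1 + 1)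
  have hJidx : J.index ≤ (2 ^ (2 * n)) ^ (l - 1) := by
    have h1 := Subgroup.index_iInf_le (fun i : Fin (l - 1) => C (i.1 + 1))
    simp only [hCidx, Finset.prod_const, Finset.card_univ, Fintype.card_fin] at h1
    exact h1
  have hexa : ∃ a ∈ J, a ∉ A := by
    by_contra hcon
    push Not at hcon
    have hJA : J ≤ A := hcon
    have h1 : A.index ∣ J.index := Subgroup.index_dvd_of_le hJA
    have h2 : J.index ≠ 0 := Subgroup.index_ne_zero_of_finite
    have h3 := Nat.le_of_dvd (Nat.pos_of_ne_zero h2) h1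
    rw [hd] at h3
    have h4 : 2 ^ d ≤ 2 ^ (2 * n * (l - 1)) := by
      rw [pow_mul]
      exact h3.trans hJidx
    have h5 : d ≤ 2 * n * (l - 1) := (Nat.pow_le_pow_iff_right (by norm_num)).mp h4
    have h6 : 2 * n * l = 2 * n * (l - 1) + 2 * n := by
      obtain ⟨t, rfl⟩ : ∃ t, l = t + 1 := ⟨l - 1, by omega⟩
      simp only [Nat.add_sub_cancel]
      ring
    omega
  obtain ⟨a, haJ, haA⟩ := hexa
  have haJ' : ∀ i, 0 < i → i < l → σ^[i] a ∈ R := by
    intro i hi0 hil
    have h1 := (Subgroup.mem_iInf.mp haJ) ⟨i - 1, by omega⟩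
    have h2 : i - 1 + 1 = i := by omega
    simp only [h2] at h1
    exact h1
  -- `R` is invariant under the `l`-th power
  have hRl : ∀ r ∈ R, σ^[l] r ∈ R := by
    intro r hr
    rw [hRiff] at hr ⊢
    intro h
    obtain ⟨h', rfl⟩ := (σ.bijective.iterate l).2 h
    rw [← iter_comm, hPl _ (hcomm _ _)]
    exact hr h'
  let I : Subgroup Q := ⨅ i : Fin l, C i.1
  have hImem : ∀ g, g ∈ I ↔ ∀ i, i < l → σ^[i] g ∈ R := by
    intro g
    constructor
    · intro h i hi
      exact (Subgroup.mem_iInf.mp h) ⟨i, hi⟩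
    · intro h
      refine Subgroup.mem_iInf.mpr fun i => h i.1 i.2
  have hIσ : ∀ g ∈ I, σ g ∈ I := by
    intro g hg
    rw [hImem] at hg ⊢
    intro i hi
    rw [← Function.iterate_succ_apply]
    by_cases h : i + 1 < l
    · exact hg _ h
    · have e : i.succ = l := by omega
      rw [e]
      exact hRl g (hg 0 hl0)
  have hIne : I ≠ ⊤ := by
    intro h
    apply hRne
    rw [eq_top_iff]
    intro g _
    have : g ∈ I := by rw [h]; exact Subgroup.mem_top g
    exact (hImem g).mp this 0 hl0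
  have hIA : I ≤ A := by
    intro g hg
    apply hS3
    rw [hmin I hIσ hIne g hg, inv_mul_cancel]
    exact A.one_mem
  have haR : a ∉ R := by
    intro h
    apply haA
    apply hIA
    rw [hImem]
    intro i hi
    rcases Nat.eq_zero_or_pos i with rfl | hi0
    · exact h
    · exact haJ' i hi0 hi
  rw [hRiff] at haR
  push Not at haR
  obtain ⟨b, hb⟩ := haR
  let c : Q := ⁅b, a⁆
  have hcA : c ∈ A := hcomm b a
  have hνc : ν c = -1 := by
    have h1 := hνq c hcA
    have h2 : (ν c - 1) * (ν c + 1) = 0 := by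
      have : (ν c - 1) * (ν c + 1) = ν c ^ 2 - 1 := by ring
      rw [this, h1, sub_self]
    rcases mul_eq_zero.mp h2 with h3 | h3
    · exact absurd (sub_eq_zero.mp h3) hb
    · exact eq_neg_of_add_eq_zero_left h3
  let u : ℕ → F := fun i => ν (σ^[i] c)
  have hu1 : ∀ i, 0 < i → i < l → u i = 1 := by
    intro i hi0 hil
    show ν (σ^[i] ⁅b, a⁆) = 1
    rw [iter_comm]
    exact (hRiff _).mp (haJ' i hi0 hil) _
  have hper : ∀ i, u (i + l) = u i := by
    intro i
    show ν (σ^[i + l] c) = ν (σ^[i] c)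
    rw [add_comm, Function.iterate_add_apply]
    exact hPl _ (hAit i c hcA)
  have hprodl : ∏ i ∈ Finset.range l, u i = ν c := by
    rw [Finset.prod_eq_single 0]
    · rfl
    · intro i hi hi0
      exact hu1 i (Nat.pos_of_ne_zero hi0) (Finset.mem_range.mp hi)
    · intro h
      exact absurd (Finset.mem_range.mpr hl0) h
  have hprodK : ∏ i ∈ Finset.range (p ^ m), u i = -1 := by
    rw [← hlm, prod_periodic u hper, hprodl, hνc]
    exact Odd.neg_one_pow ((hp.odd_of_ne_two hp2).pow)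
  -- the product in `Q`
  let pr : ℕ → Q := fun n => Nat.rec 1 (fun i x => x * σ^[i] c) n
  have hpr0 : pr 0 = 1 := rfl
  have hprs : ∀ i, pr (i + 1) = pr i * σ^[i] c := fun i => rfl
  have hprA : ∀ i, pr i ∈ A := by
    intro i
    induction i with
    | zero => exact A.one_mem
    | succ i ih => rw [hprs]; exact A.mul_mem ih (hAit i c hcA)
  have hprν : ∀ i, ν (pr i) = ∏ j ∈ Finset.range i, u j := by
    intro i
    induction i with
    | zero => simp [hpr0, hone]
    | succ i ih =>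
      rw [hprs, hmul _ (hprA i) _ (hAit i c hcA), ih, Finset.prod_range_succ]
  have hprσ : ∀ i, c * σ (pr i) = pr (i + 1) := by
    intro i
    induction i with
    | zero =>
      rw [hpr0, map_one, mul_one, hprs, hpr0, one_mul]
      rfl
    | succ i ih =>
      rw [hprs i, map_mul, ← mul_assoc, ih, hprs (i + 1), Function.iterate_succ_apply']
  have hfixK : σ (pr (p ^ m)) = pr (p ^ m) := by
    have h1 := hprσ (p ^ m)
    rw [hprs, hσK] at h1
    rw [hS1 _ (hprA _) c] at h1
    exact mul_left_cancel h1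
  have h1K := hfpf _ hfixK
  have h2 := hprν (p ^ m)
  rw [h1K, hone, hprodK] at h2
  apply h2F
  have h3 : (1 : F) + 1 = 0 := by
    nth_rewrite 1 [h2]
    ring
  rw [← h3]
  norm_num

end Cfsg.Agent.Lib.PGroup.HH
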