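import Mathlib
import Cfsg.Agent.Lib.PGroup.HHFpf

/-!
# The Hall--Higman theorem: reduction to the minimal situation
-/

namespace Cfsg.Agent.Lib.PGroup.HH

open scoped BigOperators commutatorElement

universe u v w

section Auts

variable {Q : Type u} [Group Q] [Finite Q]

theorem mem_of_apply_mem (N : Subgroup Q) (σ : Q ≃* Q) (hN : ∀ a ∈ N, σ a ∈ N) (a : Q) (ha : σ a ∈ N) : a ∈ N := by
  have hinj : Function.Injective (fun b : N => (⟨σ b.1, hN b.1 b.2⟩ : N)) := by
    intro b c h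
    apply Subtype.ext
    exact σ.injective (congrArg Subtype.val h)
  obtain ⟨b, hb⟩ := (Finite.injective_iff_surjective.mp hinj) ⟨σ a, ha⟩
  have h1 : σ b.1 = σ a := congrArg Subtype.val hb
  rw [← σ.injective h1]
  exact b.2

/-- The automorphism induced on a quotient. -/
noncomputable def quotAut (N : Subgroup Q) [N.Normal] (σ : Q ≃* Q) (hN : ∀ a ∈ N, σ a ∈ N) : Q ⧸ N ≃* Q ⧸ N :=
  MulEquiv.ofBijective (QuotientGroup.map N N σ.toMonoidHom hN) (by
    refine (Finite.injective_iff_bijective).mp ?_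
    rw [injective_iff_map_eq_one]
    intro a ha
    induction a using QuotientGroup.induction_on with | _ a => ?_
    have h1 : ((σ a : Q) : Q ⧸ N) = 1 := ha
    rw [QuotientGroup.eq_one_iff] at h1 ⊢
    exact mem_of_apply_mem N σ hN a h1)

theorem quotAut_mk (N : Subgroup Q) [N.Normal] (σ : Q ≃* Q) (hN : ∀ a ∈ N, σ a ∈ N) (g : Q) :
    quotAut N σ hN (g : Q ⧸ N) = ((σ g : Q) : Q ⧸ N) := rfl

theorem quotAut_iter (N : Subgroup Q) [N.Normal] (σ : Q ≃* Q) (hN : ∀ a ∈ N, σ a ∈ N) (i : ℕ) (g : Q) :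
    (quotAut N σ hN)^[i] (g : Q ⧸ N) = ((σ^[i] g : Q) : Q ⧸ N) := by
  induction i with
  | zero => rfl
  | succ i ih => rw [Function.iterate_succ_apply', ih, quotAut_mk, Function.iterate_succ_apply']

/-- The automorphism induced on an invariant subgroup. -/
noncomputable def subAut (A : Subgroup Q) (σ : Q ≃* Q) (hA : ∀ a ∈ A, σ a ∈ A) : A ≃* A :=
  MulEquiv.ofBijective
    (MonoidHom.mk' (fun r : A => (⟨σ r.1, hA r.1 r.2⟩ : A)) (fun a b => Subtype.ext (map_mul σ a.1 b.1)))
    (by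
      refine (Finite.injective_iff_bijective).mp fun a b h => ?_
      apply Subtype.ext
      exact σ.injective (congrArg Subtype.val h))

theorem subAut_coe (A : Subgroup Q) (σ : Q ≃* Q) (hA : ∀ a ∈ A, σ a ∈ A) (a : A) :
    ((subAut A σ hA a : A) : Q) = σ a.1 := rfl

theorem subAut_iter (A : Subgroup Q) (σ : Q ≃* Q) (hA : ∀ a ∈ A, σ a ∈ A) (i : ℕ) (a : A) :
    (((subAut A σ hA)^[i] a : A) : Q) = σ^[i] a.1 := by
  induction i with
  | zero => rfl
  | succ i ih => rw [Function.iterate_succ_apply', subAut_coe, ih, Function.iterate_succ_apply']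

theorem fix_mod_mem (α : Q ≃* Q) (hfix : ∀ x, α x = x → x = 1) {H : Subgroup Q}
    (hH : ∀ a ∈ H, α a ∈ H) {a : Q} (ha : (α a)⁻¹ * a ∈ H) : a ∈ H := by
  have hinj : Function.Injective (fun y : ↥H => (⟨y.1 * (α y.1)⁻¹, H.mul_mem y.2 (H.inv_mem (hH _ y.2))⟩ : ↥H)) := by
    intro y y' h
    have h1 : y.1 * (α y.1)⁻¹ = y'.1 * (α y'.1)⁻¹ := congrArg Subtype.val h
    have h2 : α (y'.1⁻¹ * y.1) = y'.1⁻¹ * y.1 := by
      rw [map_mul, map_inv]
      have h3 : y'.1⁻¹ * y.1 = (α y'.1)⁻¹ * α y.1 := by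
        calc y'.1⁻¹ * y.1 = y'.1⁻¹ * (y.1 * (α y.1)⁻¹) * α y.1 := by group
          _ = y'.1⁻¹ * (y'.1 * (α y'.1)⁻¹) * α y.1 := by rw [h1]
          _ = (α y'.1)⁻¹ * α y.1 := by group
      exact h3.symm
    have h3 := hfix _ h2
    apply Subtype.ext
    rw [inv_mul_eq_one] at h3
    exact h3.symm
  have hsurj := Finite.injective_iff_surjective.mp hinj
  obtain ⟨y, hy⟩ := hsurj ⟨a⁻¹ * α a, by
    have := H.inv_mem ha
    simpa using this⟩
  have hy' : y.1 * (α y.1)⁻¹ = a⁻¹ * α a := congrArg Subtype.val hy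
  have hfx : α (a * y.1) = a * y.1 := by
    rw [map_mul]
    have : α a = a * (y.1 * (α y.1)⁻¹) := by rw [hy']; group
    rw [this]
    group
  have h1 := hfix _ hfx
  have : a = y.1⁻¹ := eq_inv_of_mul_eq_one_left h1
  rw [this]
  exact H.inv_mem y.2

end Auts

variable {F : Type v} {W : Type w} [Field F] [AddCommGroup W] [Module F W]

/-- **The Hall--Higman theorem, over a field.** -/
theorem hh_main_aux [IsAlgClosed F] [FiniteDimensional F W] [Nontrivial W] {q p m : ℕ}
    (hq : q.Prime) (hp : p.Prime) (hpq : p ≠ q) (hm : 0 < m) (hodd : p ≠ 2 ∨ m = 1)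
    (hqF : (q : F) ≠ 0) (hpF : (p : F) ≠ 0) (x : Module.End F W) (hxK : x ^ p ^ m = 1)
    (hfree : ∀ v, x v = v → v = 0) :
    ∀ (N : ℕ) (Q : Type u) [Group Q] [Fintype Q], Fintype.card Q = N → IsPGroup q Q →
      ∀ (ρ : Q →* Module.End F W) (σ : Q ≃* Q), (∀ g, σ^[p ^ m] g = g) →
        (∀ g, x * ρ g = ρ (σ g) * x) → (∃ g, ρ (g⁻¹ * σ^[p ^ (m - 1)] g) ≠ 1) →
        (∃ a b : Q, a * b ≠ b * a) ∧ (∃ n m₀ : ℕ, 0 < n ∧ 0 < m₀ ∧ m₀ ≤ m ∧ q ^ n + 1 = p ^ m₀) ∧
          (p ≠ 2 → ∃ g : Q, g ≠ 1 ∧ σ g = g) := by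
  classical
  have hKpos : 0 < p ^ m := pow_pos hp.pos m
  intro N
  induction N using Nat.strong_induction_on with
  | _ N ih =>
    intro Q _ _ hN hQ ρ σ hσK hxρ hex
    by_cases hρ : Function.Injective ρ
    · -- the faithful case
      have hy : ∃ g, σ^[p ^ (m - 1)] g ≠ g := by
        obtain ⟨g, hg⟩ := hex
        refine ⟨g, fun h => hg ?_⟩
        rw [h, inv_mul_cancel, map_one]
      by_cases hmin : ∀ A : Subgroup Q, (∀ a ∈ A, σ a ∈ A) → A ≠ ⊤ → ∀ a ∈ A, σ^[p ^ (m - 1)] a = a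
      · obtain ⟨hnonab, ν, l, n, m₀, R, hn, hm₀, hm₀m, hlm, harith, hmul, hνq, hPl, hRiff, hidx, hRne⟩ :=
          hh_min_main hq hp hpq hQ hm hodd ρ hρ σ hσK x hxρ hxK hfree hqF hpF hy hmin
        refine ⟨hnonab, ⟨n, m₀, hn, hm₀, hm₀m, harith⟩, fun hp2 => ?_⟩
        by_contra hcon
        push Not at hcon
        have hfpf : ∀ g, σ g = g → g = 1 := by
          intro g hg
          by_contra hne
          exact hcon g hne hg
        have hkp : p ^ (m - 1) * p = p ^ m := by
          rw [← pow_succ]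
          congr 1
          omega
        obtain ⟨hS1, hS2, hS3, hS5⟩ := min_struct hq hp hQ hpq σ (k := p ^ (m - 1))
          (fun g => by rw [hkp]; exact hσK g) hy hmin
        have hq2 : q = 2 := by
          have hoddp : Odd (p ^ m₀) := (hp.odd_of_ne_two hp2).pow
          rw [← harith] at hoddp
          have h4 : Even (q ^ n) := by
            by_contra hne
            have h3 : Odd (q ^ n) := Nat.not_even_iff_odd.mp hne
            exact (Nat.not_even_iff_odd.mpr hoddp) (h3.add_odd odd_one)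
          have h6 := Nat.Prime.dvd_of_dvd_pow Nat.prime_two h4.two_dvd
          exact ((Nat.prime_dvd_prime_iff_eq Nat.prime_two hq).mp h6).symm
        subst hq2
        exact hh_fpf (F := F) hp hp2 hm hn hm₀ hm₀m hlm harith hQ (by simpa using hqF) σ hσK hfpf hS1 hS3 hmin
          ν hmul hνq hPl R hRiff hidx hRne
      · -- a proper invariant subgroup on which the action is nontrivial
        push Not at hmin
        obtain ⟨A, hAσ, hAne, a, ha, hya⟩ := hmin
        letI : Fintype A := Fintype.ofFinite A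
        have hcard : Fintype.card A < N := by
          rw [← hN, ← Nat.card_eq_fintype_card, ← Nat.card_eq_fintype_card]
          exact lt_of_le_of_ne (Subgroup.card_le_card_group A) (fun h => hAne (Subgroup.eq_top_of_card_eq A h))
        let σA := subAut A σ hAσ
        have hit : ∀ (i : ℕ) (b : A), ((σA^[i] b : A) : Q) = σ^[i] b.1 := subAut_iter A σ hAσ
        obtain ⟨h1, h2, h3⟩ := ih _ hcard A rfl (hQ.to_subgroup A) (ρ.comp A.subtype) σA
          (fun g => Subtype.ext (by rw [hit]; exact hσK g.1)) (fun g => hxρ g.1)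
          ⟨⟨a, ha⟩, fun h => hya (by
            have h4 : ρ (a⁻¹ * σ^[p ^ (m - 1)] a) = 1 := by
              have e : (((⟨a, ha⟩ : A)⁻¹ * σA^[p ^ (m - 1)] ⟨a, ha⟩ : A) : Q) = a⁻¹ * σ^[p ^ (m - 1)] a := by
                rw [Subgroup.coe_mul, hit]
                rfl
              rw [← e]
              exact h
            have h5 : a⁻¹ * σ^[p ^ (m - 1)] a = 1 := hρ (by rw [h4, map_one])
            have := congrArg (fun t => a * t) h5
            simpa using this)⟩
        refine ⟨?_, h2, fun hp2 => ?_⟩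
        · obtain ⟨b, c, hbc⟩ := h1
          exact ⟨b.1, c.1, fun h => hbc (Subtype.ext h)⟩
        · obtain ⟨g, hg, hσg⟩ := h3 hp2
          exact ⟨g.1, fun h => hg (Subtype.ext h), congrArg Subtype.val hσg⟩
    · -- pass to the quotient by the kernel
      let K₁ : Subgroup Q := ρ.ker
      haveI : K₁.Normal := MonoidHom.normal_ker ρ
      have hK₁ : ∀ g, g ∈ K₁ ↔ ρ g = 1 := fun g => MonoidHom.mem_ker
      have hK₁σ : ∀ a ∈ K₁, σ a ∈ K₁ := by
        intro a ha
        rw [hK₁] at ha ⊢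
        have h1 := hxρ a
        rw [ha, mul_one] at h1
        have h2 : x * x ^ (p ^ m - 1) = 1 := by
          rw [← pow_succ', Nat.sub_add_cancel hKpos, hxK]
        calc ρ (σ a) = ρ (σ a) * (x * x ^ (p ^ m - 1)) := by rw [h2, mul_one]
          _ = (ρ (σ a) * x) * x ^ (p ^ m - 1) := by rw [mul_assoc]
          _ = 1 := by rw [← h1, h2]
      have hK₁ne : K₁ ≠ ⊥ := by
        intro h
        apply hρ
        have h0 : ∀ g, ρ g = 1 → g = 1 := by
          intro g hg
          have : g ∈ K₁ := (hK₁ g).mpr hg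
          rwa [h, Subgroup.mem_bot] at this
        intro a b hab
        have h1 : ρ (a * b⁻¹) = 1 := by
          rw [map_mul, hab, ← map_mul, mul_inv_cancel, map_one]
        exact mul_inv_eq_one.mp (h0 _ h1)
      letI : Fintype (Q ⧸ K₁) := Fintype.ofFinite _
      have hcard : Fintype.card (Q ⧸ K₁) < N := by
        rw [← hN, ← Nat.card_eq_fintype_card, ← Nat.card_eq_fintype_card]
        have h1 := Subgroup.card_mul_index K₁
        have h2 : 1 < Nat.card K₁ := by
          haveI : Nontrivial K₁ := (Subgroup.nontrivial_iff_ne_bot K₁).mpr hK₁ne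
          exact Finite.one_lt_card
        have h3 : 0 < K₁.index := Nat.pos_of_ne_zero Subgroup.index_ne_zero_of_finite
        show K₁.index < _
        rw [← h1]
        nlinarith
      let σ' := quotAut K₁ σ hK₁σ
      have hit : ∀ (i : ℕ) (g : Q), σ'^[i] (g : Q ⧸ K₁) = ((σ^[i] g : Q) : Q ⧸ K₁) := quotAut_iter K₁ σ hK₁σ
      let ρ' : Q ⧸ K₁ →* Module.End F W := QuotientGroup.lift K₁ ρ le_rfl
      have hρ' : ∀ g : Q, ρ' (g : Q ⧸ K₁) = ρ g := fun g => rfl
      obtain ⟨g₀, hg₀⟩ := hex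
      obtain ⟨h1, h2, h3⟩ := ih _ hcard (Q ⧸ K₁) rfl (hQ.of_surjective (QuotientGroup.mk' K₁) (QuotientGroup.mk'_surjective K₁))
        ρ' σ'
        (by
          intro g
          induction g using QuotientGroup.induction_on with | _ g => ?_
          rw [hit, hσK])
        (by
          intro g
          induction g using QuotientGroup.induction_on with | _ g => ?_
          exact hxρ g)
        ⟨(g₀ : Q ⧸ K₁), by
          rw [hit, ← QuotientGroup.mk_inv, ← QuotientGroup.mk_mul, hρ']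
          exact hg₀⟩
      refine ⟨?_, h2, fun hp2 => ?_⟩
      · obtain ⟨b, c, hbc⟩ := h1
        induction b using QuotientGroup.induction_on with | _ b => ?_
        induction c using QuotientGroup.induction_on with | _ c => ?_
        exact ⟨b, c, fun h => hbc (by rw [← QuotientGroup.mk_mul, ← QuotientGroup.mk_mul, h])⟩
      · by_contra hcon
        push Not at hcon
        obtain ⟨g, hg, hσg⟩ := h3 hp2
        induction g using QuotientGroup.induction_on with | _ g => ?_
        have hfpf : ∀ g, σ g = g → g = 1 := by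
          intro g hg
          by_contra hne
          exact hcon g hne hg
        have h4 : ((σ g : Q) : Q ⧸ K₁) = g := hσg
        rw [QuotientGroup.eq] at h4
        exact hg ((QuotientGroup.eq_one_iff g).mpr (fix_mod_mem σ hfpf hK₁σ h4))

/-- **The Hall--Higman theorem, over a field.** -/
theorem hh_main [IsAlgClosed F] [FiniteDimensional F W] [Nontrivial W] {q p m : ℕ}
    (hq : q.Prime) (hp : p.Prime) (hpq : p ≠ q) (hm : 0 < m) (hodd : p ≠ 2 ∨ m = 1)
    (hqF : (q : F) ≠ 0) (hpF : (p : F) ≠ 0) (x : Module.End F W) (hxK : x ^ p ^ m = 1)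
    (hfree : ∀ v, x v = v → v = 0) {Q : Type u} [Group Q] [Fintype Q] (hQ : IsPGroup q Q)
    (ρ : Q →* Module.End F W) (σ : Q ≃* Q) (hσK : ∀ g, σ^[p ^ m] g = g)
    (hxρ : ∀ g, x * ρ g = ρ (σ g) * x) (hex : ∃ g, ρ (g⁻¹ * σ^[p ^ (m - 1)] g) ≠ 1) :
    (∃ a b : Q, a * b ≠ b * a) ∧ (∃ n m₀ : ℕ, 0 < n ∧ 0 < m₀ ∧ m₀ ≤ m ∧ q ^ n + 1 = p ^ m₀) ∧
      (p ≠ 2 → ∃ g : Q, g ≠ 1 ∧ σ g = g) :=
  hh_main_aux hq hp hpq hm hodd hqF hpF x hxK hfree _ Q rfl hQ ρ σ hσK hxρ hex

end Cfsg.Agent.Lib.PGroup.HH
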