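import Mathlib
import Cfsg.Agent.Lib.PGroup.HHRed
import Cfsg.Agent.Lib.PGroup.HHGroup

/-!
# The Hall--Higman theorem for modules over the prime field
-/

namespace Cfsg.Agent.Lib.PGroup.HH

open scoped BigOperators commutatorElement

/-- **The Hall--Higman theorem for modules over a prime field.** -/
theorem hh_module {c q p m : ℕ} [Fact c.Prime] (hq : q.Prime) (hp : p.Prime) (hcq : c ≠ q) (hcp : c ≠ p)
    (hpq : p ≠ q) (hm : 0 < m) (hodd : p ≠ 2 ∨ m = 1)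
    {M : Type*} [AddCommGroup M] [Module (ZMod c) M] [Finite M] [Nontrivial M]
    (x₀ : Module.End (ZMod c) M) (hxK : x₀ ^ p ^ m = 1) (hfree : ∀ v, x₀ v = v → v = 0)
    {Q : Type*} [Group Q] [Fintype Q] (hQ : IsPGroup q Q)
    (act : Q →* Module.End (ZMod c) M) (σ : Q ≃* Q) (hσK : ∀ g, σ^[p ^ m] g = g)
    (hx : ∀ g, x₀ * act g = act (σ g) * x₀) (hex : ∃ g, act (g⁻¹ * σ^[p ^ (m - 1)] g) ≠ 1) :
    (∃ a b : Q, a * b ≠ b * a) ∧ (∃ n m₀ : ℕ, 0 < n ∧ 0 < m₀ ∧ m₀ ≤ m ∧ q ^ n + 1 = p ^ m₀) ∧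
      (p ≠ 2 → ∃ g : Q, g ≠ 1 ∧ σ g = g) := by
  haveI : Nontrivial (Wr c M) := wr_nontrivial
  haveI : Module.Finite (ZMod c) M := Module.Finite.of_finite
  have hpF := Kr_cast_ne hp hcp
  have hKF : ((p ^ m : ℕ) : Kr c) ≠ 0 := by
    rw [Nat.cast_pow]; exact pow_ne_zero _ hpF
  refine hh_main (F := Kr c) (W := Wr c M) hq hp hpq hm hodd (Kr_cast_ne hq hcq) hpF (bcM c M x₀)
    (by rw [← map_pow, hxK, map_one]) (bc_free hKF hxK hfree) hQ ((bcM c M).comp act) σ hσK ?_ ?_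
  · intro g
    simp only [MonoidHom.comp_apply]
    rw [← map_mul, ← map_mul, hx]
  · obtain ⟨g, hg⟩ := hex
    refine ⟨g, fun h => hg ?_⟩
    apply bcM_inj c M
    rw [map_one]
    exact h

end Cfsg.Agent.Lib.PGroup.HH
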