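import Mathlib
import Cfsg.Agent.Lib.PGroup.HHModule
import Cfsg.Agent.Lib.Core.Basic
import Cfsg.Agent.Lib.Geo.PrimSolvable

/-!
# The Shult--Gross theorem: preliminaries on automorphisms and the Fitting subgroup
-/

set_option autoImplicit false

namespace Cfsg.Agent.Lib.PGroup.HH

open Cfsg Subgroup Cfsg.Agent.Lib.Core
open scoped commutatorElement

variable {G : Type*} [Group G] [Finite G]

/-- A fixed-point-free automorphism has order prime to the order of the group. -/
theorem coprime_of_fpf_pow {p m : ℕ} (hp : p.Prime) (α : G ≃* G)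
    (hfix : ∀ x, α x = x → x = 1) (hα : ∀ x, α^[p ^ m] x = x) : Nat.Coprime p (Nat.card G) := by
  classical
  haveI : Fact p.Prime := ⟨hp⟩
  haveI := Fintype.ofFinite G
  let f : Function.End G := fun x => α x
  have hf : f ^ p ^ m = 1 := by
    funext x
    have : ∀ k : ℕ, (f ^ k) x = α^[k] x := by
      intro k
      induction k generalizing x with
      | zero => rfl
      | succ k ih =>
        rw [pow_succ, Function.iterate_succ_apply]
        exact ih (α x)
    rw [this, hα]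
    rfl
  have hm := Equiv.Perm.card_fixedPoints_modEq hf
  have hfx : Fintype.card (Function.fixedPoints f) = 1 := by
    rw [Fintype.card_eq_one_iff]
    refine ⟨⟨1, map_one α⟩, ?_⟩
    rintro ⟨x, hx⟩
    exact Subtype.ext (hfix x hx)
  rw [hfx] at hm
  rw [Nat.Prime.coprime_iff_not_dvd hp, Nat.card_eq_fintype_card]
  intro hd
  have h1 : Fintype.card G % p = 0 := Nat.mod_eq_zero_of_dvd hd
  have h2 : Nat.ModEq p (Fintype.card G) 1 := hm
  unfold Nat.ModEq at h2
  rw [h1] at h2
  rw [Nat.mod_eq_of_lt hp.one_lt] at h2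
  exact zero_ne_one h2

/-- A fixed-point-free automorphism fixes a Sylow subgroup. -/
theorem exists_inv_sylow (σ : G ≃* G) (hfpf : ∀ g, σ g = g → g = 1) (q : ℕ) [Fact q.Prime] :
    ∃ S : Sylow q G, ∀ a ∈ S, σ a ∈ S := by
  classical
  obtain ⟨S₀⟩ : Nonempty (Sylow q G) := inferInstance
  let S₁ : Sylow q G := Sylow.mapSurjective (f := σ.toMonoidHom) σ.surjective S₀
  obtain ⟨g, hg⟩ := MulAction.exists_smul_eq G S₀ S₁
  have hinj : Function.Injective (fun x : G => (σ x)⁻¹ * x) := by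
    intro a b h
    have h1 : (σ a)⁻¹ * a = (σ b)⁻¹ * b := h
    have h2 : σ (b * a⁻¹) = b * a⁻¹ := by
      rw [map_mul, map_inv]
      calc σ b * (σ a)⁻¹ = σ b * ((σ a)⁻¹ * a) * a⁻¹ := by group
        _ = σ b * ((σ b)⁻¹ * b) * a⁻¹ := by rw [h1]
        _ = b * a⁻¹ := by group
    have h3 := hfpf _ h2
    exact (mul_inv_eq_one.mp h3).symm
  obtain ⟨x, hx⟩ := (Finite.injective_iff_surjective.mp hinj) g
  have hx' : (σ x)⁻¹ * x = g := hx
  refine ⟨x • S₀, ?_⟩
  intro a ha
  have ha' : a ∈ ((x • S₀ : Sylow q G) : Subgroup G) := ha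
  rw [Sylow.smul_def] at ha'
  have hmemS₀ : ∀ s ∈ (S₀ : Subgroup G), σ s ∈ ((g • S₀ : Sylow q G) : Subgroup G) := by
    intro s hs
    rw [hg]
    exact ⟨s, hs, rfl⟩
  obtain ⟨s, hs, rfl⟩ := ha'
  have h1 := hmemS₀ s hs
  rw [Sylow.smul_def] at h1
  obtain ⟨s', hs', e⟩ := h1
  have e' : g * s' * g⁻¹ = σ s := e
  show _ ∈ ((x • S₀ : Sylow q G) : Subgroup G)
  rw [Sylow.smul_def]
  refine ⟨s', hs', ?_⟩
  show x * s' * x⁻¹ = σ (x * s * x⁻¹)
  rw [map_mul, map_mul, map_inv, ← e', ← hx']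
  group

/-- A Sylow subgroup maps onto a quotient which is a `q`-group. -/
theorem sylow_surj {B : Type*} [Group B] {q : ℕ} [Fact q.Prime] (f : G →* B) (hf : Function.Surjective f)
    (hB : IsPGroup q B) (S : Sylow q G) (h : G) : ∃ g ∈ S, f g = f h := by
  let S₁ : Sylow q B := Sylow.mapSurjective hf S
  have h1 : (⊤ : Subgroup B) = S₁ := S₁.is_maximal' (hB.to_subgroup ⊤) le_top
  have h2 : f h ∈ (S₁ : Subgroup B) := by
    rw [← h1]
    exact Subgroup.mem_top _
  obtain ⟨g, hg, e⟩ := h2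
  exact ⟨g, hg, e⟩

/-- A `r`-element of the Fitting subgroup lies in `O_r(G)`. -/
theorem mem_pCore_of_mem_fitting {r : ℕ} [Fact r.Prime] {x : G} (hx : x ∈ fittingSubgroup G)
    {j : ℕ} (hj : x ^ r ^ j = 1) : x ∈ pCore r G := by
  haveI hnil : Group.IsNilpotent (fittingSubgroup G) := isNilpotent_fittingSubgroup G
  let N := fittingSubgroup G
  let x' : N := ⟨x, hx⟩
  have hj' : x' ^ r ^ j = 1 := Subtype.ext hj
  have hz : IsPGroup r (Subgroup.zpowers x') := by
    intro y
    obtain ⟨k, hk⟩ := y.2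
    refine ⟨j, Subtype.ext ?_⟩
    show y.1 ^ r ^ j = 1
    rw [← hk]
    show (x' ^ k) ^ r ^ j = 1
    rw [← zpow_natCast, ← zpow_mul, mul_comm, zpow_mul, zpow_natCast, hj', one_zpow]
  obtain ⟨P, hP⟩ := hz.exists_le_sylow
  have hPn : (P : Subgroup N).Normal := inferInstance
  have hc : (P : Subgroup N).Characteristic := Sylow.characteristic_of_normal P hPn
  have hnorm : ((P : Subgroup N).map N.subtype).Normal :=
    ConjAct.normal_of_characteristic_of_normal
  have hle := le_pCore hnorm (P.isPGroup'.map _)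
  exact hle ⟨x', hP (Subgroup.mem_zpowers x'), rfl⟩

/-- An element of a `q`-by-Fitting normal subgroup which centralizes the other primary components
of the Fitting subgroup lies in the Fitting subgroup. -/
theorem mem_fit_of_centralizes {q : ℕ} [hq : Fact q.Prime] (L : Subgroup G) [hL : L.Normal]
    (hLq : ∀ x ∈ L, ∃ k : ℕ, x ^ q ^ k ∈ fittingSubgroup G) {t : G} (htL : t ∈ L)
    (ht : ∀ r : ℕ, r.Prime → r ≠ q → ∀ s ∈ pCore r G, t * s = s * t) : t ∈ fittingSubgroup G := by
  classical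
  let D : Subgroup G :=
    { carrier := {x | x ∈ L ∧ ∀ r : ℕ, r.Prime → r ≠ q → ∀ s ∈ pCore r G, x * s = s * x}
      mul_mem' := by
        rintro a b ⟨ha, ha'⟩ ⟨hb, hb'⟩
        refine ⟨L.mul_mem ha hb, fun r hr hrq s hs => ?_⟩
        rw [mul_assoc, hb' r hr hrq s hs, ← mul_assoc, ha' r hr hrq s hs, mul_assoc]
      one_mem' := ⟨L.one_mem, fun r _ _ s _ => by simp⟩
      inv_mem' := by
        rintro a ⟨ha, ha'⟩
        refine ⟨L.inv_mem ha, fun r hr hrq s hs => ?_⟩
        have := ha' r hr hrq s hs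
        calc a⁻¹ * s = a⁻¹ * (s * a) * a⁻¹ := by group
          _ = a⁻¹ * (a * s) * a⁻¹ := by rw [this]
          _ = s * a⁻¹ := by group }
  have hDmem : ∀ x, x ∈ D ↔ x ∈ L ∧ ∀ r : ℕ, r.Prime → r ≠ q → ∀ s ∈ pCore r G, x * s = s * x :=
    fun x => Iff.rfl
  haveI hDn : D.Normal := by
    constructor
    rintro n ⟨hn, hn'⟩ g
    refine ⟨hL.conj_mem n hn g, fun r hr hrq s hs => ?_⟩
    have hs' : g⁻¹ * s * g ∈ pCore r G := by
      have := (pCore_normal r G).conj_mem s hs g⁻¹
      simpa using this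
    have := hn' r hr hrq _ hs'
    calc g * n * g⁻¹ * s = g * (n * (g⁻¹ * s * g)) * g⁻¹ := by group
      _ = g * ((g⁻¹ * s * g) * n) * g⁻¹ := by rw [this]
      _ = s * (g * n * g⁻¹) := by group
  -- Sylow subgroups for the other primes are central
  have hcentral : ∀ r : ℕ, r.Prime → r ≠ q → ∀ (_ : Fact r.Prime) (S : Sylow r D), (S : Subgroup D) ≤ center D := by
    intro r hr hrq _ S s hs
    obtain ⟨j, hj⟩ := (S.isPGroup') ⟨s, hs⟩
    have hj1 : (s : G) ^ r ^ j = 1 := by
      have := congrArg (fun y : S => ((y : D) : G)) hj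
      simpa using this
    obtain ⟨k, hk⟩ := hLq s.1 s.2.1
    have hcop : Nat.Coprime (q ^ k) (r ^ j) :=
      Nat.Coprime.pow _ _ ((Nat.coprime_primes hq.out hr).mpr hrq.symm)
    have hsF : (s : G) ∈ fittingSubgroup G := by
      have h1 : (s : G) = ((s : G) ^ q ^ k) ^ (Nat.gcdA (q ^ k) (r ^ j)) := by
        have hb := Nat.gcd_eq_gcd_ab (q ^ k) (r ^ j)
        rw [hcop.gcd_eq_one] at hb
        have h2 : (s : G) ^ ((q ^ k : ℕ) * Nat.gcdA (q ^ k) (r ^ j) + (r ^ j : ℕ) * Nat.gcdB (q ^ k) (r ^ j)) = s := by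
          rw [← hb]
          simp
        rw [zpow_add, zpow_mul, zpow_mul, zpow_natCast, zpow_natCast, hj1, one_zpow, mul_one] at h2
        exact h2.symm
      rw [h1]
      exact Subgroup.zpow_mem _ hk _
    have hsO := mem_pCore_of_mem_fitting hsF hj1
    refine Subgroup.mem_center_iff.mpr fun d => ?_
    apply Subtype.ext
    exact (d.2.2 r hr hrq _ hsO)
  -- so the central quotient is a `q`-group
  have hDnil : Group.IsNilpotent D := by
    apply of_quotient_center_nilpotent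
    have hP : IsPGroup q (D ⧸ center D) := by
      rw [IsPGroup.iff_card]
      have hne : Nat.card (D ⧸ center D) ≠ 0 := Nat.card_pos.ne'
      refine ⟨_, Nat.eq_prime_pow_of_unique_prime_dvd hne ?_⟩
      intro r hr hrd
      by_contra hrq
      haveI : Fact r.Prime := ⟨hr⟩
      obtain ⟨S⟩ : Nonempty (Sylow r D) := inferInstance
      have h1 := hcentral r hr hrq inferInstance S
      have h2 : (center D).index ∣ (S : Subgroup D).index := Subgroup.index_dvd_of_le h1
      exact S.not_dvd_index (hrd.trans h2)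
    exact hP.isNilpotent
  have hDF : D ≤ fittingSubgroup G := le_fittingSubgroup hDn hDnil
  exact hDF ⟨htL, ht⟩

end Cfsg.Agent.Lib.PGroup.HH
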