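import Mathlib
import Cfsg.Agent.Lib.PGroup.HHSG1
import Cfsg.Agent.Lib.Transfer.Frat

/-!
# The Shult--Gross theorem: the action on a Frattini quotient
-/

set_option autoImplicit false

namespace Cfsg.Agent.Lib.PGroup.HH

open Cfsg Subgroup Cfsg.Agent.Lib.Core
open scoped commutatorElement

variable {G : Type*} [Group G] [Finite G]

theorem mulAut_pow_apply {H : Type*} [Group H] (f : MulAut H) (n : ℕ) (a : H) : (f ^ n) a = f^[n] a := by
  induction n with
  | zero => rfl
  | succ n ih =>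
    rw [pow_succ', Function.iterate_succ_apply', MulAut.mul_apply, ih]

/-- The automorphism group acts on the Frattini quotient. -/
noncomputable def frattiniAct (P : Type*) [Group P] [Finite P] : MulAut P →* MulAut (P ⧸ frattini P) where
  toFun f := quotAut (frattini P) f (fun a ha =>
    (Subgroup.characteristic_iff_le_comap.mp (inferInstance : (frattini P).Characteristic) f) ha)
  map_one' := by
    ext x
    induction x using QuotientGroup.induction_on with | _ x => ?_
    rfl
  map_mul' a b := by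
    ext x
    induction x using QuotientGroup.induction_on with | _ x => ?_
    rfl

theorem frattiniAct_mk {P : Type*} [Group P] [Finite P] (f : MulAut P) (a : P) :
    frattiniAct P f (a : P ⧸ frattini P) = ((f a : P) : P ⧸ frattini P) := rfl

/-- **The key step of Shult--Gross.** For a fixed-point-free automorphism of order a power of an odd
prime, an invariant `q`-group acts on a normal invariant `r`-subgroup with the action of
`σ ^ (p ^ (m - 1))` trivial. -/
theorem frat_hh {p q r m : ℕ} (hp : p.Prime) (hq : q.Prime) (hr : r.Prime) (hp2 : p ≠ 2) (hpq : p ≠ q)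
    (hpr : p ≠ r) (hqr : q ≠ r) (hm : 0 < m) (σ : G ≃* G) (hfpf : ∀ g, σ g = g → g = 1)
    (hσK : ∀ g, σ^[p ^ m] g = g) (P : Subgroup G) [hPn : P.Normal] (hP : IsPGroup r P)
    (hPσ : ∀ a ∈ P, σ a ∈ P) (Q₁ : Subgroup G) (hQ₁ : IsPGroup q Q₁) (hQσ : ∀ a ∈ Q₁, σ a ∈ Q₁)
    {g : G} (hg : g ∈ Q₁) : g⁻¹ * σ^[p ^ (m - 1)] g ∈ centralizer (P : Set G) := by
  classical
  by_contra ht
  haveI hrF : Fact r.Prime := ⟨hr⟩
  haveI hqF : Fact q.Prime := ⟨hq⟩
  haveI := Fintype.ofFinite Q₁
  set t : G := g⁻¹ * σ^[p ^ (m - 1)] g with htdef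
  -- the Frattini quotient
  let Φ : Subgroup P := frattini P
  haveI hΦn : Φ.Normal := inferInstance
  let A := P ⧸ Φ
  have hcomm : ∀ a b : A, a * b = b * a := by
    intro a b
    induction a using QuotientGroup.induction_on with | _ a => ?_
    induction b using QuotientGroup.induction_on with | _ b => ?_
    rw [← QuotientGroup.mk_mul, ← QuotientGroup.mk_mul, QuotientGroup.eq]
    have h1 : ⁅b⁻¹, a⁻¹⁆ ∈ commutator P :=
      Subgroup.commutator_mem_commutator (Subgroup.mem_top _) (Subgroup.mem_top _)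
    have e : (a * b)⁻¹ * (b * a) = ⁅b⁻¹, a⁻¹⁆ := by
      rw [commutatorElement_def]; group
    rw [e]
    exact Cfsg.Agent.Lib.Transfer.commutator_le_frattini hP h1
  have hexp : ∀ a : A, a ^ r = 1 := by
    intro a
    induction a using QuotientGroup.induction_on with | _ a => ?_
    rw [← QuotientGroup.mk_pow, QuotientGroup.eq_one_iff]
    exact Cfsg.Agent.Lib.Transfer.pow_mem_frattini hP a
  haveI : Fact (IsElem r A) := ⟨⟨hcomm, hexp⟩⟩
  have hPnt : ∃ s ∈ P, s ≠ 1 := by
    by_contra hcon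
    push Not at hcon
    apply ht
    rw [Subgroup.mem_centralizer_iff]
    intro s hs
    rw [hcon s hs, one_mul, mul_one]
  haveI hAnt : Nontrivial A := by
    obtain ⟨s, hs, hs1⟩ := hPnt
    haveI : Nontrivial P := ⟨⟨⟨s, hs⟩, 1, fun h => hs1 (congrArg Subtype.val h)⟩⟩
    rcases eq_top_or_exists_le_coatom (⊥ : Subgroup P) with h | ⟨M, hM, -⟩
    · exact absurd h bot_ne_top
    · have hΦM : Φ ≤ M := frattini_le_coatom hM
      obtain ⟨a, ha⟩ : ∃ a, a ∉ M := by
        by_contra hcon
        push Not at hcon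
        exact hM.1 ((Subgroup.eq_top_iff' M).mpr hcon)
      refine ⟨⟨(a : A), 1, fun h => ha (hΦM ?_)⟩⟩
      exact (QuotientGroup.eq_one_iff a).mp h
  let α : P ≃* P := subAut P σ hPσ
  have hαc : ∀ a : P, ((α a : P) : G) = σ a.1 := fun a => rfl
  have hαfpf : ∀ a, α a = a → a = 1 := by
    intro a ha
    apply Subtype.ext
    exact hfpf a.1 (congrArg Subtype.val ha)
  let cP : G →* MulAut P := MulAut.conjNormal
  have hcP : ∀ (x : G) (a : P), ((cP x a : P) : G) = x * a * x⁻¹ := fun x a => MulAut.conjNormal_apply x a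
  let B : Q₁ →* MulAut A := (frattiniAct P).comp (cP.comp Q₁.subtype)
  let act : Q₁ →* Module.End (ZMod r) (EMod r A) := (eEnd (p := r)).comp B
  let αA : MulAut A := frattiniAct P α
  let x₀ : Module.End (ZMod r) (EMod r A) := eEnd αA
  let σQ : Q₁ ≃* Q₁ := subAut Q₁ σ hQσ
  have hσQit : ∀ (i : ℕ) (b : Q₁), ((σQ^[i] b : Q₁) : G) = σ^[i] b.1 := subAut_iter Q₁ σ hQσ
  have hcompat : ∀ b : Q₁, αA * B b = B (σQ b) * αA := by
    intro b
    show frattiniAct P α * frattiniAct P (cP b.1) = frattiniAct P (cP (σQ b).1) * frattiniAct P α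
    rw [← map_mul, ← map_mul]
    congr 1
    ext a
    show ((α (cP b.1 a) : P) : G) = ((cP (σQ b).1 (α a) : P) : G)
    rw [hαc, hcP, hcP, hαc, map_mul, map_mul, map_inv]
    rfl
  have hx : ∀ b, x₀ * act b = act (σQ b) * x₀ := by
    intro b
    show eEnd αA * eEnd (B b) = eEnd (B (σQ b)) * eEnd αA
    rw [← map_mul, ← map_mul, hcompat]
  have hαK : α ^ p ^ m = 1 := by
    ext a
    rw [mulAut_pow_apply]
    have : ((α^[p ^ m] a : P) : G) = σ^[p ^ m] a.1 := subAut_iter P σ hPσ (p ^ m) a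
    rw [this, hσK]
    rfl
  have hxK : x₀ ^ p ^ m = 1 := by
    show (eEnd αA) ^ p ^ m = 1
    rw [← map_pow]
    show eEnd ((frattiniAct P α) ^ p ^ m) = 1
    rw [← map_pow, hαK, map_one, map_one]
  have hfree : ∀ v, x₀ v = v → v = 0 := by
    intro v hv
    obtain ⟨a, ha⟩ := QuotientGroup.mk_surjective (eTo v : A)
    have hv' : v = eOf r (a : A) := by
      rw [← eOf_eTo v]
      exact congrArg (eOf r) ha.symm
    rw [hv'] at hv
    have h1 : ((α a : P) : A) = a := congrArg eTo hv
    rw [QuotientGroup.eq] at h1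
    have hΦα : ∀ b ∈ Φ, α b ∈ Φ := fun b hb =>
      (Subgroup.characteristic_iff_le_comap.mp (inferInstance : (frattini P).Characteristic) α) hb
    have h2 := fix_mod_mem α hαfpf hΦα h1
    rw [hv']
    exact (QuotientGroup.eq_one_iff a).mpr h2
  have hex : ∃ b, act (b⁻¹ * σQ^[p ^ (m - 1)] b) ≠ 1 := by
    refine ⟨⟨g, hg⟩, fun h => ?_⟩
    apply ht
    set t' : Q₁ := (⟨g, hg⟩ : Q₁)⁻¹ * σQ^[p ^ (m - 1)] ⟨g, hg⟩ with ht'
    have ht'c : (t' : G) = t := by
      rw [ht', Subgroup.coe_mul, hσQit]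
      rfl
    have hB : B t' = 1 := eEnd_eq_one (p := r) h
    have hle := Cfsg.Agent.Lib.Hall.le_centralizer_of_frattini (Subgroup.zpowers t) P
      (by rw [Subgroup.normalizer_eq_top]; exact le_top)
      (by
        have htQ : t ∈ Q₁ := by rw [← ht'c]; exact t'.2
        have h1 : IsPGroup q (Subgroup.zpowers t) := hQ₁.to_le (Subgroup.zpowers_le.mpr htQ)
        have h2 : IsPGroup r (frattini P) := hP.to_subgroup _
        obtain ⟨a, ha⟩ := IsPGroup.iff_card.mp h1
        obtain ⟨b, hb⟩ := IsPGroup.iff_card.mp h2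
        rw [ha, hb]
        exact Nat.Coprime.pow _ _ ((Nat.coprime_primes hq hr).mpr hqr))
      (by
        intro a ha k hk
        obtain ⟨j, rfl⟩ := Subgroup.mem_zpowers_iff.mp ha
        have hBj : B (t' ^ j) = 1 := by rw [map_zpow, hB, one_zpow]
        have hcoe : ((t' ^ j : Q₁) : G) = t ^ j := by
          rw [Subgroup.coe_zpow, ht'c]
        let k' : P := ⟨k, hk⟩
        let u : P := cP (t ^ j) k'
        have h1 : (B (t' ^ j)) (k' : A) = (k' : A) := by rw [hBj]; rfl
        have h2 : (u : A) = (k' : A) := by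
          rw [← h1]
          show _ = ((cP ((t' ^ j : Q₁) : G) k' : P) : A)
          rw [hcoe]
        rw [QuotientGroup.eq] at h2
        have h3 : u * k'⁻¹ ∈ Φ := by
          have h4 := hΦn.conj_mem _ (Φ.inv_mem h2) k'
          convert h4 using 1
          group
        refine ⟨u * k'⁻¹, h3, ?_⟩
        show ((u : P) : G) * (k' : G)⁻¹ = _
        rw [hcP])
    exact hle (Subgroup.mem_zpowers t)
  obtain ⟨-, -, h3⟩ := hh_module (c := r) (M := EMod r A) hq hp hqr.symm hpr.symm hpq hm (Or.inl hp2) x₀ hxK hfree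
    hQ₁ act σQ (fun b => Subtype.ext (by rw [hσQit]; exact hσK b.1)) hx hex
  obtain ⟨b, hb, hb'⟩ := h3 hp2
  exact hb (Subtype.ext (hfpf b.1 (congrArg Subtype.val hb')))

end Cfsg.Agent.Lib.PGroup.HH
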