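import Mathlib

/-!
Abelian `p`-groups with coprime groups of automorphisms: invariant direct decompositions.
-/

namespace Cfsg.Agent.Lib.PGroup.AbAut

open Subgroup

variable {A : Type*} [CommGroup A] [Finite A] {p : ℕ} [Fact p.Prime]

/-- Invariance under a group of automorphisms. -/
def Inv (X : Subgroup (MulAut A)) (B : Subgroup A) : Prop := ∀ x ∈ X, ∀ b ∈ B, x b ∈ B

theorem inv_iff {X : Subgroup (MulAut A)} {B : Subgroup A} :
    (∀ x ∈ X, B.map x.toMonoidHom = B) ↔ Inv X B := by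
  constructor
  · intro h x hx b hb
    have h1 : x b ∈ B.map x.toMonoidHom := ⟨b, hb, rfl⟩
    rwa [h x hx] at h1
  · intro h x hx
    apply le_antisymm
    · rintro _ ⟨b, hb, rfl⟩
      exact h x hx b hb
    · intro b hb
      refine ⟨x⁻¹ b, h x⁻¹ (inv_mem hx) b hb, ?_⟩
      exact MulAut.apply_inv_self _ x b

variable {X : Subgroup (MulAut A)}

theorem Inv.inf {B C : Subgroup A} (hB : Inv X B) (hC : Inv X C) : Inv X (B ⊓ C) := fun x hx b hb =>
  Subgroup.mem_inf.mpr ⟨hB x hx b (Subgroup.mem_inf.mp hb).1, hC x hx b (Subgroup.mem_inf.mp hb).2⟩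

/-- The subgroup of `p`-th powers of a subgroup. -/
def powS (p : ℕ) (D : Subgroup A) : Subgroup A := D.map (powMonoidHom p)

theorem mem_powS {D : Subgroup A} {a : A} : a ∈ powS p D ↔ ∃ d ∈ D, d ^ p = a := Iff.rfl

theorem Inv.powS {D : Subgroup A} (hD : Inv X D) : Inv X (powS p D) := by
  rintro x hx _ ⟨d, hd, rfl⟩
  exact ⟨x d, hD x hx d hd, by simp⟩

/-- Elements of exponent dividing `p` of a subgroup. -/
def om (p : ℕ) (D : Subgroup A) : Subgroup A := D ⊓ (powMonoidHom p).ker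

theorem mem_om {D : Subgroup A} {a : A} : a ∈ om p D ↔ a ∈ D ∧ a ^ p = 1 := by
  simp [om, Subgroup.mem_inf, MonoidHom.mem_ker]

theorem Inv.om {D : Subgroup A} (hD : Inv X D) : Inv X (om p D) := by
  intro x hx a ha
  rw [mem_om] at ha ⊢
  exact ⟨hD x hx a ha.1, by rw [← map_pow, ha.2, map_one]⟩

/-- A subgroup `T` of exponent `p` meeting the `p`-th powers of `C` trivially has a complement
in `C` containing these powers. -/
theorem exists_complement {T C : Subgroup A} (hTC : T ≤ C) (hTp : ∀ t ∈ T, t ^ p = 1)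
    (hpure : ∀ c ∈ C, c ^ p ∈ T → c ^ p = 1) : ∃ R : Subgroup A, R ≤ C ∧ T ⊓ R = ⊥ ∧ T ⊔ R = C := by
  classical
  have hp : p.Prime := Fact.out
  let F : Set (Subgroup A) := {R | R ≤ C ∧ (∀ c ∈ C, c ^ p ∈ R) ∧ T ⊓ R = ⊥}
  have hne : powS p C ∈ F := by
    refine ⟨?_, fun c hc => ⟨c, hc, rfl⟩, ?_⟩
    · rintro _ ⟨c, hc, rfl⟩
      exact pow_mem hc p
    · rw [eq_bot_iff]
      intro t ht
      obtain ⟨ht1, c, hc, e⟩ := Subgroup.mem_inf.mp ht
      have e' : c ^ p = t := e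
      have := hpure c hc (by rw [e']; exact ht1)
      rw [Subgroup.mem_bot, ← e', this]
  obtain ⟨R, hRle, hRmax⟩ := (Set.toFinite F).exists_le_maximal hne
  have hRF : R ∈ F := hRmax.prop
  obtain ⟨hRC, hRp, hRT⟩ := hRF
  refine ⟨R, hRC, hRT, le_antisymm (sup_le hTC hRC) ?_⟩
  intro c hc
  by_contra hcn
  have hcR : c ∉ R := fun h => hcn (Subgroup.mem_sup_right h)
  have hR1 : R ⊔ zpowers c ≤ C := sup_le hRC (by rw [Subgroup.zpowers_le]; exact hc)
  have hnot : R ⊔ zpowers c ∉ F := by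
    intro hmem
    have h1 : R ⊔ zpowers c ≤ R := hRmax.le_of_ge hmem le_sup_left
    exact hcR (h1 (Subgroup.mem_sup_right (mem_zpowers c)))
  have hnT : T ⊓ (R ⊔ zpowers c) ≠ ⊥ := by
    intro hb
    apply hnot
    refine ⟨hR1, fun d hd => Subgroup.mem_sup_left (hRp d hd), hb⟩
  obtain ⟨t', ht'⟩ := Subgroup.ne_bot_iff_exists_ne_one.mp hnT
  obtain ⟨ht1, ht2⟩ := Subgroup.mem_inf.mp t'.2
  obtain ⟨r, hr, w, hw, e⟩ := Subgroup.mem_sup.mp ht2
  obtain ⟨i, rfl⟩ := Subgroup.mem_zpowers_iff.mp hw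
  have hcp : c ^ p ∈ R := hRp c hc
  by_cases hdvd : (p : ℤ) ∣ i
  · obtain ⟨k, rfl⟩ := hdvd
    have h1 : (t' : A) ∈ R := by
      rw [← e, zpow_mul]
      refine mul_mem hr (zpow_mem ?_ k)
      rw [zpow_natCast]; exact hcp
    have h2 : (t' : A) ∈ T ⊓ R := Subgroup.mem_inf.mpr ⟨ht1, h1⟩
    rw [hRT, Subgroup.mem_bot] at h2
    exact ht' (Subtype.ext h2)
  · apply hcn
    have hcop : IsCoprime (i : ℤ) (p : ℤ) :=
      (Nat.prime_iff_prime_int.mp hp |>.coprime_iff_not_dvd.mpr hdvd).symm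
    obtain ⟨u, v, huv⟩ := hcop
    have h3 : c = (c ^ i) ^ u * (c ^ p) ^ v := by
      rw [← zpow_mul, ← zpow_natCast c p, ← zpow_mul, ← zpow_add]
      have : i * u + (p : ℤ) * v = 1 := by linarith
      rw [this, zpow_one]
    rw [h3]
    have h4 : c ^ i = r⁻¹ * (t' : A) := by
      rw [← e]; group
    rw [h4]
    refine mul_mem (zpow_mem (mul_mem (Subgroup.mem_sup_right (inv_mem hr)) (Subgroup.mem_sup_left ht1)) u)
      (zpow_mem (Subgroup.mem_sup_right hcp) v)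

theorem eq_of_mem_inf {T R : Subgroup A} (hb : T ⊓ R = ⊥) {s t : A} (hs : s ∈ T) (ht : t ∈ T)
    (h : s * t⁻¹ ∈ R) : s = t := by
  have h2 : s * t⁻¹ ∈ T ⊓ R := Subgroup.mem_inf.mpr ⟨mul_mem hs (inv_mem ht), h⟩
  rw [hb, Subgroup.mem_bot] at h2
  exact mul_inv_eq_one.mp h2

/-- The averaging argument. -/
theorem exists_inv_complement (hX : (Nat.card X).Coprime p) {T C : Subgroup A} (hT : Inv X T) (hC : Inv X C)
    (hTC : T ≤ C) (hTp : ∀ t ∈ T, t ^ p = 1) (hpure : ∀ c ∈ C, c ^ p ∈ T → c ^ p = 1) :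
    ∃ R : Subgroup A, Inv X R ∧ R ≤ C ∧ T ⊓ R = ⊥ ∧ T ⊔ R = C := by
  classical
  have hp : p.Prime := Fact.out
  obtain ⟨R₀, hR₀C, hR₀T, hR₀s⟩ := exists_complement hTC hTp hpure
  -- the projection
  have hex : ∀ c : A, ∃ t : A, c ∈ C → (t ∈ T ∧ t⁻¹ * c ∈ R₀) := by
    intro c
    by_cases hc : c ∈ C
    · rw [← hR₀s] at hc
      obtain ⟨t, ht, r, hr, e⟩ := Subgroup.mem_sup.mp hc
      refine ⟨t, fun _ => ⟨ht, ?_⟩⟩
      rw [← e]
      have : t⁻¹ * (t * r) = r := by group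
      rwa [this]
    · exact ⟨1, fun h => absurd h hc⟩
  choose π hπ using hex
  have hπT : ∀ c ∈ C, π c ∈ T := fun c hc => (hπ c hc).1
  have hπmul : ∀ c ∈ C, ∀ d ∈ C, π (c * d) = π c * π d := by
    intro c hc d hd
    have hcd := mul_mem hc hd
    have h1 := (hπ c hc).2
    have h2 := (hπ d hd).2
    have h3 := (hπ _ hcd).2
    symm
    apply eq_of_mem_inf hR₀T (mul_mem (hπT c hc) (hπT d hd)) (hπT _ hcd)
    have e1 : (π c)⁻¹ * c * ((π d)⁻¹ * d) = (π c * π d)⁻¹ * (c * d) := by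
      rw [mul_mul_mul_comm, mul_inv_rev, mul_comm (π d)⁻¹]
    have e : π c * π d * (π (c * d))⁻¹ =
        ((π (c * d))⁻¹ * (c * d)) * ((π c)⁻¹ * c * ((π d)⁻¹ * d))⁻¹ := by
      rw [e1, mul_comm (π c * π d)]
      group
    rw [e]
    exact mul_mem h3 (inv_mem (mul_mem h1 h2))
  have hπid : ∀ t ∈ T, π t = t := by
    intro t ht
    apply eq_of_mem_inf hR₀T (hπT t (hTC ht)) ht
    have h1 := (hπ t (hTC ht)).2
    have e : π t * t⁻¹ = ((π t)⁻¹ * t)⁻¹ := by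
      rw [mul_inv_rev, inv_inv, mul_comm]
    rw [e]
    exact inv_mem h1
  haveI : Finite (MulAut A) := Finite.of_injective (fun e : MulAut A => (e : A → A)) DFunLike.coe_injective
  haveI : Fintype X := Fintype.ofFinite X
  obtain ⟨N, hN⟩ : ∃ N, N = Nat.card X := ⟨_, rfl⟩
  obtain ⟨m, -, hm⟩ := Nat.exists_mul_mod_eq_one_of_coprime (k := p) (n := N) (by rw [hN]; exact hX) hp.one_lt
  let av : A → A := fun c => ∏ x : X, (x : MulAut A)⁻¹ (π ((x : MulAut A) c))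
  have hterm : ∀ c ∈ C, ∀ x : X, (x : MulAut A)⁻¹ (π ((x : MulAut A) c)) ∈ T := fun c hc x =>
    hT _ (inv_mem x.2) _ (hπT _ (hC _ x.2 c hc))
  have havT : ∀ c ∈ C, av c ∈ T := fun c hc => prod_mem (fun x _ => hterm c hc x)
  have havmul : ∀ c ∈ C, ∀ d ∈ C, av (c * d) = av c * av d := by
    intro c hc d hd
    show (∏ x : X, _) = (∏ x : X, _) * (∏ x : X, _)
    rw [← Finset.prod_mul_distrib]
    apply Finset.prod_congr rfl
    intro x _
    rw [map_mul, hπmul _ (hC _ x.2 c hc) _ (hC _ x.2 d hd), map_mul]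
  have havid : ∀ t ∈ T, av t = t ^ N := by
    intro t ht
    show (∏ x : X, _) = _
    have h1 : ∀ x : X, (x : MulAut A)⁻¹ (π ((x : MulAut A) t)) = t := by
      intro x
      rw [hπid _ (hT _ x.2 t ht)]
      exact MulAut.inv_apply_self _ _ t
    rw [Finset.prod_congr rfl (fun x _ => h1 x), Finset.prod_const, Finset.card_univ, hN,
      Nat.card_eq_fintype_card]
  have haveq : ∀ c : A, ∀ y ∈ X, av ((y : MulAut A) c) = (y : MulAut A) (av c) := by
    intro c y hy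
    show (∏ x : X, _) = y (∏ x : X, _)
    rw [map_prod]
    refine Fintype.prod_equiv (Equiv.mulRight (⟨y, hy⟩ : X)) _ _ ?_
    intro x
    show (x : MulAut A)⁻¹ (π ((x : MulAut A) (y c))) =
      y (((x : MulAut A) * y)⁻¹ (π (((x : MulAut A) * y) c)))
    rw [mul_inv_rev]
    show (x : MulAut A)⁻¹ (π ((x : MulAut A) (y c))) =
      y (y⁻¹ ((x : MulAut A)⁻¹ (π ((x : MulAut A) (y c)))))
    exact (MulAut.apply_inv_self _ y _).symm
  let tav : A → A := fun c => (av c) ^ m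
  have htT : ∀ c ∈ C, tav c ∈ T := fun c hc => pow_mem (havT c hc) m
  have htmul : ∀ c ∈ C, ∀ d ∈ C, tav (c * d) = tav c * tav d := by
    intro c hc d hd
    show (av (c * d)) ^ m = (av c) ^ m * (av d) ^ m
    rw [havmul c hc d hd, mul_pow]
  have htid : ∀ t ∈ T, tav t = t := by
    intro t ht
    show (av t) ^ m = t
    rw [havid t ht, ← pow_mul]
    have h1 : t ^ (N * m) = t ^ ((N * m) % p) :=
      pow_eq_pow_mod _ (hTp t ht)
    rw [h1, hm, pow_one]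
  have hteq : ∀ c : A, ∀ y ∈ X, tav ((y : MulAut A) c) = (y : MulAut A) (tav c) := by
    intro c y hy
    show (av (y c)) ^ m = y ((av c) ^ m)
    rw [haveq c y hy, map_pow]
  have ht1 : tav 1 = 1 := htid 1 (one_mem _)
  let R : Subgroup A :=
    { carrier := {c | c ∈ C ∧ tav c = 1}
      mul_mem' := by
        rintro a b ⟨ha, ha1⟩ ⟨hb, hb1⟩
        exact ⟨mul_mem ha hb, by rw [htmul a ha b hb, ha1, hb1, mul_one]⟩
      one_mem' := ⟨one_mem _, ht1⟩
      inv_mem' := by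
        rintro a ⟨ha, ha1⟩
        refine ⟨inv_mem ha, ?_⟩
        have h1 := htmul a ha a⁻¹ (inv_mem ha)
        rw [mul_inv_cancel, ht1, ha1, one_mul] at h1
        exact h1.symm }
  have hRC : R ≤ C := fun c hc => hc.1
  refine ⟨R, ?_, hRC, ?_, ?_⟩
  · rintro y hy c ⟨hc, hc1⟩
    refine ⟨hC y hy c hc, ?_⟩
    rw [hteq c y hy, hc1, map_one]
  · rw [eq_bot_iff]
    intro t ht
    obtain ⟨ht1', ht2⟩ := Subgroup.mem_inf.mp ht
    have h2 : tav t = 1 := ht2.2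
    rw [htid t ht1'] at h2
    exact Subgroup.mem_bot.mpr h2
  · apply le_antisymm (sup_le hTC hRC)
    intro c hc
    have h1 : (tav c)⁻¹ * c ∈ R := by
      refine ⟨mul_mem (inv_mem (hTC (htT c hc))) hc, ?_⟩
      rw [htmul _ (inv_mem (hTC (htT c hc))) c hc, htid _ (inv_mem (htT c hc)), inv_mul_cancel]
    have h2 : c = tav c * ((tav c)⁻¹ * c) := by group
    rw [h2]
    exact mul_mem (Subgroup.mem_sup_left (htT c hc)) (Subgroup.mem_sup_right h1)

section Main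

/-- Indecomposability of `D`. -/
def P1 (X : Subgroup (MulAut A)) (D : Subgroup A) : Prop :=
  ∀ B₁ B₂ : Subgroup A, Inv X B₁ → Inv X B₂ → B₁ ⊓ B₂ = ⊥ → B₁ ⊔ B₂ = D → B₁ = ⊥ ∨ B₂ = ⊥

/-- Irreducibility of the elements of order `p` of `D`. -/
def P3 (X : Subgroup (MulAut A)) (p : ℕ) (D : Subgroup A) : Prop :=
  ∀ B : Subgroup A, B ≤ D → Inv X B → (∀ b ∈ B, b ^ p = 1) → B = ⊥ ∨ ∀ a ∈ D, a ^ p = 1 → a ∈ B

/-- Invariant subgroups of `D` are the `Ω_i`. -/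
def P2 (X : Subgroup (MulAut A)) (p : ℕ) (D : Subgroup A) : Prop :=
  ∀ B : Subgroup A, B ≤ D → Inv X B → ∃ i : ℕ, ∀ a ∈ D, a ∈ B ↔ a ^ p ^ i = 1

theorem powS_le (D : Subgroup A) : powS p D ≤ D := by
  rintro _ ⟨d, hd, rfl⟩
  exact pow_mem hd p

/-- A nontrivial subgroup of an abelian `p`-group contains an element of order `p`. -/
theorem exists_order_p (hA : IsPGroup p A) {B : Subgroup A} (hB : B ≠ ⊥) : ∃ b ∈ B, b ≠ 1 ∧ b ^ p = 1 := by
  have hBp : IsPGroup p B := hA.to_subgroup B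
  obtain ⟨k, hk⟩ := IsPGroup.iff_card.mp hBp
  have hk0 : k ≠ 0 := by
    rintro rfl
    exact hB (Subgroup.eq_bot_of_card_eq B (by simpa using hk))
  have hd : p ∣ Nat.card B := by
    rw [hk]; exact dvd_pow_self p hk0
  obtain ⟨b, hb⟩ := exists_prime_orderOf_dvd_card' p hd
  have hp : p.Prime := Fact.out
  refine ⟨b, b.2, ?_, ?_⟩
  · intro e
    have h1 : b = 1 := Subtype.ext e
    rw [h1, orderOf_one] at hb
    exact hp.one_lt.ne hb
  · have := pow_orderOf_eq_one (b : A)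
    rwa [Subgroup.orderOf_coe, hb] at this

/-- The `p`-th powers of a nontrivial subgroup are strictly smaller. -/
theorem card_powS_lt (hA : IsPGroup p A) {D : Subgroup A} (hD : D ≠ ⊥) :
    Nat.card (powS p D) < Nat.card D := by
  have h1 := Subgroup.card_le_of_le (powS_le (p := p) D)
  refine lt_of_le_of_ne h1 (fun e => ?_)
  have heq : powS p D = D := Subgroup.eq_of_le_of_card_ge (powS_le D) e.ge
  obtain ⟨b, hb, hb1, hbp⟩ := exists_order_p hA hD
  -- the power map on `D` is surjective hence injective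
  have hsurj : Function.Surjective (fun d : D => (⟨d ^ p, pow_mem d.2 p⟩ : D)) := by
    rintro ⟨d, hd⟩
    have hd' : d ∈ powS p D := by rw [heq]; exact hd
    obtain ⟨c, hc, e'⟩ := hd'
    exact ⟨⟨c, hc⟩, Subtype.ext e'⟩
  have hinj := Finite.injective_iff_surjective.mpr hsurj
  have h3 : (⟨b, hb⟩ : D) = 1 := by
    apply hinj
    apply Subtype.ext
    show b ^ p = (1 : A) ^ p
    rw [hbp, one_pow]
  exact hb1 (congrArg Subtype.val h3)

theorem P1_powS (hA : IsPGroup p A) (hX : (Nat.card X).Coprime p) {D : Subgroup A} (hD : Inv X D) (h1 : P1 X D)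
    (hVle : ∀ a ∈ D, a ^ p = 1 → a ∈ powS p D) : P1 X (powS p D) := by
  intro B₁ B₂ hB₁ hB₂ hinf hsup
  have hB₁le : B₁ ≤ powS p D := hsup ▸ le_sup_left
  have hB₂le : B₂ ≤ powS p D := hsup ▸ le_sup_right
  have hDp := powS_le (p := p) D
  -- the decomposition of elements of order `p`
  have hsplit : ∀ a ∈ D, a ^ p = 1 → ∃ b₁ ∈ B₁, ∃ b₂ ∈ B₂, b₁ * b₂ = a ∧ b₁ ^ p = 1 ∧ b₂ ^ p = 1 := by
    intro a ha hap
    have h2 : a ∈ B₁ ⊔ B₂ := by rw [hsup]; exact hVle a ha hap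
    obtain ⟨b₁, hb₁, b₂, hb₂, e⟩ := Subgroup.mem_sup.mp h2
    have h3 : b₁ ^ p * b₂ ^ p = 1 := by rw [← mul_pow, e, hap]
    have h4 : b₁ ^ p ∈ B₁ ⊓ B₂ := by
      refine Subgroup.mem_inf.mpr ⟨pow_mem hb₁ p, ?_⟩
      have : b₁ ^ p = (b₂ ^ p)⁻¹ := eq_inv_of_mul_eq_one_left h3
      rw [this]; exact inv_mem (pow_mem hb₂ p)
    rw [hinf, Subgroup.mem_bot] at h4
    refine ⟨b₁, hb₁, b₂, hb₂, e, h4, ?_⟩
    rw [h4, one_mul] at h3
    exact h3
  -- a construction used twice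
  have key : ∀ B B' : Subgroup A, Inv X B → Inv X B' → B ⊓ B' = ⊥ → B ≤ powS p D → B' ≤ powS p D →
      ∃ E : Subgroup A, Inv X E ∧ E ≤ D ∧ B ≤ E ∧ (∀ b ∈ B, ∃ e ∈ E, e ^ p = b) ∧
        (∀ y ∈ E, y ^ p = 1 → y ∈ B' → y = 1) := by
    intro B B' hB hB' hBB' hBle hB'le
    let C₁ : Subgroup A := D ⊓ B.comap (powMonoidHom p)
    have hC₁ : Inv X C₁ := by
      refine Inv.inf hD ?_
      intro x hx a ha
      show (x a) ^ p ∈ B
      rw [← map_pow]
      exact hB x hx _ ha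
    have hT₂inv : Inv X (om p B') := Inv.om hB'
    have hT₂C : om p B' ≤ C₁ := by
      intro t ht
      rw [mem_om] at ht
      refine Subgroup.mem_inf.mpr ⟨hDp (hB'le ht.1), ?_⟩
      show t ^ p ∈ B
      rw [ht.2]; exact one_mem _
    have hpure : ∀ c ∈ C₁, c ^ p ∈ om p B' → c ^ p = 1 := by
      intro c hc hc2
      rw [mem_om] at hc2
      have h2 : c ^ p ∈ B ⊓ B' := Subgroup.mem_inf.mpr ⟨(Subgroup.mem_inf.mp hc).2, hc2.1⟩
      rw [hBB', Subgroup.mem_bot] at h2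
      exact h2
    obtain ⟨E, hE, hEC, hEinf, hEsup⟩ := exists_inv_complement hX hT₂inv hC₁ hT₂C
      (fun t ht => (mem_om.mp ht).2) hpure
    have hpow : ∀ b ∈ B, ∃ e ∈ E, e ^ p = b := by
      intro b hb
      obtain ⟨d, hd, e'⟩ := hBle hb
      have e'' : d ^ p = b := e'
      have hdC : d ∈ C₁ := Subgroup.mem_inf.mpr ⟨hd, by show d ^ p ∈ B; rw [e'']; exact hb⟩
      rw [← hEsup] at hdC
      obtain ⟨t, ht, e, he, e2⟩ := Subgroup.mem_sup.mp hdC
      refine ⟨e, he, ?_⟩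
      rw [← e'', ← e2, mul_pow, (mem_om.mp ht).2, one_mul]
    refine ⟨E, hE, fun y hy => (Subgroup.mem_inf.mp (hEC hy)).1, ?_, hpow, ?_⟩
    · intro b hb
      obtain ⟨e, he, e2⟩ := hpow b hb
      rw [← e2]; exact pow_mem he p
    · intro y hy hyp hyB'
      have h2 : y ∈ om p B' ⊓ E := Subgroup.mem_inf.mpr ⟨mem_om.mpr ⟨hyB', hyp⟩, hy⟩
      rw [hEinf, Subgroup.mem_bot] at h2
      exact h2
  obtain ⟨D₁, hD₁, hD₁le, hB₁D₁, hpow₁, hno₁⟩ := key B₁ B₂ hB₁ hB₂ hinf hB₁le hB₂le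
  obtain ⟨D₂, hD₂, hD₂le, hB₂D₂, hpow₂, hno₂⟩ := key B₂ B₁ hB₂ hB₁ (by rwa [inf_comm]) hB₂le hB₁le
  -- elements of order `p` of `D₁` lie in `B₁`
  have hom₁ : ∀ y ∈ D₁, y ^ p = 1 → y ∈ B₁ := by
    intro y hy hyp
    obtain ⟨b₁, hb₁, b₂, hb₂, e, hb₁p, hb₂p⟩ := hsplit y (hD₁le hy) hyp
    have hb₂D : b₂ ∈ D₁ := by
      have : b₂ = b₁⁻¹ * y := by rw [← e]; group
      rw [this]; exact mul_mem (inv_mem (hB₁D₁ hb₁)) hy
    have h2 := hno₁ b₂ hb₂D hb₂p hb₂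
    rw [← e, h2, mul_one]; exact hb₁
  have hom₂ : ∀ y ∈ D₂, y ^ p = 1 → y ∈ B₂ := by
    intro y hy hyp
    obtain ⟨b₁, hb₁, b₂, hb₂, e, hb₁p, hb₂p⟩ := hsplit y (hD₂le hy) hyp
    have hb₁D : b₁ ∈ D₂ := by
      have : b₁ = y * b₂⁻¹ := by rw [← e]; group
      rw [this]; exact mul_mem hy (inv_mem (hB₂D₂ hb₂))
    have h2 := hno₂ b₁ hb₁D hb₁p hb₁
    rw [← e, h2, one_mul]; exact hb₂
  have hinfD : D₁ ⊓ D₂ = ⊥ := by
    by_contra hne
    obtain ⟨y, hy, hy1, hyp⟩ := exists_order_p hA hne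
    obtain ⟨hy₁, hy₂⟩ := Subgroup.mem_inf.mp hy
    have h2 : y ∈ B₁ ⊓ B₂ := Subgroup.mem_inf.mpr ⟨hom₁ y hy₁ hyp, hom₂ y hy₂ hyp⟩
    rw [hinf, Subgroup.mem_bot] at h2
    exact hy1 h2
  have hsupD : D₁ ⊔ D₂ = D := by
    apply le_antisymm (sup_le hD₁le hD₂le)
    intro a ha
    have h2 : a ^ p ∈ B₁ ⊔ B₂ := by rw [hsup]; exact ⟨a, ha, rfl⟩
    obtain ⟨b₁, hb₁, b₂, hb₂, e⟩ := Subgroup.mem_sup.mp h2
    obtain ⟨d₁, hd₁, e₁⟩ := hpow₁ b₁ hb₁
    obtain ⟨d₂, hd₂, e₂⟩ := hpow₂ b₂ hb₂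
    have hw : (a * (d₁ * d₂)⁻¹) ^ p = 1 := by
      rw [mul_pow, inv_pow, mul_pow, e₁, e₂, e, mul_inv_cancel]
    have hwD : a * (d₁ * d₂)⁻¹ ∈ D :=
      mul_mem ha (inv_mem (mul_mem (hD₁le hd₁) (hD₂le hd₂)))
    obtain ⟨w₁, hw₁, w₂, hw₂, ew, -, -⟩ := hsplit _ hwD hw
    have hae : a = (a * (d₁ * d₂)⁻¹) * (d₁ * d₂) := by group
    rw [hae, ← ew]
    exact mul_mem (mul_mem (Subgroup.mem_sup_left (hB₁D₁ hw₁)) (Subgroup.mem_sup_right (hB₂D₂ hw₂)))
      (mul_mem (Subgroup.mem_sup_left hd₁) (Subgroup.mem_sup_right hd₂))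
  rcases h1 D₁ D₂ hD₁ hD₂ hinfD hsupD with h3 | h3
  · left
    rw [eq_bot_iff, ← h3]; exact hB₁D₁
  · right
    rw [eq_bot_iff, ← h3]; exact hB₂D₂

/-- Indecomposable implies irreducible on the elements of order `p`. -/
theorem P3_of_P1 (hA : IsPGroup p A) (hX : (Nat.card X).Coprime p) :
    ∀ (n : ℕ) (D : Subgroup A), Nat.card D = n → Inv X D → P1 X D → P3 X p D := by
  intro n
  induction n using Nat.strong_induction_on with
  | _ n ih =>
  intro D hn hD h1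
  have hDp := powS_le (p := p) D
  have hW : Inv X (om p D ⊓ powS p D) := Inv.inf (Inv.om hD) (Inv.powS hD)
  obtain ⟨T₀, hT₀, hT₀le, hT₀inf, hT₀sup⟩ := exists_inv_complement hX hW (Inv.om hD)
    (inf_le_left) (fun t ht => (mem_om.mp (Subgroup.mem_inf.mp ht).1).2)
    (fun c hc _ => (mem_om.mp hc).2)
  have hT₀D : T₀ ≤ D := fun t ht => (mem_om.mp (hT₀le ht)).1
  have hT₀p : ∀ t ∈ T₀, t ^ p = 1 := fun t ht => (mem_om.mp (hT₀le ht)).2
  obtain ⟨D', hD', hD'le, hD'inf, hD'sup⟩ := exists_inv_complement hX hT₀ hD hT₀D hT₀p (by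
    intro c hc hc2
    have h2 : c ^ p ∈ (om p D ⊓ powS p D) ⊓ T₀ :=
      Subgroup.mem_inf.mpr ⟨Subgroup.mem_inf.mpr ⟨hT₀le hc2, ⟨c, hc, rfl⟩⟩, hc2⟩
    rw [hT₀inf, Subgroup.mem_bot] at h2
    exact h2)
  rcases h1 T₀ D' hT₀ hD' hD'inf hD'sup with h2 | h2
  · -- no pure part: the elements of order `p` are `p`-th powers
    have hVle : ∀ a ∈ D, a ^ p = 1 → a ∈ powS p D := by
      intro a ha hap
      have h3 : a ∈ om p D := mem_om.mpr ⟨ha, hap⟩
      rw [← hT₀sup, h2, sup_bot_eq] at h3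
      exact (Subgroup.mem_inf.mp h3).2
    by_cases hbot : D = ⊥
    · intro B hB _ _
      left
      rw [eq_bot_iff, ← hbot]; exact hB
    · have hlt := card_powS_lt (p := p) hA hbot
      have hP3 := ih _ (hn ▸ hlt) (powS p D) rfl (Inv.powS hD) (P1_powS hA hX hD h1 hVle)
      intro B hB hBinv hBp
      have hBle : B ≤ powS p D := fun b hb => hVle b (hB hb) (hBp b hb)
      rcases hP3 B hBle hBinv hBp with h3 | h3
      · exact Or.inl h3
      · exact Or.inr (fun a ha hap => h3 a (hVle a ha hap) hap)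
  · -- `D` is elementary abelian
    have hTD : T₀ = D := by rw [← hD'sup, h2, sup_bot_eq]
    intro B hB hBinv hBp
    obtain ⟨R, hR, hRle, hRinf, hRsup⟩ := exists_inv_complement hX hBinv hD hB hBp (by
      intro c hc _
      rw [← hTD] at hc
      exact hT₀p c hc)
    rcases h1 B R hBinv hR hRinf hRsup with h3 | h3
    · exact Or.inl h3
    · right
      rw [h3, sup_bot_eq] at hRsup
      intro a ha _
      rw [hRsup]; exact ha

/-- Irreducibility on the elements of order `p` forces all invariant subgroups to be `Ω_i`. -/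
theorem P2_of_P3 (hA : IsPGroup p A) :
    ∀ (n : ℕ) (D : Subgroup A), Nat.card D = n → Inv X D → P3 X p D → P2 X p D := by
  intro n
  induction n using Nat.strong_induction_on with
  | _ n ih =>
  intro D hn hD h3 B hB hBinv
  by_cases hBbot : B = ⊥
  · refine ⟨0, fun a _ => ?_⟩
    rw [hBbot, Subgroup.mem_bot, pow_zero, pow_one]
  -- elements of order `p` lie in `B`
  have hVB : ∀ a ∈ D, a ^ p = 1 → a ∈ B := by
    obtain ⟨b, hb, hb1, hbp⟩ := exists_order_p hA hBbot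
    rcases h3 (om p B) (fun t ht => hB (mem_om.mp ht).1) (Inv.om hBinv) (fun t ht => (mem_om.mp ht).2) with h4 | h4
    · exfalso
      have : b ∈ om p B := mem_om.mpr ⟨hb, hbp⟩
      rw [h4, Subgroup.mem_bot] at this
      exact hb1 this
    · intro a ha hap
      exact (mem_om.mp (h4 a ha hap)).1
  by_cases hDp : powS p D = ⊥
  · refine ⟨1, fun a ha => ?_⟩
    have hap : a ^ p = 1 := by
      have : a ^ p ∈ powS p D := ⟨a, ha, rfl⟩
      rw [hDp, Subgroup.mem_bot] at this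
      exact this
    rw [pow_one]
    exact ⟨fun _ => hap, fun _ => hVB a ha hap⟩
  have hDbot : D ≠ ⊥ := by
    rintro rfl
    apply hDp
    rw [eq_bot_iff]
    exact powS_le _
  have hVle : ∀ a ∈ D, a ^ p = 1 → a ∈ powS p D := by
    obtain ⟨b, hb, hb1, hbp⟩ := exists_order_p hA hDp
    have hbD := powS_le (p := p) D hb
    rcases h3 (om p (powS p D)) (fun t ht => powS_le D (mem_om.mp ht).1) (Inv.om (Inv.powS hD))
      (fun t ht => (mem_om.mp ht).2) with h4 | h4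
    · exfalso
      have : b ∈ om p (powS p D) := mem_om.mpr ⟨hb, hbp⟩
      rw [h4, Subgroup.mem_bot] at this
      exact hb1 this
    · intro a ha hap
      exact (mem_om.mp (h4 a ha hap)).1
  have hP3' : P3 X p (powS p D) := by
    intro B' hB' hB'inv hB'p
    rcases h3 B' (hB'.trans (powS_le D)) hB'inv hB'p with h4 | h4
    · exact Or.inl h4
    · exact Or.inr (fun a ha hap => h4 a (powS_le D ha) hap)
  have hlt := card_powS_lt (p := p) hA hDbot
  obtain ⟨i, hi⟩ := ih _ (hn ▸ hlt) (powS p D) rfl (Inv.powS hD) hP3' (powS p B)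
    (by
      rintro _ ⟨b, hb, rfl⟩
      exact ⟨b, hB hb, rfl⟩) (Inv.powS hBinv)
  refine ⟨i + 1, fun a ha => ?_⟩
  have hapD : a ^ p ∈ powS p D := ⟨a, ha, rfl⟩
  have e : a ^ p ^ (i + 1) = (a ^ p) ^ p ^ i := by
    rw [← pow_mul, pow_succ']
  rw [e, ← hi _ hapD]
  constructor
  · intro haB
    exact ⟨a, haB, rfl⟩
  · rintro ⟨b, hb, e2⟩
    have e3 : b ^ p = a ^ p := e2
    have h5 : (a * b⁻¹) ^ p = 1 := by rw [mul_pow, inv_pow, e3, mul_inv_cancel]
    have h6 := hVB _ (mul_mem ha (inv_mem (hB hb))) h5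
    have h7 : a = (a * b⁻¹) * b := by group
    rw [h7]
    exact mul_mem h6 hb

theorem inv_top : Inv X (⊤ : Subgroup A) := fun _ _ _ _ => trivial

end Main

end Cfsg.Agent.Lib.PGroup.AbAut
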