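import Mathlib
import Cfsg.Agent.Lib.PGroup.Bender
import Cfsg.Agent.Lib.Geo.PrimSolvable
import Cfsg.Agent.Lib.PGroup.NilCover
import Cfsg.Agent.Lib.PGroup.Sylow

/-!
# The Fitting subgroup and chief factors
-/

set_option autoImplicit false

namespace Cfsg.Agent.Lib.PGroup.ChiefFit

open Cfsg Subgroup
open Cfsg.Agent.Lib.Core Cfsg.Agent.Lib.PGroup.Bender
open scoped commutatorElement

universe u

variable {G : Type u} [Group G] [Finite G]

/-- Chief factors. -/
def Chief (U V : Subgroup G) : Prop :=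
  U.Normal ∧ V.Normal ∧ V < U ∧ ∀ W : Subgroup G, W.Normal → V ≤ W → W ≤ U → W = V ∨ W = U

/-- A normal nilpotent subgroup centralizes chief factors. -/
theorem nilpotent_centralizes {R U V : Subgroup G} [hR : R.Normal] [hnil : Group.IsNilpotent R]
    (hc : Chief U V) {g u : G} (hg : g ∈ R) (hu : u ∈ U) : u * g * u⁻¹ * g⁻¹ ∈ V := by
  obtain ⟨hU, hV, hlt, hW⟩ := hc
  haveI := hU
  haveI := hV
  let π : G →* G ⧸ V := QuotientGroup.mk' V
  have hπ : Function.Surjective π := QuotientGroup.mk'_surjective V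
  have hker : π.ker = V := QuotientGroup.ker_mk' V
  let Rb : Subgroup (G ⧸ V) := R.map π
  let Ub : Subgroup (G ⧸ V) := U.map π
  haveI hRb : Rb.Normal := hR.map π hπ
  haveI hUb : Ub.Normal := hU.map π hπ
  haveI hCb : (centralizer (Rb : Set (G ⧸ V))).Normal := Subgroup.normal_centralizer
  haveI hnilb : Group.IsNilpotent Rb :=
    nilpotent_of_surjective (π.subgroupMap R) (π.subgroupMap_surjective R)
  let W : Subgroup G := (Ub ⊓ centralizer (Rb : Set (G ⧸ V))).comap π
  haveI hWn : W.Normal := (Subgroup.normal_inf_normal _ _).comap π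
  have hVW : V ≤ W := by
    intro x hx
    have h1 : π x = 1 := by
      rw [← MonoidHom.mem_ker, hker]
      exact hx
    show π x ∈ Ub ⊓ centralizer (Rb : Set (G ⧸ V))
    rw [h1]
    exact one_mem _
  have hWU : W ≤ U := by
    intro x hx
    have h1 : π x ∈ Ub := (Subgroup.mem_inf.mp hx).1
    obtain ⟨y, hy, hxy⟩ := h1
    have h2 : y⁻¹ * x ∈ V := by
      rw [← hker, MonoidHom.mem_ker, map_mul, map_inv, hxy, inv_mul_cancel]
    have h3 : x = y * (y⁻¹ * x) := by group
    rw [h3]
    exact mul_mem hy (hlt.le h2)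
  have hgoal : ∀ x ∈ W, x * g * x⁻¹ * g⁻¹ ∈ V := by
    intro x hx
    have h1 : π x ∈ centralizer (Rb : Set (G ⧸ V)) := (Subgroup.mem_inf.mp hx).2
    have h2 := mem_centralizer_iff.mp h1 (π g) ⟨g, hg, rfl⟩
    rw [← hker, MonoidHom.mem_ker, map_mul, map_mul, map_mul, map_inv, map_inv, ← h2]
    group
  rcases hW W hWn hVW hWU with hWV | hWU'
  · -- the intersection with the centralizer is trivial
    exfalso
    have hbot : Ub ⊓ centralizer (Rb : Set (G ⧸ V)) = ⊥ := by
      rw [eq_bot_iff]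
      intro y hy
      obtain ⟨x, rfl⟩ := hπ y
      have h1 : x ∈ W := hy
      rw [hWV, ← hker, MonoidHom.mem_ker] at h1
      rw [h1]
      exact one_mem _
    have hUR : Ub ⊓ Rb = ⊥ := by
      by_contra hne
      let K : Subgroup Rb := (Ub ⊓ Rb).subgroupOf Rb
      haveI : K.Normal := Subgroup.Normal.subgroupOf (Subgroup.normal_inf_normal _ _) Rb
      have hK : K ≠ ⊥ := by
        intro h0
        apply hne
        rw [eq_bot_iff]
        intro y hy
        have h1 : (⟨y, (Subgroup.mem_inf.mp hy).2⟩ : Rb) ∈ K := hy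
        rw [h0, Subgroup.mem_bot] at h1
        exact congrArg Subtype.val h1
      have h3 := normal_inf_center_ne_bot K hK
      obtain ⟨⟨z, hzR⟩, hz1⟩ := Subgroup.ne_bot_iff_exists_ne_one.mp h3
      apply hz1
      obtain ⟨hz2, hz3⟩ := Subgroup.mem_inf.mp hzR
      have h4 : (z : G ⧸ V) ∈ Ub ⊓ centralizer (Rb : Set (G ⧸ V)) := by
        refine Subgroup.mem_inf.mpr ⟨(Subgroup.mem_inf.mp hz2).1, ?_⟩
        rw [mem_centralizer_iff]
        intro r hr
        exact congrArg Subtype.val ((Subgroup.mem_center_iff.mp hz3) ⟨r, hr⟩)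
      rw [hbot, Subgroup.mem_bot] at h4
      exact Subtype.ext (Subtype.ext h4)
    have hcomm : Ub ≤ centralizer (Rb : Set (G ⧸ V)) := by
      intro x hx
      rw [mem_centralizer_iff]
      intro r hr
      have h1 : ⁅x, r⁆ ∈ Ub ⊓ Rb := by
        refine Subgroup.mem_inf.mpr ⟨?_, ?_⟩
        · have e : ⁅x, r⁆ = x * (r * x⁻¹ * r⁻¹) := by
            rw [commutatorElement_def]
            group
          rw [e]
          exact mul_mem hx (hUb.conj_mem _ (inv_mem hx) r)
        · rw [commutatorElement_def]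
          exact mul_mem (hRb.conj_mem _ hr x) (inv_mem hr)
      rw [hUR, Subgroup.mem_bot, commutatorElement_eq_one_iff_mul_comm] at h1
      exact h1.symm
    have hUbot : Ub = ⊥ := by
      rw [← inf_eq_left.mpr hcomm]
      exact hbot
    apply hlt.not_ge
    intro x hx
    have h1 : π x ∈ Ub := ⟨x, hx, rfl⟩
    rw [hUbot, Subgroup.mem_bot, ← MonoidHom.mem_ker, hker] at h1
    exact h1
  · exact hgoal u (hWU' ▸ hu)

/-- A maximal proper normal subgroup inside a normal subgroup. -/
theorem exists_chief_below {T : Subgroup G} (hT : T.Normal) (hne : T ≠ ⊥) :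
    ∃ V : Subgroup G, Chief T V := by
  classical
  let S : Set (Subgroup G) := {V | V.Normal ∧ V < T}
  have hS : S.Nonempty := ⟨⊥, Subgroup.normal_bot, bot_lt_iff_ne_bot.mpr hne⟩
  obtain ⟨V, hV, hmax⟩ := Set.exists_max_image S (fun V => Nat.card V) (Set.toFinite _) hS
  refine ⟨V, hT, hV.1, hV.2, ?_⟩
  intro W hWn hVW hWT
  rcases lt_or_eq_of_le hWT with hlt | he
  · left
    have h1 := hmax W ⟨hWn, hlt⟩
    exact (Subgroup.eq_of_le_of_card_ge hVW h1).symm
  · exact Or.inr he

/-- The key coprimality lemma. -/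
theorem coprime_centralizes {R : Subgroup G} {x : G}
    (hx : ∀ U V : Subgroup G, Chief U V → U ≤ R → ∀ u ∈ U, u * x * u⁻¹ * x⁻¹ ∈ V)
    (T : Subgroup G) (hT : T.Normal) (hTR : T ≤ R) (hc : (orderOf x).Coprime (Nat.card T)) :
    ∀ t ∈ T, x * t = t * x := by
  induction hn : Nat.card T using Nat.strong_induction_on generalizing T with
  | _ n ih =>
    by_cases hbot : T = ⊥
    · subst hbot
      intro t ht
      rw [Subgroup.mem_bot.mp ht, one_mul, mul_one]
    obtain ⟨V, hchief⟩ := exists_chief_below hT hbot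
    have hlt : V < T := hchief.2.2.1
    have hVc : ∀ v ∈ V, x * v = v * x := by
      refine ih (Nat.card V) ?_ V hchief.2.1 (hlt.le.trans hTR) ?_ rfl
      · rw [← hn]
        exact Cfsg.Agent.Lib.PGroup.card_lt_card_of_lt hlt
      · exact hc.coprime_dvd_right (Subgroup.card_dvd_of_le hlt.le)
    intro t ht
    have h1 := hx T V hchief hTR t⁻¹ (inv_mem ht)
    set v := t⁻¹ * x * t⁻¹⁻¹ * x⁻¹ with hv
    have hxt : x * t * x⁻¹ = t * v := by
      rw [hv]
      group
    have hv' : v ∈ V := h1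
    have hpow : ∀ k : ℕ, x ^ k * t * (x ^ k)⁻¹ = t * v ^ k := by
      intro k
      induction k with
      | zero => simp
      | succ k ihk =>
        have hcv : x ^ k * v * (x ^ k)⁻¹ = v := by
          have h2 : ∀ k : ℕ, x ^ k * v = v * x ^ k := by
            intro k
            exact ((show Commute x v from hVc _ hv').pow_left k).eq
          rw [h2]
          group
        calc x ^ (k + 1) * t * (x ^ (k + 1))⁻¹ = x ^ k * (x * t * x⁻¹) * (x ^ k)⁻¹ := by
              rw [pow_succ]
              group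
          _ = x ^ k * (t * v) * (x ^ k)⁻¹ := by rw [hxt]
          _ = (x ^ k * t * (x ^ k)⁻¹) * (x ^ k * v * (x ^ k)⁻¹) := by group
          _ = t * v ^ (k + 1) := by rw [ihk, hcv, pow_succ, mul_assoc]
    have h2 := hpow (orderOf x)
    rw [pow_orderOf_eq_one] at h2
    have h3 : v ^ orderOf x = 1 := by
      have : t = t * v ^ orderOf x := by
        rw [← h2]
        group
      exact (mul_eq_left.mp this.symm)
    have h4 : orderOf v ∣ orderOf x := orderOf_dvd_of_pow_eq_one h3
    have h5 : orderOf v ∣ Nat.card T := by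
      have : orderOf (⟨v, hlt.le hv'⟩ : T) = orderOf v := Subgroup.orderOf_mk _ _
      rw [← this]
      exact orderOf_dvd_natCard _
    have h6 : orderOf v = 1 := Nat.Coprime.eq_one_of_dvd (hc.coprime_dvd_left h4) h5
    have h7 : v = 1 := orderOf_eq_one_iff.mp h6
    rw [h7, mul_one] at hxt
    calc x * t = x * t * x⁻¹ * x := by group
      _ = t * x := by rw [hxt]

omit [Finite G] in
theorem isNilpotent_of_commute_aux [Finite G]
    (h : ∀ (q : ℕ) [Fact q.Prime] (a y : G), (∃ k, orderOf a = q ^ k) → (orderOf y).Coprime q →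
      y * a = a * y) : Group.IsNilpotent G := by
  refine (Group.isNilpotent_of_finite_tfae (G := G)).out 3 0 |>.mp ?_
  intro q hq S
  rw [← Subgroup.normalizer_eq_top_iff, ← Subgroup.index_eq_one]
  by_contra hne
  obtain ⟨r, hr, hrd⟩ := Nat.exists_prime_and_dvd hne
  haveI : Fact r.Prime := ⟨hr⟩
  have hS : (S : Subgroup G) ≤ normalizer ((S : Subgroup G) : Set G) :=
    Subgroup.le_normalizer
  have hrq : r ≠ q := by
    rintro rfl
    exact S.not_dvd_index (hrd.trans (Subgroup.index_dvd_of_le hS))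
  obtain ⟨Sr⟩ : Nonempty (Sylow r G) := inferInstance
  have hle : (Sr : Subgroup G) ≤ normalizer ((S : Subgroup G) : Set G) := by
    intro y hy
    have hyo : (orderOf y).Coprime q := by
      obtain ⟨k, hk⟩ := IsPGroup.iff_card.mp (Sr.isPGroup'.to_le (zpowers_le.mpr hy))
      rw [← Nat.card_zpowers, hk]
      exact Nat.Coprime.pow_left k ((Nat.coprime_primes hr hq.out).mpr hrq)
    refine Cfsg.Agent.Lib.PGroup.NilCover.centralizer_le_normalizer' _ ?_
    rw [mem_centralizer_iff]
    intro a ha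
    have hak : ∃ k, orderOf a = q ^ k := by
      obtain ⟨k, hk⟩ := IsPGroup.iff_card.mp (S.isPGroup'.to_le (zpowers_le.mpr ha))
      exact ⟨k, by rw [← Nat.card_zpowers, hk]⟩
    exact (h q a y hak hyo).symm
  exact Sr.not_dvd_index (hrd.trans (Subgroup.index_dvd_of_le hle))

/-- The theorem. -/
theorem main (hG : Group.IsSolvable G) (N : Subgroup G) [hN : N.Normal] (g : G) :
    (g ∈ (fittingSubgroup N).map N.subtype ↔ g ∈ N ∧ ∀ U V : Subgroup G, Chief U V →
      ∀ u ∈ U, u * g * u⁻¹ * g⁻¹ ∈ V) ∧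
    (g ∈ (fittingSubgroup N).map N.subtype ↔ g ∈ N ∧ ∀ U V : Subgroup G, Chief U V →
      U ≤ (fittingSubgroup N).map N.subtype → ∀ u ∈ U, u * g * u⁻¹ * g⁻¹ ∈ V) := by
  classical
  set R : Subgroup G := (fittingSubgroup N).map N.subtype with hRdef
  haveI hRn : R.Normal := Cfsg.Agent.Lib.PGroup.map_subtype_normal_of_characteristic N _
  have hRN : R ≤ N := Subgroup.map_subtype_le _
  haveI hRnil : Group.IsNilpotent R := by
    have e : fittingSubgroup N ≃* R :=
      (fittingSubgroup N).equivMapOfInjective N.subtype N.subtype_injective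
    haveI := isNilpotent_fittingSubgroup N
    exact nilpotent_of_surjective e.toMonoidHom e.surjective
  have h1 : ∀ g ∈ R, ∀ U V : Subgroup G, Chief U V → ∀ u ∈ U, u * g * u⁻¹ * g⁻¹ ∈ V :=
    fun g hg U V hc u hu => nilpotent_centralizes hc hg hu
  -- the subgroup `C`
  let C : Subgroup G :=
    { carrier := {x | x ∈ N ∧ ∀ U V : Subgroup G, Chief U V → U ≤ R → ∀ u ∈ U, u * x * u⁻¹ * x⁻¹ ∈ V}
      one_mem' := ⟨one_mem _, fun U V _ _ u _ => by
        have : u * 1 * u⁻¹ * 1⁻¹ = 1 := by group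
        rw [this]
        exact one_mem _⟩
      mul_mem' := by
        rintro a b ⟨ha, ha'⟩ ⟨hb, hb'⟩
        refine ⟨mul_mem ha hb, fun U V hc hUR u hu => ?_⟩
        have e : u * (a * b) * u⁻¹ * (a * b)⁻¹ =
            (u * a * u⁻¹ * a⁻¹) * (a * (u * b * u⁻¹ * b⁻¹) * a⁻¹) := by group
        rw [e]
        exact mul_mem (ha' U V hc hUR u hu) (hc.2.1.conj_mem _ (hb' U V hc hUR u hu) a)
      inv_mem' := by
        rintro a ⟨ha, ha'⟩
        refine ⟨inv_mem ha, fun U V hc hUR u hu => ?_⟩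
        have e : u * a⁻¹ * u⁻¹ * a⁻¹⁻¹ = a⁻¹ * (u * a * u⁻¹ * a⁻¹)⁻¹ * a⁻¹⁻¹ := by group
        rw [e]
        exact hc.2.1.conj_mem _ (inv_mem (ha' U V hc hUR u hu)) a⁻¹ }
  have hCmem : ∀ x, x ∈ C ↔ x ∈ N ∧ ∀ U V : Subgroup G, Chief U V → U ≤ R → ∀ u ∈ U,
      u * x * u⁻¹ * x⁻¹ ∈ V := fun _ => Iff.rfl
  have hCN : C ≤ N := fun x hx => hx.1
  haveI hCn : C.Normal := by
    constructor
    rintro x ⟨hxN, hx⟩ y
    refine ⟨hN.conj_mem x hxN y, fun U V hc hUR u hu => ?_⟩
    have e : u * (y * x * y⁻¹) * u⁻¹ * (y * x * y⁻¹)⁻¹ =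
        y * ((y⁻¹ * u * y) * x * (y⁻¹ * u * y)⁻¹ * x⁻¹) * y⁻¹ := by group
    rw [e]
    refine hc.2.1.conj_mem _ (hx U V hc hUR _ ?_) y
    have := hc.1.conj_mem u hu y⁻¹
    simpa using this
  haveI : Group.IsSolvable N := inferInstance
  have hc₂ : centralizer (fittingSubgroup N : Set N) ≤ fittingSubgroup N :=
    Cfsg.Agent.Lib.Geo.centralizer_fitting_le_of_solvable
  -- `C` is nilpotent
  have hcomm : ∀ (q : ℕ) [Fact q.Prime] (a y : G), a ∈ C → y ∈ C → (∃ k, orderOf a = q ^ k) →
      (orderOf y).Coprime q → y * a = a * y := by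
    intro q _ a y haC hyC hak hyo
    have hQn : (Qq q N).Normal := Cfsg.Agent.Lib.PGroup.map_subtype_normal_of_characteristic N _
    have hYn : (Yq q N).Normal := by
      haveI : (pPrimeCore q N ⊓ fittingSubgroup N).Characteristic := by
        rw [Subgroup.characteristic_iff_le_comap]
        intro f x hx
        obtain ⟨h1, h2⟩ := Subgroup.mem_inf.mp hx
        exact Subgroup.mem_inf.mpr ⟨Subgroup.characteristic_iff_le_comap.mp inferInstance f h1,
          Subgroup.characteristic_iff_le_comap.mp inferInstance f h2⟩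
      exact Cfsg.Agent.Lib.PGroup.map_subtype_normal_of_characteristic N _
    obtain ⟨k, hk⟩ := hak
    have hap : IsPGroup q (zpowers a) := by
      apply IsPGroup.of_card (n := k)
      rw [Nat.card_zpowers, hk]
    have hqg : IsPGroup q (zpowers a ⊔ Qq q N : Subgroup G) :=
      hap.to_sup_of_normal_right' (isPGroup_Qq N)
        (zpowers_le.mpr (le_normalizer_Qq N (hCN haC)))
    have haY : ∀ v ∈ Yq q N, a * v = v * a := by
      apply coprime_centralizes (R := R) haC.2 (Yq q N) hYn (Yq_le_Rq N)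
      rw [hk]
      exact Nat.Coprime.pow_left k (coprime_Yq N).symm
    have hyQ : ∀ u ∈ Qq q N, y * u = u * y := by
      apply coprime_centralizes (R := R) hyC.2 (Qq q N) hQn (Qq_le_Rq N)
      obtain ⟨l, hl⟩ := IsPGroup.iff_card.mp (isPGroup_Qq (q := q) N)
      rw [hl]
      exact Nat.Coprime.pow_right l hyo
    exact key_commute (M := N) (Q := Qq q N) (Y := Yq q N) (A := zpowers a)
      (isPGroup_Qq N) (coprime_Yq N) (le_normalizer_Qq N) (le_normalizer_Yq N)
      (fun u hu v hv => Qq_Yq_comm N hu hv) (fun z hz h3 h4 => cen hc₂ hz h3 h4)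
      (hCN haC) (hCN hyC) (mem_zpowers a) hqg haY hyQ hyo
  haveI hCnil : Group.IsNilpotent C := by
    apply isNilpotent_of_commute_aux
    intro q _ a y hak hyo
    apply Subtype.ext
    apply hcomm q (a : G) (y : G) a.2 y.2
    · simpa [Subgroup.orderOf_coe] using hak
    · simpa [Subgroup.orderOf_coe] using hyo
  have h2 : C ≤ R := by
    let C' : Subgroup N := C.subgroupOf N
    haveI : C'.Normal := Subgroup.Normal.subgroupOf hCn N
    have e : C' ≃* C := Subgroup.subgroupOfEquivOfLe hCN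
    haveI : Group.IsNilpotent C' := nilpotent_of_surjective e.symm.toMonoidHom e.symm.surjective
    have h3 : C' ≤ fittingSubgroup N := le_fittingSubgroup inferInstance inferInstance
    intro x hx
    exact ⟨⟨x, hCN hx⟩, h3 hx, rfl⟩
  constructor
  · constructor
    · intro hg
      exact ⟨hRN hg, fun U V hc u hu => h1 g hg U V hc u hu⟩
    · rintro ⟨hgN, h⟩
      exact h2 ⟨hgN, fun U V hc _ u hu => h U V hc u hu⟩
  · constructor
    · intro hg
      exact ⟨hRN hg, fun U V hc _ u hu => h1 g hg U V hc u hu⟩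
    · rintro ⟨hgN, h⟩
      exact h2 ⟨hgN, h⟩

end Cfsg.Agent.Lib.PGroup.ChiefFit
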