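import Mathlib
import Cfsg.Agent.Lib.PGroup.HHRed

/-!
# Hall--Higman in the defining characteristic

The dimension estimate of the Hall--Higman argument when the operator `x` is unipotent.
-/

namespace Cfsg.Agent.Lib.PGroup.HB

open Cfsg.Agent.Lib.PGroup.HH
open scoped BigOperators commutatorElement

universe u v w

section Nil

variable {F : Type v} [Field F]

/-- The restriction of `N` to its range. -/
noncomputable def rN {W : Type w} [AddCommGroup W] [Module F W] (N : Module.End F W) :
    Module.End F (LinearMap.range N) :=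
  N.restrict (fun u _ => LinearMap.mem_range_self N u)

theorem rN_coe {W : Type w} [AddCommGroup W] [Module F W] (N : Module.End F W)
    (u : LinearMap.range N) : ((rN N u : LinearMap.range N) : W) = N u := rfl

theorem finrank_Cx_add {W : Type w} [AddCommGroup W] [Module F W] [FiniteDimensional F W]
    (N : Module.End F W) :
    Module.finrank F (Cx (rN N)) + (Module.finrank F (LinearMap.ker N)) ^ 2 ≤
      Module.finrank F (Cx N) := by
  classical
  set U := LinearMap.range N with hU
  set K := LinearMap.ker N with hK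
  have hinv : ∀ f ∈ Cx N, ∀ u ∈ U, f u ∈ U := by
    rintro f hf _ ⟨w, rfl⟩
    have := congrArg (fun t : Module.End F W => t w) (mem_Cx.mp hf)
    exact ⟨f w, by simpa using this.symm⟩
  let res : Cx N →ₗ[F] Module.End F U :=
    { toFun := fun f => (f.1).restrict (hinv f.1 f.2)
      map_add' := by
        intro a b
        rfl
      map_smul' := by
        intro c a
        rfl }
  have hres : ∀ (f : Cx N) (u : U), ((res f u : U) : W) = f.1 u := fun _ _ => rfl
  -- the range
  have hsurj : Cx (rN N) ≤ LinearMap.range res := by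
    intro g hg
    obtain ⟨s₀, hs₀⟩ := LinearMap.exists_rightInverse_of_surjective N.rangeRestrict
      (LinearMap.range_rangeRestrict N)
    have hs₀' : ∀ u : U, N (s₀ u) = u := by
      intro u
      have := congrArg (fun t : U →ₗ[F] U => ((t u : U) : W)) hs₀
      simpa using this
    obtain ⟨π, hπ⟩ := LinearMap.exists_leftInverse_of_injective U.subtype (Submodule.ker_subtype U)
    have hπ' : ∀ u : U, π u = u := by
      intro u
      have := congrArg (fun t : U →ₗ[F] U => t u) hπ
      simpa using this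
    have hgc : ∀ u : U, g (rN N u) = rN N (g u) := by
      intro u
      have := congrArg (fun t : Module.End F U => t u) (mem_Cx.mp hg)
      simpa using this
    let f₀ : W →ₗ[F] W := s₀ ∘ₗ g ∘ₗ N.rangeRestrict
    have hf₀ : ∀ w, N (f₀ w) = (g (N.rangeRestrict w) : W) := fun w => hs₀' _
    let h : U →ₗ[F] W := f₀ ∘ₗ U.subtype - U.subtype ∘ₗ g
    have hh : ∀ u, N (h u) = 0 := by
      intro u
      have h1 : N.rangeRestrict (u : W) = rN N u := rfl
      have h2 := congrArg Subtype.val (hgc u)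
      simp only [h, LinearMap.sub_apply, LinearMap.comp_apply, Submodule.subtype_apply, map_sub]
      rw [hf₀, h1, h2, rN_coe, sub_self]
    let f : Module.End F W := f₀ - h ∘ₗ π
    have hfU : ∀ u : U, f u = g u := by
      intro u
      simp only [f, h, LinearMap.sub_apply, LinearMap.comp_apply, Submodule.subtype_apply, hπ' u]
      abel
    have hfc : f ∈ Cx N := by
      rw [mem_Cx]
      refine LinearMap.ext fun w => ?_
      simp only [Module.End.mul_apply]
      have h1 : N w ∈ U := LinearMap.mem_range_self N w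
      have h2 := hfU ⟨N w, h1⟩
      simp only at h2
      rw [h2]
      simp only [f, LinearMap.sub_apply, LinearMap.comp_apply, map_sub, hh, sub_zero]
      rw [hf₀]
      rfl
    refine ⟨⟨f, hfc⟩, ?_⟩
    refine LinearMap.ext fun u => Subtype.ext ?_
    rw [hres]
    exact hfU u
  have hkermem : ∀ e : (W ⧸ U) →ₗ[F] K, (K.subtype ∘ₗ e ∘ₗ U.mkQ) ∈ Cx N := by
    intro e
    rw [mem_Cx]
    refine LinearMap.ext fun w => ?_
    simp only [Module.End.mul_apply, LinearMap.comp_apply, Submodule.subtype_apply]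
    have h1 : U.mkQ (N w) = 0 := by
      rw [Submodule.mkQ_apply, Submodule.Quotient.mk_eq_zero]
      exact LinearMap.mem_range_self N w
    rw [h1, map_zero]
    exact ((e (U.mkQ w)).2).symm
  let Θ : ((W ⧸ U) →ₗ[F] K) →ₗ[F] LinearMap.ker res :=
    { toFun := fun e => ⟨⟨K.subtype ∘ₗ e ∘ₗ U.mkQ, hkermem e⟩, by
        rw [LinearMap.mem_ker]
        refine LinearMap.ext fun u => Subtype.ext ?_
        rw [hres]
        simp only [LinearMap.comp_apply, Submodule.subtype_apply]
        have h1 : U.mkQ (u : W) = 0 := by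
          rw [Submodule.mkQ_apply, Submodule.Quotient.mk_eq_zero]
          exact u.2
        rw [h1, map_zero]
        rfl⟩
      map_add' := by
        intro a b
        rfl
      map_smul' := by
        intro c a
        rfl }
  have hΘ : Function.Injective Θ := by
    refine (injective_iff_map_eq_zero Θ).mpr ?_
    intro e he
    refine LinearMap.ext fun a => ?_
    obtain ⟨w, rfl⟩ := Submodule.mkQ_surjective U a
    have h1 := congrArg (fun t : LinearMap.ker res => ((t : Cx N) : Module.End F W) w) he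
    exact Subtype.ext h1
  have h1 := LinearMap.finrank_le_finrank_of_injective hΘ
  rw [Module.finrank_linearMap] at h1
  have h2 := Submodule.finrank_quotient_add_finrank U
  have h3 : Module.finrank F U + Module.finrank F K = Module.finrank F W :=
    LinearMap.finrank_range_add_finrank_ker N
  have h4 : Module.finrank F (W ⧸ U) = Module.finrank F K := by omega
  rw [h4] at h1
  have h5 : Module.finrank F (LinearMap.range res) + Module.finrank F (LinearMap.ker res) =
      Module.finrank F (Cx N) := LinearMap.finrank_range_add_finrank_ker res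
  have h6 : Module.finrank F (Cx (rN N)) ≤ Module.finrank F (LinearMap.range res) :=
    Submodule.finrank_mono hsurj
  rw [sq]
  omega

theorem sq_le_nil : ∀ (s : ℕ) (W : Type w) [AddCommGroup W] [Module F W] [FiniteDimensional F W]
    (N : Module.End F W), N ^ s = 0 →
    (Module.finrank F W) ^ 2 ≤ s * Module.finrank F (Cx N) := by
  intro s
  induction s with
  | zero =>
    intro W _ _ _ N hN
    have h1 : (1 : Module.End F W) = 0 := by simpa using hN
    have h2 : Subsingleton W := by
      refine ⟨fun a b => ?_⟩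
      have ha : a = 0 := by simpa using congrArg (fun t : Module.End F W => t a) h1
      have hb : b = 0 := by simpa using congrArg (fun t : Module.End F W => t b) h1
      rw [ha, hb]
    rw [Module.finrank_zero_of_subsingleton]
    simp
  | succ s ih =>
    intro W _ _ _ N hN
    have hN' : (rN N) ^ s = 0 := by
      refine LinearMap.ext fun u => Subtype.ext ?_
      have h1 := resOp_pow (x := N) (U := LinearMap.range N)
        (fun u _ => LinearMap.mem_range_self N u) s u
      obtain ⟨w, hw⟩ := u.2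
      have h2 : (N ^ s) (u : W) = 0 := by
        rw [← hw, ← Module.End.mul_apply, ← pow_succ, hN]
        rfl
      exact h1.trans h2
    have h1 := ih (LinearMap.range N) (rN N) hN'
    have h2 := finrank_Cx_add N
    have h3 := LinearMap.finrank_range_add_finrank_ker N
    set d' := Module.finrank F (LinearMap.range N)
    set k := Module.finrank F (LinearMap.ker N)
    set c' := Module.finrank F (Cx (rN N))
    rw [← h3]
    refine le_trans ?_ (Nat.mul_le_mul_left _ h2)
    rcases Nat.eq_zero_or_pos s with rfl | hs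
    · have : d' = 0 := by
        have h5 : d' ^ 2 = 0 := by simpa using h1
        exact pow_eq_zero_iff (two_ne_zero) |>.mp h5
      rw [this]
      simp
    · apply Nat.le_of_mul_le_mul_left _ hs
      zify at h1 ⊢
      nlinarith [sq_nonneg ((d' : ℤ) - s * k)]

/-- The commutants of `x` and `x - 1` coincide. -/
theorem finrank_Cx_sub_one {W : Type w} [AddCommGroup W] [Module F W] (x : Module.End F W) :
    Cx (x - 1) = Cx x := by
  ext f
  rw [mem_Cx, mem_Cx, mul_sub, sub_mul, mul_one, one_mul]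
  constructor
  · intro h
    exact sub_left_injective h
  · intro h
    rw [h]

/-- The basic estimate for a unipotent operator. -/
theorem sq_le_unip {W : Type w} [AddCommGroup W] [Module F W] [FiniteDimensional F W]
    (x : Module.End F W) {s : ℕ} (h : (x - 1) ^ s = 0) :
    (Module.finrank F W) ^ 2 ≤ s * Module.finrank F (Cx x) := by
  have := sq_le_nil s W (x - 1) h
  rwa [finrank_Cx_sub_one] at this

end Nil

section Poly

variable {F : Type v} [Field F] {W : Type w} [AddCommGroup W] [Module F W]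

/-- The norm of the group algebra of a cyclic `p`-group in characteristic `p`. -/
theorem geom_eq_sub_pow {p : ℕ} [Fact p.Prime] [CharP F p] (m : ℕ) (x : Module.End F W) :
    ∑ i ∈ Finset.range (p ^ m), x ^ i = (x - 1) ^ (p ^ m - 1) := by
  have hp : 0 < p ^ m := pow_pos (Fact.out : p.Prime).pos m
  have hpoly : ∑ i ∈ Finset.range (p ^ m), (Polynomial.X : Polynomial F) ^ i =
      (Polynomial.X - 1) ^ (p ^ m - 1) := by
    have hne : ((Polynomial.X : Polynomial F) - 1) ≠ 0 := by
      simpa using Polynomial.X_sub_C_ne_zero (1 : F)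
    apply mul_left_cancel₀ hne
    rw [mul_geom_sum, ← pow_succ', Nat.sub_add_cancel hp, sub_pow_char_pow, one_pow]
  have := congrArg (Polynomial.aeval x) hpoly
  simpa [map_sum] using this

theorem sub_one_pow_char {p : ℕ} [Fact p.Prime] [CharP F p] (m : ℕ) (x : Module.End F W) :
    (x - 1) ^ (p ^ m) = x ^ (p ^ m) - 1 := by
  have hpoly : ((Polynomial.X : Polynomial F) - 1) ^ (p ^ m) = Polynomial.X ^ (p ^ m) - 1 := by
    rw [sub_pow_char_pow, one_pow]
  have := congrArg (Polynomial.aeval x) hpoly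
  simpa using this

end Poly

section Core

variable {F W Q : Type*} [Field F] [AddCommGroup W] [Module F W] [Group Q]

section main

variable {ρ : Q →* Module.End F W} {β : Q → Q → F} [Nontrivial W] [Fintype Q] (hc : IsCom ρ β)
variable {N : Subgroup Q}
include hc

/-- The dimension estimate, for an operator with a given commutant bound. -/
theorem core_char [FiniteDimensional F W] [N.Normal] [Finite (Q ⧸ N)]
    (hN : ∀ n ∈ N, ∃ c : F, ρ n = c • 1) (hrad : ∀ a, (∀ h, β h a = 1) → a ∈ N)
    (hQ : (Fintype.card Q : F) ≠ 0) {R : ℕ} (hRpos : 0 < R)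
    {x : Module.End F W} (hx : x ^ R = 1) {sn : ℕ}
    (hsq : (Module.finrank F W) ^ 2 ≤ sn * Module.finrank F (Cx x))
    (θ : Q ≃* Q) (hθ : ∀ g, x * ρ g = ρ (θ g) * x)
    (hreg : ∀ g, g ∉ N → ∀ i, 0 < i → i < R → (θ^[i] g)⁻¹ * g ∉ N) :
    ∃ c, R * c + 1 = Nat.card (Q ⧸ N) ∧ Nat.card (Q ⧸ N) ≤ sn * (c + 1) ∧
      Module.finrank F (Cx x) ≤ (c + 1) * Module.finrank F (Cm ρ) := by
  classical
  haveI : Fintype (Q ⧸ N) := Fintype.ofFinite _
  -- the inverse of `x`
  set x' := x ^ (R - 1) with hx'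
  have hxx' : x * x' = 1 := by
    rw [hx', ← pow_succ', Nat.sub_add_cancel hRpos, hx]
  have hx'x : x' * x = 1 := by
    rw [hx', ← pow_succ, Nat.sub_add_cancel hRpos, hx]
  have hθ' : ∀ g, x' * ρ (θ g) = ρ g * x' := by
    intro g
    calc x' * ρ (θ g) = x' * (ρ (θ g) * (x * x')) := by rw [hxx', mul_one]
      _ = x' * (x * ρ g) * x' := by rw [← mul_assoc (ρ (θ g)), ← hθ]; simp only [mul_assoc]
      _ = ρ g * x' := by rw [← mul_assoc, hx'x, one_mul]
  -- invariance of `β`
  have hβθ : ∀ h g, β (θ h) (θ g) = β h g := by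
    intro h g
    apply smul_rho_inj ρ (g := θ g)
    rw [← hc]
    have e : ρ (θ h) * ρ (θ g) * ρ (θ h)⁻¹ = x * (ρ h * ρ g * ρ h⁻¹) * x' := by
      have e1 : ρ (θ h)⁻¹ = ρ (θ h⁻¹) := by rw [map_inv θ]
      rw [e1]
      calc ρ (θ h) * ρ (θ g) * ρ (θ h⁻¹) = ρ (θ h) * ρ (θ g) * (x * x') * ρ (θ h⁻¹) := by
            rw [hxx', mul_one]
        _ = ρ (θ h) * (ρ (θ g) * x) * (x' * ρ (θ h⁻¹)) := by simp only [mul_assoc]
        _ = ρ (θ h) * (x * ρ g) * (ρ h⁻¹ * x') := by rw [hθ g, hθ' h⁻¹]
        _ = (ρ (θ h) * x) * ρ g * ρ h⁻¹ * x' := by simp only [mul_assoc]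
        _ = x * (ρ h * ρ g * ρ h⁻¹) * x' := by rw [← hθ h]; simp only [mul_assoc]
    rw [e, hc, mul_smul_comm, smul_mul_assoc, hθ g, mul_assoc, hxx', mul_one]
  -- the averaging is equivariant on the commutant of `x`
  have hpjθ : ∀ g (f : Module.End F W), f ∈ Cx x → pj ρ β g f = 0 → pj ρ β (θ g) f = 0 := by
    intro g f hf h0
    have e1 : pj ρ β (θ g) f = x * pj ρ β g f * x' := by
      rw [pj_apply, pj_apply, mul_smul_comm, smul_mul_assoc]
      congr 1
      rw [Finset.mul_sum, Finset.sum_mul]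
      refine (Fintype.sum_equiv θ.toEquiv _ _ fun h => ?_).symm
      simp only [MulEquiv.toEquiv_eq_coe, EquivLike.coe_coe]
      rw [mul_smul_comm, smul_mul_assoc, hβθ]
      congr 1
      have e2 : x * f * x' = f := by
        rw [← (mem_Cx.mp hf), mul_assoc, hxx', mul_one]
      have e3 : ρ (θ h)⁻¹ = ρ (θ h⁻¹) := by rw [map_inv θ]
      rw [e3]
      calc x * (ρ h * f * ρ h⁻¹) * x' = (x * ρ h) * f * (ρ h⁻¹ * x') := by simp only [mul_assoc]
        _ = ρ (θ h) * x * f * (x' * ρ (θ h⁻¹)) := by rw [hθ h, hθ' h⁻¹]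
        _ = ρ (θ h) * (x * f * x') * ρ (θ h⁻¹) := by simp only [mul_assoc]
        _ = _ := by rw [e2]
    rw [e1, h0, mul_zero, zero_mul]
  have hpjθi : ∀ (i : ℕ) g (f : Module.End F W), f ∈ Cx x → pj ρ β g f = 0 → pj ρ β (θ^[i] g) f = 0 := by
    intro i
    induction i with
    | zero => intro g f _ h; exact h
    | succ i ih =>
      intro g f hf h
      rw [Function.iterate_succ_apply']
      exact hpjθ _ f hf (ih g f hf h)
  -- the action on the quotient
  have hρθ : ∀ (i : ℕ) g, x ^ i * ρ g = ρ (θ^[i] g) * x ^ i := by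
    intro i
    induction i with
    | zero => intro g; simp
    | succ i ih =>
      intro g
      rw [pow_succ, mul_assoc, hθ, ← mul_assoc, ih, mul_assoc, ← pow_succ,
        Function.iterate_succ_apply]
  have hRg : ∀ g, (θ^[R] g)⁻¹ * g ∈ N := by
    intro g
    apply hrad
    intro h
    have h1 := hρθ R g
    rw [hx, one_mul, mul_one] at h1
    apply smul_rho_inj ρ (g := (θ^[R] g)⁻¹ * g)
    rw [← hc, one_smul]
    have e : ρ ((θ^[R] g)⁻¹ * g) = 1 := by
      rw [map_mul, h1, rho_inv_mul']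
    rw [e, mul_one, rho_mul_inv']
  have hNθ : ∀ g, g ∈ N → θ g ∈ N := by
    intro g hg
    apply hrad
    intro h
    obtain ⟨h', rfl⟩ := θ.surjective h
    rw [hβθ, beta_of_mem hc hN hg]
  have hNθi : ∀ (i : ℕ) a b, a⁻¹ * b ∈ N → (θ^[i] a)⁻¹ * θ^[i] b ∈ N := by
    intro i
    induction i with
    | zero => intro a b h; exact h
    | succ i ih =>
      intro a b h
      rw [Function.iterate_succ_apply', Function.iterate_succ_apply']
      have := hNθ _ (ih a b h)
      rwa [map_mul, map_inv] at this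
  let s : Q ⧸ N → Q := fun p => Quotient.out p
  have hs : ∀ p : Q ⧸ N, ((s p : Q) : Q ⧸ N) = p := fun p => QuotientGroup.out_eq' p
  let t : Q ⧸ N → Q ⧸ N := fun p => ((θ (s p) : Q) : Q ⧸ N)
  have ht : ∀ g : Q, t (g : Q ⧸ N) = ((θ g : Q) : Q ⧸ N) := by
    intro g
    show ((θ (s (g : Q ⧸ N)) : Q) : Q ⧸ N) = _
    apply QuotientGroup.eq.mpr
    have h1 : (s (g : Q ⧸ N))⁻¹ * g ∈ N := QuotientGroup.eq.mp (hs _)
    have := hNθ _ h1
    rwa [map_mul, map_inv] at this
  have hti : ∀ (i : ℕ) (g : Q), t^[i] (g : Q ⧸ N) = ((θ^[i] g : Q) : Q ⧸ N) := by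
    intro i g
    induction i generalizing g with
    | zero => rfl
    | succ i ih =>
      rw [Function.iterate_succ_apply, ht, ih, Function.iterate_succ_apply]
  have htR : ∀ a, t^[R] a = a := by
    intro a
    rw [← hs a, hti]
    exact QuotientGroup.eq.mpr (by
      have := hRg (s a)
      exact this)
  have hone : ∀ a : Q ⧸ N, a = 1 ↔ s a ∈ N := by
    intro a
    conv_lhs => rw [← hs a]
    exact QuotientGroup.eq_one_iff _
  obtain ⟨Rp, hRpS, hRpc, hRpa⟩ := exists_reps t hRpos htR _ (Finset.univ.erase (1 : Q ⧸ N)) rfl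
    (by
      intro a ha
      simp only [Finset.mem_erase, Finset.mem_univ, and_true] at ha ⊢
      intro h1
      apply ha
      have h2 : t^[R - 1] (t a) = a := by
        rw [← Function.iterate_succ_apply, Nat.succ_eq_add_one, Nat.sub_add_cancel hRpos, htR]
      rw [← h2, h1]
      have h3 : t^[R - 1] (1 : Q ⧸ N) = ((θ^[R - 1] (1 : Q) : Q) : Q ⧸ N) := hti _ 1
      rw [h3]
      have h4 : ∀ i : ℕ, θ^[i] (1 : Q) = 1 := by
        intro i
        induction i with
        | zero => rfl
        | succ i ih => rw [Function.iterate_succ_apply', ih, map_one]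
      rw [h4]
      rfl)
    (by
      intro a ha i h0 h1 heq
      simp only [Finset.mem_erase, Finset.mem_univ, and_true] at ha
      have ha' : s a ∉ N := fun h => ha ((hone a).mpr h)
      have := hreg (s a) ha' i h0 h1
      apply this
      have heq' : ((θ^[i] (s a) : Q) : Q ⧸ N) = ((s a : Q) : Q ⧸ N) := by
        rw [← hti, hs a]
        exact heq
      exact QuotientGroup.eq.mp heq')
  -- the injection of the commutant of `x`
  have hcardS : (Finset.univ.erase (1 : Q ⧸ N)).card + 1 = Fintype.card (Q ⧸ N) := by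
    rw [Finset.card_erase_of_mem (Finset.mem_univ _), Finset.card_univ]
    have : 0 < Fintype.card (Q ⧸ N) := Fintype.card_pos
    omega
  have h1notin : (1 : Q ⧸ N) ∉ Rp := fun h => by
    have := hRpS h
    simp at this
  set Rp' := insert (1 : Q ⧸ N) Rp with hRp'
  have hRp'c : Rp'.card = Rp.card + 1 := Finset.card_insert_of_notMem h1notin
  have hbound : Module.finrank F (Cx x) ≤ Rp'.card * Module.finrank F (Cm ρ) := by
    let Ψ₀ : ∀ r : Rp', Cx x →ₗ[F] Cm ρ := fun r =>
      LinearMap.codRestrict (Cm ρ) ((LinearMap.mulLeft F (ρ (s r.1)⁻¹)) ∘ₗ pj ρ β (s r.1) ∘ₗ (Cx x).subtype)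
        (fun f => inv_mul_mem_Cm hc (fun k => pj_conj hc (s r.1) k f.1))
    let Ψ : Cx x →ₗ[F] (Rp' → Cm ρ) := LinearMap.pi Ψ₀
    have hinj : Function.Injective Ψ := by
      rw [← LinearMap.ker_eq_bot, eq_bot_iff]
      intro f hf
      rw [LinearMap.mem_ker] at hf
      rw [Submodule.mem_bot]
      have h1 : ∀ r ∈ Rp', pj ρ β (s r) (f : Module.End F W) = 0 := by
        intro r hr
        have h2 := congrFun hf ⟨r, hr⟩
        have h3 : ρ (s r)⁻¹ * pj ρ β (s r) (f : Module.End F W) = 0 := congrArg Subtype.val h2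
        calc pj ρ β (s r) (f : Module.End F W) =
            ρ (s r) * (ρ (s r)⁻¹ * pj ρ β (s r) (f : Module.End F W)) := by
              rw [← mul_assoc, rho_mul_inv', one_mul]
          _ = 0 := by rw [h3, mul_zero]
      have h2 : ∀ a : Q ⧸ N, pj ρ β (s a) (f : Module.End F W) = 0 := by
        intro a
        by_cases ha : a = 1
        · exact h1 a (by rw [ha]; exact Finset.mem_insert_self _ _)
        · obtain ⟨r, hr, i, hi⟩ := hRpa a (by simp [ha])
          have h3 := hpjθi i (s r) _ f.2 (h1 r (Finset.mem_insert_of_mem hr))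
          have h4 : ((s a : Q) : Q ⧸ N) = ((θ^[i] (s r) : Q) : Q ⧸ N) := by
            rw [hs a, hi, ← hti, hs r]
          obtain ⟨n, hn⟩ : ∃ n, s a = θ^[i] (s r) * n := by
            refine ⟨(θ^[i] (s r))⁻¹ * s a, ?_⟩
            group
          have hnN : n ∈ N := by
            have := QuotientGroup.eq.mp h4.symm
            rw [hn] at this
            simpa using this
          rw [hn, pj_coset hc hN hnN]
          exact h3
      have h3 : (f : Module.End F W) = 0 := by
        apply eq_zero_of_pj hc hN hrad hQ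
        intro g
        have h4 : g = s (g : Q ⧸ N) * ((s (g : Q ⧸ N))⁻¹ * g) := by group
        rw [h4, pj_coset hc hN (QuotientGroup.eq.mp (hs _))]
        exact h2 _
      exact Subtype.ext h3
    have := LinearMap.finrank_le_finrank_of_injective hinj
    rw [Module.finrank_pi_fintype, Finset.sum_const, Finset.card_univ, smul_eq_mul, Fintype.card_coe] at this
    exact this
  have hκ : 0 < Module.finrank F (Cm ρ) := by
    have hone' : (1 : Module.End F W) ∈ Cm ρ := by
      intro g
      rw [mul_one, one_mul]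
    have : Nontrivial (Cm ρ) := ⟨⟨⟨1, hone'⟩, 0, fun h => one_ne_zero (congrArg Subtype.val h)⟩⟩
    exact Module.finrank_pos
  have h1 := card_mul_le hc hN hrad hQ
  rw [Nat.card_eq_fintype_card]
  set a := Fintype.card (Q ⧸ N) with ha
  set κ := Module.finrank F (Cm ρ) with hκdef
  have h3 : a * κ ≤ sn * (Rp'.card * κ) :=
    h1.trans (hsq.trans (Nat.mul_le_mul_left _ hbound))
  have h4 : a ≤ sn * Rp'.card := by
    have : a * κ ≤ (sn * Rp'.card) * κ := by rw [mul_assoc]; exact h3
    exact Nat.le_of_mul_le_mul_right this hκ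
  rw [hRp'c] at h4
  have h5 : R * Rp.card + 1 = a := by rw [hRpc]; exact hcardS
  refine ⟨Rp.card, h5, h4, ?_⟩
  rw [← hRp'c]
  exact hbound

end main

/-- The Hall--Higman step, for an operator whose powers sum to zero. -/
theorem step_char [FiniteDimensional F W] [Nontrivial W] [Fintype Q]
    (ρ : Q →* Module.End F W) (A : Subgroup Q) [A.Normal] (ν : Q → F)
    (hcomm : ∀ g h : Q, ⁅g, h⁆ ∈ A) (hν : ∀ a ∈ A, ρ a = ν a • 1)
    (θ : Q ≃* Q) (hθA : ∀ a ∈ A, θ a ∈ A) (hνθ : ∀ a ∈ A, ν (θ a) = ν a)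
    {p m : ℕ} (hp : p.Prime) (hm : 0 < m) (hθK : ∀ g, θ^[p ^ m] g = g)
    (hyA : ∀ a ∈ A, θ^[p ^ (m - 1)] a = a) (h3 : ∀ g, g⁻¹ * θ^[p ^ (m - 1)] g ∈ A → g ∈ A)
    (hQ : (Fintype.card Q : F) ≠ 0)
    (τ : Module.End F W) (hτρ : ∀ g, τ * ρ g = ρ (θ g) * τ) (hτK : τ ^ p ^ m = 1)
    (hT : ∑ i ∈ Finset.range (p ^ m), τ ^ i = 0) {s : ℕ}
    (hsq : (Module.finrank F W) ^ 2 ≤ s * Module.finrank F (Cx τ)) :
    (∀ r ∈ radG (isCom_of_scalar ρ A ν hcomm hν), ∃ a ∈ A, ρ r = ν a • 1) ∧
    (∀ g, g ∉ radG (isCom_of_scalar ρ A ν hcomm hν) → ∀ i, 0 < i → i < p ^ m →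
      (θ^[i] g)⁻¹ * g ∉ radG (isCom_of_scalar ρ A ν hcomm hν)) ∧
    ∃ c, p ^ m * c + 1 = Nat.card (Q ⧸ radG (isCom_of_scalar ρ A ν hcomm hν)) ∧
      Nat.card (Q ⧸ radG (isCom_of_scalar ρ A ν hcomm hν)) ≤ s * (c + 1) ∧
      Module.finrank F (Cx τ) ≤ (c + 1) * Module.finrank F (Cm ρ) := by
  classical
  have hc := isCom_of_scalar ρ A ν hcomm hν
  set R := radG (isCom_of_scalar ρ A ν hcomm hν) with hRdef
  have hAR : A ≤ R := by
    intro a ha h
    have e : ⁅h, a⁆ = h * a * h⁻¹ * a⁻¹ := commutatorElement_def h a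
    have hν1 : ρ (h * a * h⁻¹) = ρ a := by
      rw [map_mul, map_mul, hν a ha]
      simp only [mul_smul_comm, smul_mul_assoc, mul_one]
      rw [← map_mul, mul_inv_cancel, map_one]
    have h2 : ρ ⁅h, a⁆ = 1 := by
      rw [e, map_mul, hν1, ← map_mul, mul_inv_cancel, map_one]
    have h3' : ν ⁅h, a⁆ • (1 : Module.End F W) = 1 := by
      rw [← hν _ (hcomm h a), h2]
    obtain ⟨v, hv⟩ := exists_ne (0 : W)
    have := congrArg (fun f : Module.End F W => f v) h3'
    simp only [LinearMap.smul_apply, Module.End.one_apply] at this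
    have h4 : (ν ⁅h, a⁆ - 1) • v = 0 := by
      rw [sub_smul, this, one_smul, sub_self]
    rcases smul_eq_zero.mp h4 with h5 | h5
    · exact sub_eq_zero.mp h5
    · exact absurd h5 hv
  have hθinv : ∀ g, θ.symm (θ g) = g := θ.symm_apply_apply
  have hθR : ∀ r ∈ R, θ r ∈ R := by
    intro r hr h
    have e : ⁅h, θ r⁆ = θ ⁅θ.symm h, r⁆ := by
      rw [map_commutatorElement, MulEquiv.apply_symm_apply]
    show ν ⁅h, θ r⁆ = 1
    rw [e, hνθ _ (hcomm _ _)]
    exact hr (θ.symm h)
  have hitR : ∀ (j : ℕ), ∀ r ∈ R, θ^[j] r ∈ R := by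
    intro j r hr
    induction j with
    | zero => exact hr
    | succ j ih =>
      rw [Function.iterate_succ_apply']
      exact hθR _ ih
  have hitA : ∀ (j : ℕ), ∀ r ∈ A, θ^[j] r ∈ A := by
    intro j r hr
    induction j with
    | zero => exact hr
    | succ j ih =>
      rw [Function.iterate_succ_apply']
      exact hθA _ ih
  let y : Q →* Q := (itE θ (p ^ (m - 1))).toMonoidHom
  have hy : ∀ g, y g = θ^[p ^ (m - 1)] g := fun g => rfl
  have hpre := exists_preimage_f A hcomm y (fun a ha => by rw [hy]; exact hitA _ _ ha)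
    (fun g hg => h3 g (by rw [← hy]; exact hg)) R hAR (fun r hr => by rw [hy]; exact hitR _ _ hr)
  -- `R` acts by scalars
  have hcommR : ∀ a b : R, ρ (a : Q) * ρ (b : Q) = ρ (b : Q) * ρ (a : Q) := by
    intro a b
    have h1 := hc a.1 b.1
    have h2 : (ν ⁅a.1, b.1⁆) = 1 := b.2 a.1
    simp only at h1
    rw [h2, one_smul] at h1
    calc ρ a.1 * ρ b.1 = ρ a.1 * ρ b.1 * (ρ a.1⁻¹ * ρ a.1) := by
          rw [← map_mul ρ a.1⁻¹, inv_mul_cancel, map_one, mul_one]
      _ = (ρ a.1 * ρ b.1 * ρ a.1⁻¹) * ρ a.1 := by rw [mul_assoc, mul_assoc, mul_assoc]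
      _ = ρ b.1 * ρ a.1 := by rw [h1]
  let θR : R ≃* R := MulEquiv.ofBijective
    (MonoidHom.mk' (fun r : R => (⟨θ r.1, hθR r.1 r.2⟩ : R)) (fun a b => Subtype.ext (map_mul θ a.1 b.1)))
    (by
      refine (Finite.injective_iff_bijective).mp fun a b h => ?_
      apply Subtype.ext
      exact θ.injective (congrArg Subtype.val h))
  have hθRit : ∀ (i : ℕ) (r : R), ((θR^[i] r : R) : Q) = θ^[i] r.1 := by
    intro i r
    induction i with
    | zero => rfl
    | succ i ih =>
      rw [Function.iterate_succ_apply', Function.iterate_succ_apply', ← ih]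
      rfl
  have hRcard : (Fintype.card R : F) ≠ 0 := by
    have hdvd : Fintype.card R ∣ Fintype.card Q := by
      rw [← Nat.card_eq_fintype_card, ← Nat.card_eq_fintype_card]
      exact Subgroup.card_subgroup_dvd_card R
    intro h0
    obtain ⟨k, hk⟩ := hdvd
    apply hQ
    rw [hk, Nat.cast_mul, h0, zero_mul]
  have hrel := rel_ab (ρ := ρ.comp R.subtype) (fun a b => hcommR a b) θR hp hm
    (fun g => Subtype.ext (by rw [hθRit]; exact hθK g.1)) hRcard τ (fun g => hτρ g.1) hT
  have hscal : ∀ r ∈ R, ∃ a ∈ A, ρ r = ν a • 1 := by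
    intro r hr
    obtain ⟨g, hgR, z, hz, rfl⟩ := hpre r hr
    refine ⟨z, hz, ?_⟩
    have := hrel ⟨g, hgR⟩
    have e : ρ (g⁻¹ * y g) = 1 := by
      have e2 : (((⟨g, hgR⟩ : R)⁻¹ * θR^[p ^ (m - 1)] ⟨g, hgR⟩ : R) : Q) = g⁻¹ * y g := by
        rw [Subgroup.coe_mul, hθRit, hy]
        rfl
      rw [← e2]
      exact this
    rw [map_mul, e, one_mul, hν z hz]
  have hreg : ∀ g, g ∉ R → ∀ i, 0 < i → i < p ^ m → (θ^[i] g)⁻¹ * g ∉ R := by
    intro g hg i hi0 hiK hmem
    apply hg
    obtain ⟨k, hk⟩ := exists_mul_mod hp hm hi0 hiK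
    have h1 := iter_fix_mod R θ hθR hmem k
    have hper : Function.IsPeriodicPt (⇑θ) (p ^ m) g := hθK g
    rw [← hper.iterate_mod_apply, hk] at h1
    have h2 : g⁻¹ * y g ∈ R := by
      have := R.inv_mem h1
      rw [hy]
      convert this using 1
      group
    obtain ⟨g', hg', z, hz, e⟩ := hpre _ h2
    have h4 : (g * g'⁻¹)⁻¹ * y (g * g'⁻¹) = y g' * z * (y g')⁻¹ := by
      rw [map_mul, map_inv]
      have e2 : y g = g * (g'⁻¹ * y g' * z) := by rw [← e]; group
      rw [e2]; group
    have h5 : (g * g'⁻¹)⁻¹ * θ^[p ^ (m - 1)] (g * g'⁻¹) ∈ A := by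
      rw [← hy, h4]
      exact Subgroup.Normal.conj_mem inferInstance z hz (y g')
    have h6 := h3 _ h5
    have : g = (g * g'⁻¹) * g' := by group
    rw [this]
    exact R.mul_mem (hAR h6) hg'
  refine ⟨hscal, hreg, ?_⟩
  exact core_char (N := R) hc (fun n hn => by
      obtain ⟨a, _, e⟩ := hscal n hn
      exact ⟨_, e⟩) (fun a ha => (mem_radG _).2 ha) hQ (pow_pos hp.pos m) hτK hsq θ hτρ hreg

/-- A vector in an eigenspace of a central subgroup vanishes if the sum over the period of its
images vanishes. -/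
theorem eigen_sum_zero [Finite Q] (A : Subgroup Q) (ρ : Q →* Module.End F W) (ν : Q → F) (σ : Q ≃* Q)
    (hAσ : ∀ a ∈ A, σ a ∈ A) (hmul : ∀ a ∈ A, ∀ b ∈ A, ν (a * b) = ν a * ν b) (hν0 : ∀ a ∈ A, ν a ≠ 0)
    (hA : (Nat.card A : F) ≠ 0)
    (x : Module.End F W) (hxρ : ∀ g, x * ρ g = ρ (σ g) * x)
    {l : ℕ} (hl : ∀ i, 0 < i → i < l → ¬ ∀ a ∈ A, ν (σ^[i] a) = ν a) (hl0 : 0 < l)
    {w : W} (hw : ∀ a ∈ A, ρ a w = ν a • w) (hs0 : ∑ i ∈ Finset.range l, (x ^ i) w = 0) : w = 0 := by
  classical
  haveI := Fintype.ofFinite Q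
  haveI : Fintype A := Fintype.ofFinite A
  let s : W := ∑ i ∈ Finset.range l, (x ^ i) w
  have hs0 : s = 0 := hs0
  have hAit : ∀ (j : ℕ), ∀ r ∈ A, σ^[j] r ∈ A := by
    intro j r hr
    induction j with
    | zero => exact hr
    | succ j ih =>
      rw [Function.iterate_succ_apply']
      exact hAσ _ ih
  have hxi : ∀ (i : ℕ) (g : Q), x ^ i * ρ g = ρ (σ^[i] g) * x ^ i := by
    intro i g
    induction i generalizing g with
    | zero => simp
    | succ i ih =>
      rw [pow_succ, mul_assoc, hxρ, ← mul_assoc, ih, mul_assoc, ← pow_succ,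
        Function.iterate_succ_apply]
  let π : Module.End F W := ∑ a : A, (ν a)⁻¹ • ρ (a : Q)
  have hbij : ∀ i : ℕ, Function.Bijective (fun b : A => (⟨σ^[i] b.1, hAit i b.1 b.2⟩ : A)) := by
    intro i
    refine (Finite.injective_iff_bijective).mp fun a b h => ?_
    apply Subtype.ext
    exact (σ.injective.iterate i) (congrArg Subtype.val h)
  have hπ : ∀ i, π ((x ^ i) w) = (∑ b : A, (ν (σ^[i] b.1))⁻¹ * ν b.1) • (x ^ i) w := by
    intro i
    simp only [π, LinearMap.sum_apply, LinearMap.smul_apply]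
    rw [← (hbij i).sum_comp, Finset.sum_smul]
    refine Finset.sum_congr rfl fun b _ => ?_
    have h1 := congrArg (fun t : Module.End F W => t w) (hxi i b.1)
    simp only [Module.End.mul_apply] at h1
    rw [← h1, hw b.1 b.2, map_smul, smul_smul]
  have hzero : ∀ i ∈ Finset.range l, i ≠ 0 → π ((x ^ i) w) = 0 := by
    intro i hi hi0
    rw [hπ]
    have hnot := hl i (Nat.pos_of_ne_zero hi0) (Finset.mem_range.mp hi)
    push Not at hnot
    obtain ⟨b₀, hb₀, hb₀'⟩ := hnot
    have : (∑ b : A, (ν (σ^[i] b.1))⁻¹ * ν b.1) = 0 :=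
      sum_char_eq_zero (fun b : A => ν (σ^[i] b.1)) (fun b : A => ν b.1)
        (fun a b => by
          show ν (σ^[i] (a.1 * b.1)) = _
          rw [iter_mul, hmul _ (hAit i _ a.2) _ (hAit i _ b.2)])
        (fun a b => hmul _ a.2 _ b.2)
        (fun a => hν0 _ (hAit i _ a.2)) (b₀ := ⟨b₀, hb₀⟩) hb₀'
    rw [this, zero_smul]
  have h1 : π s = 0 := by rw [hs0, map_zero]
  simp only [s, map_sum] at h1
  rw [Finset.sum_eq_single 0 hzero (fun h => absurd (Finset.mem_range.mpr hl0) h), hπ] at h1
  simp only [Function.iterate_zero, id_eq, pow_zero, Module.End.one_apply] at h1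
  have h2 : (∑ b : A, (ν b.1)⁻¹ * ν b.1) = (Nat.card A : F) := by
    rw [Finset.sum_congr rfl fun b _ => inv_mul_cancel₀ (hν0 b.1 b.2)]
    simp [Nat.card_eq_fintype_card]
  rw [h2] at h1
  exact (smul_eq_zero.mp h1).resolve_left hA


end Core

end Cfsg.Agent.Lib.PGroup.HB
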