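import Mathlib
import Cfsg.Agent.Lib.PGroup.HBMin
import Cfsg.Agent.Lib.PGroup.HHGroup
import Cfsg.Agent.Lib.PGroup.AxLemma

/-!
# Theorem B of Hall and Higman
-/

namespace Cfsg.Agent.Lib.PGroup.HB

open Cfsg.Agent.Lib.PGroup.HH
open scoped BigOperators commutatorElement TensorProduct

universe u v w

section Red

variable {F : Type v} {W : Type w} [Field F] [AddCommGroup W] [Module F W]

/-- The reduction to the minimal situation, in the defining characteristic. -/
theorem main_char_aux [IsAlgClosed F] [FiniteDimensional F W] [Nontrivial W] {q p m : ℕ}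
    [Fact p.Prime] [CharP F p] (hq : q.Prime) (hpq : p ≠ q) (hm : 0 < m) (hodd : p ≠ 2 ∨ m = 1)
    (hqF : (q : F) ≠ 0) (x : Module.End F W) (hxK : x ^ p ^ m = 1)
    (hT : ∑ i ∈ Finset.range (p ^ m), x ^ i = 0) {r : ℕ} (hr : (x - 1) ^ r = 0) :
    ∀ (N : ℕ) (Q : Type u) [Group Q] [Fintype Q], Fintype.card Q = N → IsPGroup q Q →
      ∀ (ρ : Q →* Module.End F W) (σ : Q ≃* Q), (∀ g, σ^[p ^ m] g = g) →
        (∀ g, x * ρ g = ρ (σ g) * x) → (∃ g, ρ (g⁻¹ * σ^[p ^ (m - 1)] g) ≠ 1) →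
        (∃ a b : Q, a * b ≠ b * a) ∧ ∃ n m₀ : ℕ, 0 < n ∧ 0 < m₀ ∧ m₀ ≤ m ∧ q ^ n + 1 = p ^ m₀ ∧
          p ^ (m - m₀) * (p ^ m₀ - 1) ≤ r := by
  have hp : p.Prime := Fact.out
  classical
  have hKpos : 0 < p ^ m := pow_pos hp.pos m
  intro N
  induction N using Nat.strong_induction_on with
  | _ N ih =>
    intro Q _ _ hN hQ ρ σ hσK hxρ hex
    by_cases hρ : Function.Injective ρ
    · -- the faithful case
      have hy : ∃ g, σ^[p ^ (m - 1)] g ≠ g := by
        obtain ⟨g, hg⟩ := hex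
        refine ⟨g, fun h => hg ?_⟩
        rw [h, inv_mul_cancel, map_one]
      by_cases hmin : ∀ A : Subgroup Q, (∀ a ∈ A, σ a ∈ A) → A ≠ ⊤ → ∀ a ∈ A, σ^[p ^ (m - 1)] a = a
      · exact min_char hq hpq hQ hm hodd ρ hρ σ hσK x hxρ hxK hT hqF hy hmin hr
      · -- a proper invariant subgroup on which the action is nontrivial
        push Not at hmin
        obtain ⟨A, hAσ, hAne, a, ha, hya⟩ := hmin
        letI : Fintype A := Fintype.ofFinite A
        have hcard : Fintype.card A < N := by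
          rw [← hN, ← Nat.card_eq_fintype_card, ← Nat.card_eq_fintype_card]
          exact lt_of_le_of_ne (Subgroup.card_le_card_group A) (fun h => hAne (Subgroup.eq_top_of_card_eq A h))
        let σA := subAut A σ hAσ
        have hit : ∀ (i : ℕ) (b : A), ((σA^[i] b : A) : Q) = σ^[i] b.1 := subAut_iter A σ hAσ
        obtain ⟨h1, h2⟩ := ih _ hcard A rfl (hQ.to_subgroup A) (ρ.comp A.subtype) σA
          (fun g => Subtype.ext (by rw [hit]; exact hσK g.1)) (fun g => hxρ g.1)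
          ⟨⟨a, ha⟩, fun h => hya (by
            have h4 : ρ (a⁻¹ * σ^[p ^ (m - 1)] a) = 1 := by
              have e : (((⟨a, ha⟩ : A)⁻¹ * σA^[p ^ (m - 1)] ⟨a, ha⟩ : A) : Q) = a⁻¹ * σ^[p ^ (m - 1)] a := by
                rw [Subgroup.coe_mul, hit]
                rfl
              rw [← e]
              exact h
            have h5 : a⁻¹ * σ^[p ^ (m - 1)] a = 1 := hρ (by rw [h4, map_one])
            have := congrArg (fun t => a * t) h5
            simpa using this)⟩
        refine ⟨?_, h2⟩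
        obtain ⟨b, c, hbc⟩ := h1
        exact ⟨b.1, c.1, fun h => hbc (Subtype.ext h)⟩
    · -- pass to the quotient by the kernel
      let K₁ : Subgroup Q := ρ.ker
      haveI : K₁.Normal := MonoidHom.normal_ker ρ
      have hK₁ : ∀ g, g ∈ K₁ ↔ ρ g = 1 := fun g => MonoidHom.mem_ker
      have hK₁σ : ∀ a ∈ K₁, σ a ∈ K₁ := by
        intro a ha
        rw [hK₁] at ha ⊢
        have h1 := hxρ a
        rw [ha, mul_one] at h1
        have h2 : x * x ^ (p ^ m - 1) = 1 := by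
          rw [← pow_succ', Nat.sub_add_cancel hKpos, hxK]
        calc ρ (σ a) = ρ (σ a) * (x * x ^ (p ^ m - 1)) := by rw [h2, mul_one]
          _ = (ρ (σ a) * x) * x ^ (p ^ m - 1) := by rw [mul_assoc]
          _ = 1 := by rw [← h1, h2]
      have hK₁ne : K₁ ≠ ⊥ := by
        intro h
        apply hρ
        have h0 : ∀ g, ρ g = 1 → g = 1 := by
          intro g hg
          have : g ∈ K₁ := (hK₁ g).mpr hg
          rwa [h, Subgroup.mem_bot] at this
        intro a b hab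
        have h1 : ρ (a * b⁻¹) = 1 := by
          rw [map_mul, hab, ← map_mul, mul_inv_cancel, map_one]
        exact mul_inv_eq_one.mp (h0 _ h1)
      letI : Fintype (Q ⧸ K₁) := Fintype.ofFinite _
      have hcard : Fintype.card (Q ⧸ K₁) < N := by
        rw [← hN, ← Nat.card_eq_fintype_card, ← Nat.card_eq_fintype_card]
        have h1 := Subgroup.card_mul_index K₁
        have h2 : 1 < Nat.card K₁ := by
          haveI : Nontrivial K₁ := (Subgroup.nontrivial_iff_ne_bot K₁).mpr hK₁ne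
          exact Finite.one_lt_card
        have h3 : 0 < K₁.index := Nat.pos_of_ne_zero Subgroup.index_ne_zero_of_finite
        show K₁.index < _
        rw [← h1]
        nlinarith
      let σ' := quotAut K₁ σ hK₁σ
      have hit : ∀ (i : ℕ) (g : Q), σ'^[i] (g : Q ⧸ K₁) = ((σ^[i] g : Q) : Q ⧸ K₁) := quotAut_iter K₁ σ hK₁σ
      let ρ' : Q ⧸ K₁ →* Module.End F W := QuotientGroup.lift K₁ ρ le_rfl
      have hρ' : ∀ g : Q, ρ' (g : Q ⧸ K₁) = ρ g := fun g => rfl
      obtain ⟨g₀, hg₀⟩ := hex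
      obtain ⟨h1, h2⟩ := ih _ hcard (Q ⧸ K₁) rfl (hQ.of_surjective (QuotientGroup.mk' K₁) (QuotientGroup.mk'_surjective K₁))
        ρ' σ'
        (by
          intro g
          induction g using QuotientGroup.induction_on with | _ g => ?_
          rw [hit, hσK])
        (by
          intro g
          induction g using QuotientGroup.induction_on with | _ g => ?_
          exact hxρ g)
        ⟨(g₀ : Q ⧸ K₁), by
          rw [hit, ← QuotientGroup.mk_inv, ← QuotientGroup.mk_mul, hρ']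
          exact hg₀⟩
      refine ⟨?_, h2⟩
      obtain ⟨b, c, hbc⟩ := h1
      induction b using QuotientGroup.induction_on with | _ b => ?_
      induction c using QuotientGroup.induction_on with | _ c => ?_
      exact ⟨b, c, fun h => hbc (by rw [← QuotientGroup.mk_mul, ← QuotientGroup.mk_mul, h])⟩


end Red

section BC

variable {F : Type v} {V : Type w} [Field F] [AddCommGroup V] [Module F V]

/-- Scalar extension of operators to the algebraic closure. -/
noncomputable def bcE (F : Type v) (V : Type w) [Field F] [AddCommGroup V] [Module F V] :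
    Module.End F V →ₐ[F] Module.End (AlgebraicClosure F) (AlgebraicClosure F ⊗[F] V) :=
  Module.End.baseChangeHom _ _ _

theorem bcE_inj : Function.Injective (bcE F V) :=
  LinearMap.baseChangeHom_injective F V (AlgebraicClosure F)

theorem nontrivial_bc [Nontrivial V] : Nontrivial (AlgebraicClosure F ⊗[F] V) := by
  by_contra hcon
  rw [not_nontrivial_iff_subsingleton] at hcon
  have h1 : bcE F V 0 = bcE F V 1 := by
    refine LinearMap.ext fun a => ?_
    exact Subsingleton.elim _ _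
  have h2 : (0 : Module.End F V) = 1 := bcE_inj h1
  obtain ⟨v, hv⟩ := exists_ne (0 : V)
  exact hv (by simpa using (LinearMap.congr_fun h2 v).symm)

end BC

section GroupStep

variable {H : Type u} [Group H] [Finite H] {F : Type v} {V : Type w} [Field F] [AddCommGroup V]
  [Module F V] [FiniteDimensional F V] [Nontrivial V]

/-- The action of a power of `x`. -/
theorem group_step {p : ℕ} [Fact p.Prime] [CharP F p] (ρ : H →* Module.End F V)
    (hρ : Function.Injective ρ) (x : H) {n : ℕ} (hn0 : 0 < n) (hxn : x ^ p ^ n = 1) {r : ℕ}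
    (hr : (ρ x - 1) ^ r = 0) (hlt : r < p ^ n) (hodd : p ≠ 2 ∨ n = 1) (Q : Subgroup H) {q : ℕ}
    (hq : q.Prime) (hpq : p ≠ q) (hQ : IsPGroup q Q)
    (hxQ : x ∈ Subgroup.normalizer (Q : Set H))
    (hy : ∃ g ∈ Q, x ^ p ^ (n - 1) * g * (x ^ p ^ (n - 1))⁻¹ ≠ g) :
    (∃ a b : Q, a * b ≠ b * a) ∧ ∃ k m₀ : ℕ, 0 < k ∧ 0 < m₀ ∧ m₀ ≤ n ∧ q ^ k + 1 = p ^ m₀ ∧
      p ^ (n - m₀) * (p ^ m₀ - 1) ≤ r := by
  classical
  haveI := Fintype.ofFinite Q
  let K := AlgebraicClosure F
  let W := AlgebraicClosure F ⊗[F] V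
  haveI : CharP K p := charP_of_injective_algebraMap (algebraMap F K).injective p
  haveI : Nontrivial W := nontrivial_bc
  let E := bcE F V
  let x' : Module.End K W := E (ρ x)
  have hxK : x' ^ p ^ n = 1 := by
    show (E (ρ x)) ^ p ^ n = 1
    rw [← map_pow, ← map_pow, hxn, map_one, map_one]
  have hE1 : x' - 1 = E (ρ x - 1) := by
    have h1 : E (ρ x - 1) = E (ρ x) - E 1 := map_sub E _ _
    rw [h1, map_one]
  have hsub : (x' - 1) ^ (p ^ n - 1) = 0 := by
    rw [hE1, ← map_pow]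
    have : p ^ n - 1 = r + (p ^ n - 1 - r) := by omega
    rw [this, pow_add, hr, zero_mul, map_zero]
  have hT : ∑ i ∈ Finset.range (p ^ n), x' ^ i = 0 := by
    rw [geom_eq_sub_pow (p := p), hsub]
  have hr' : (x' - 1) ^ r = 0 := by
    rw [hE1, ← map_pow, hr, map_zero]
  have hqF : (q : K) ≠ 0 := by
    intro h0
    rw [CharP.cast_eq_zero_iff K p q] at h0
    exact hpq ((Nat.prime_dvd_prime_iff_eq Fact.out hq).mp h0)
  let σ : Q ≃* Q := Cfsg.Agent.Lib.Hall.normalizerAut Q hxQ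
  have hσit : ∀ (i : ℕ) (g : Q), ((σ^[i] g : Q) : H) = x ^ i * g * (x ^ i)⁻¹ :=
    fun i g => normalizerAut_iter Q hxQ i g
  let ρQ : Q →* Module.End K W := (E : Module.End F V →* Module.End K W).comp (ρ.comp Q.subtype)
  have hρQ : ∀ g : Q, ρQ g = E (ρ (g : H)) := fun _ => rfl
  have hσc : ∀ g : Q, ((σ g : Q) : H) = x * g * x⁻¹ := fun g => rfl
  obtain ⟨g₀, hg₀Q, hg₀⟩ := hy
  exact main_char_aux hq hpq hn0 hodd hqF x' hxK hT hr' _ Q rfl hQ ρQ σ
    (fun g => Subtype.ext (by rw [hσit, hxn]; simp))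
    (fun g => by
      rw [hρQ, hρQ]
      show E (ρ x) * _ = _ * E (ρ x)
      rw [← map_mul, ← map_mul, ← map_mul, ← map_mul, hσc]
      congr 2
      group)
    ⟨⟨g₀, hg₀Q⟩, fun h => hg₀ (by
      have h1 : E (ρ (((⟨g₀, hg₀Q⟩ : Q)⁻¹ * σ^[p ^ (n - 1)] ⟨g₀, hg₀Q⟩ : Q) : H)) = E 1 := by
        rw [map_one]
        exact h
      have h2 := hρ (bcE_inj (h1.trans (by rw [map_one])) |>.trans (map_one ρ).symm)
      have h3 : (((⟨g₀, hg₀Q⟩ : Q)⁻¹ * σ^[p ^ (n - 1)] ⟨g₀, hg₀Q⟩ : Q) : H) =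
          g₀⁻¹ * (x ^ p ^ (n - 1) * g₀ * (x ^ p ^ (n - 1))⁻¹) := by
        rw [Subgroup.coe_mul, hσit]
        rfl
      rw [h3] at h2
      have := congrArg (fun t => g₀ * t) h2
      simpa using this)⟩

/-- **Theorem B of Hall and Higman**, for an abstract group acting faithfully. -/
theorem thmB {p : ℕ} [Fact p.Prime] [CharP F p] (ρ : H →* Module.End F V)
    (hρ : Function.Injective ρ) (hsol : Cfsg.IsPSolvable p H) (hO : Cfsg.pCore p H = ⊥)
    (x : H) {n : ℕ} (hn : orderOf x = p ^ n) {r : ℕ} (hr : (ρ x - 1) ^ r = 0) (hlt : r < p ^ n)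
    (hodd : p ≠ 2 ∨ n = 1) :
    ∃ n₀ q m : ℕ, 1 ≤ n₀ ∧ n₀ ≤ n ∧ q.Prime ∧ 1 ≤ m ∧ q ^ m + 1 = p ^ n₀ ∧
      (∀ S : Sylow q H, ¬ IsMulCommutative (S : Subgroup H)) ∧ p ^ (n - n₀) * (p ^ n₀ - 1) ≤ r := by
  classical
  have hp : p.Prime := Fact.out
  have hn0 : 0 < n := by
    rcases Nat.eq_zero_or_pos n with rfl | h
    · exfalso
      have h0 : r = 0 := by simpa using hlt
      rw [h0, pow_zero] at hr
      obtain ⟨v, hv⟩ := exists_ne (0 : V)
      exact hv (LinearMap.congr_fun hr v)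
    · exact h
  have hxn : x ^ p ^ n = 1 := by rw [← hn]; exact pow_orderOf_eq_one x
  have hkp : p ^ (n - 1) * p = p ^ n := by
    rw [← pow_succ]
    congr 1
    omega
  set y := x ^ p ^ (n - 1) with hy
  have hy1 : y ≠ 1 := pow_ne_one_of_lt_orderOf (pow_pos hp.pos _).ne'
    (by rw [hn]; exact Nat.pow_lt_pow_right hp.one_lt (by omega))
  have hyp : y ^ p ^ 1 = 1 := by
    rw [pow_one, hy, ← pow_mul, hkp, hxn]
  set K₀ := Cfsg.pPrimeCore p H with hK₀
  haveI hK₀n : K₀.Normal := Cfsg.Agent.Lib.Core.pPrimeCore_normal p H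
  have hstep := Cfsg.Agent.Lib.PSolv.pStep_of_isPSolvable hp hsol
  have hC := Cfsg.Agent.Lib.PGroup.AxLemma.centralizer_pPrimeCore_le hstep hO
  have hcopK : (Nat.card K₀).Coprime p := Cfsg.Agent.Lib.Core.pPrimeCore_coprime p H
  let A : Subgroup H := Subgroup.zpowers x
  have hAN : A ≤ Subgroup.normalizer (K₀ : Set H) := by
    rw [Subgroup.normalizer_eq_top_iff.mpr hK₀n]
    exact le_top
  have hAcard : Nat.card A = p ^ n := by
    rw [Nat.card_zpowers, hn]
  have hcop : (Nat.card A).Coprime (Nat.card K₀) := by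
    rw [hAcard]
    exact Nat.Coprime.pow_left _ hcopK.symm
  have hAsolv : Group.IsSolvable A := Group.isSolvable_of_comm (by
    rintro ⟨a, ha⟩ ⟨b, hb⟩
    obtain ⟨i, rfl⟩ := Subgroup.mem_zpowers_iff.mp ha
    obtain ⟨j, rfl⟩ := Subgroup.mem_zpowers_iff.mp hb
    exact Subtype.ext ((Commute.refl x).zpow_zpow i j))
  have hexQ : ∃ (q : ℕ) (_ : Fact q.Prime) (P : Sylow q K₀),
      A ≤ Subgroup.normalizer (((P : Subgroup K₀).map K₀.subtype : Subgroup H) : Set H) ∧
      ¬ (P : Subgroup K₀).map K₀.subtype ≤ Subgroup.centralizer ({y} : Set H) := by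
    by_contra hcon
    push Not at hcon
    have h1 : K₀ ≤ Subgroup.centralizer ({y} : Set H) :=
      Cfsg.Agent.Lib.PGroup.AxLemma.le_of_invariant_sylows hAN hcop (Or.inl hAsolv)
        (fun q hq P hP => hcon q hq P hP)
    have h2 : y ∈ Subgroup.centralizer (K₀ : Set H) := by
      rw [Subgroup.mem_centralizer_iff]
      intro k hk
      exact Subgroup.mem_centralizer_singleton_iff.mp (h1 hk)
    have h3 : y ∈ K₀ := hC h2
    have h4 : y ^ Nat.card K₀ = 1 := by
      have := pow_card_eq_one' (x := (⟨y, h3⟩ : K₀))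
      exact congrArg Subtype.val this
    exact hy1 (Cfsg.Agent.Lib.FStar.eq_one_of_pow_of_coprime (p := p) hyp h4 hcopK)
  obtain ⟨q, hqF, P, hPA, hPy⟩ := hexQ
  have hq : q.Prime := hqF.out
  set Q : Subgroup H := (P : Subgroup K₀).map K₀.subtype with hQdef
  have hQq : IsPGroup q Q := P.isPGroup'.map K₀.subtype
  have hpq : p ≠ q := by
    rintro rfl
    apply hPy
    have hbot : (P : Subgroup K₀) = ⊥ := by
      apply Subgroup.eq_bot_of_card_eq
      refine (IsPGroup.card_eq_or_dvd P.isPGroup').resolve_right fun hd => ?_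
      have h1 : p ∣ Nat.card K₀ := hd.trans (Subgroup.card_subgroup_dvd_card _)
      exact hp.one_lt.ne' (Nat.Coprime.eq_one_of_dvd hcopK.symm h1)
    have hQbot : Q = ⊥ := by rw [hQdef, hbot, Subgroup.map_bot]
    rw [hQbot]
    exact bot_le
  have hxQ : x ∈ Subgroup.normalizer (Q : Set H) := hPA (Subgroup.mem_zpowers x)
  obtain ⟨g₀, hg₀Q, hg₀⟩ : ∃ g ∈ Q, y * g * y⁻¹ ≠ g := by
    by_contra hcon
    push Not at hcon
    apply hPy
    intro g hg
    rw [Subgroup.mem_centralizer_singleton_iff]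
    have := hcon g hg
    exact (mul_inv_eq_iff_eq_mul.mp this).symm
  obtain ⟨⟨a, b, hab⟩, k, m₀, hk, hm₀, hm₀n, harith, hbound⟩ :=
    group_step ρ hρ x hn0 hxn hr hlt hodd Q hq hpq hQq hxQ ⟨g₀, hg₀Q, hg₀⟩
  refine ⟨m₀, q, k, hm₀, hm₀n, hq, hk, harith, ?_, hbound⟩
  intro S hS
  obtain ⟨S₀, hS₀⟩ := hQq.exists_le_sylow
  obtain ⟨c, hc⟩ := MulAction.exists_smul_eq H S₀ S
  apply hab
  apply Subtype.ext
  have hmem : ∀ t : Q, c * (t : H) * c⁻¹ ∈ (S : Subgroup H) := by
    intro t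
    rw [← hc, Sylow.coe_subgroup_smul]
    exact (Subgroup.mem_smul_pointwise_iff_exists _ _ _).mpr ⟨t, hS₀ t.2, rfl⟩
  have h1 := hS.is_comm.comm ⟨_, hmem a⟩ ⟨_, hmem b⟩
  have h2 : c * (a : H) * c⁻¹ * (c * (b : H) * c⁻¹) = c * (b : H) * c⁻¹ * (c * (a : H) * c⁻¹) :=
    congrArg Subtype.val h1
  have e1 : ∀ u v : H, c * u * c⁻¹ * (c * v * c⁻¹) = c * (u * v) * c⁻¹ := fun u v => by group
  rw [e1, e1] at h2
  exact mul_left_cancel (mul_right_cancel h2)

end GroupStep

end Cfsg.Agent.Lib.PGroup.HB
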