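import Mathlib
import Cfsg.Agent.Lib.PGroup.HBMain
import Cfsg.Agent.Lib.Cl.OddLength
import Cfsg.Agent.Lib.Amalgam.Involves
import Cfsg.Agent.Lib.Fusion.ModelPSolv
import Cfsg.Agent.Lib.PGroup.PLength

/-!
# Sections shaped like the wreath product `C_p ≀ C_p`

An element of a `p`-group acting on a section with a Jordan block of full size `p` produces a section of the
shape of `C_p ≀ C_p`.
-/

set_option autoImplicit false

namespace Cfsg.Agent.Lib.PGroup.HB

open Subgroup Cfsg Cfsg.Agent.Lib.PGroup.HH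
open scoped BigOperators

section wr

universe u

variable {p : ℕ} [hp : Fact p.Prime]

/-- The shape of the wreath product `C_p ≀ C_p`. -/
def IsWr (p : ℕ) (W : Type*) [Group W] : Prop :=
  ∃ (B : Subgroup W) (t : W), B.Normal ∧ IsMulCommutative B ∧ (∀ b ∈ B, b ^ p = 1) ∧ Nat.card B = p ^ p ∧
    orderOf t = p ∧ t ∉ B ∧ Nat.card W = p ^ (p + 1) ∧
    Nat.card ↥(B ⊓ Subgroup.centralizer ({t} : Set W)) = p

theorem finrank_ker_pow_le {F W : Type*} [Field F] [AddCommGroup W] [Module F W] [FiniteDimensional F W]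
    (N : Module.End F W) (k : ℕ) :
    Module.finrank F (LinearMap.ker (N ^ k)) ≤ k * Module.finrank F (LinearMap.ker N) := by
  induction k with
  | zero =>
    have h : LinearMap.ker (N ^ 0) = ⊥ := by
      rw [pow_zero]
      exact LinearMap.ker_id
    rw [h]
    simp
  | succ k ih =>
    have hmem : ∀ v : LinearMap.ker (N ^ (k + 1)), N v ∈ LinearMap.ker (N ^ k) := by
      intro v
      have h1 := v.2
      rw [LinearMap.mem_ker] at h1 ⊢
      have e0 : N ^ (k + 1) = N ^ k * N := pow_succ N k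
      have e : ∀ w : W, (N ^ (k + 1)) w = (N ^ k) (N w) := by
        intro w
        rw [e0]
        rfl
      rw [← e]
      exact h1
    let r : LinearMap.ker (N ^ (k + 1)) →ₗ[F] LinearMap.ker (N ^ k) :=
      (N.domRestrict _).codRestrict _ hmem
    have h := LinearMap.finrank_range_add_finrank_ker r
    have h1 : Module.finrank F (LinearMap.range r) ≤ Module.finrank F (LinearMap.ker (N ^ k)) :=
      Submodule.finrank_le _
    have hm2 : ∀ v : LinearMap.ker r, ((v : LinearMap.ker (N ^ (k + 1))) : W) ∈ LinearMap.ker N := by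
      intro v
      have h2 := v.2
      rw [LinearMap.mem_ker] at h2 ⊢
      exact congrArg Subtype.val h2
    let i : LinearMap.ker r →ₗ[F] LinearMap.ker N :=
      LinearMap.codRestrict _ ((Submodule.subtype _).comp (Submodule.subtype _)) hm2
    have hi : Function.Injective i := by
      intro a b hab
      have h3 : (((a : LinearMap.ker (N ^ (k + 1))) : W)) = ((b : LinearMap.ker (N ^ (k + 1))) : W) :=
        congrArg (fun z : LinearMap.ker N => (z : W)) hab
      exact Subtype.ext (Subtype.ext h3)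
    have h2 := LinearMap.finrank_le_finrank_of_injective hi
    have e : (k + 1) * Module.finrank F (LinearMap.ker N) =
        k * Module.finrank F (LinearMap.ker N) + Module.finrank F (LinearMap.ker N) := by ring
    omega

variable {W₀ : Type*} [Group W₀]

theorem mul_pow_eTo (B : Subgroup W₀) [hB : B.Normal] [Fact (IsElem p B)] (x : W₀) (b : EMod p B) (n : ℕ) :
    (((eTo b : B) : W₀) * x) ^ n =
      ((eTo (∑ i ∈ Finset.range n, ((eEnd (p := p) (MulAut.conjNormal x)) ^ i) b) : B) : W₀) * x ^ n := by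
  induction n with
  | zero => simp [eTo_zero]
  | succ n ih =>
    rw [pow_succ', ih, Finset.sum_range_succ', pow_zero, Module.End.one_apply, add_comm, eTo_add, Subgroup.coe_mul]
    have h1 : ∑ i ∈ Finset.range n, ((eEnd (p := p) (MulAut.conjNormal x)) ^ (i + 1)) b =
        (eEnd (p := p) (MulAut.conjNormal x))
          (∑ i ∈ Finset.range n, ((eEnd (p := p) (MulAut.conjNormal x)) ^ i) b) := by
      rw [map_sum]
      refine Finset.sum_congr rfl fun i _ => ?_
      rw [pow_succ', Module.End.mul_apply]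
    rw [h1, eEnd_apply, eTo_eOf, MulAut.conjNormal_apply]
    group

theorem exists_split [Finite W₀] (B : Subgroup W₀) [hBn : B.Normal] (hc : IsElem p B) (hcard : Nat.card B = p ^ p)
    (x : W₀) (hxB : x ∉ B) (hxp : x ^ p ∈ B) (hCB : Nat.card ↥(B ⊓ centralizer ({x} : Set W₀)) = p) :
    ∃ t, orderOf t = p ∧ t ∉ B ∧ Nat.card ↥(B ⊓ centralizer ({t} : Set W₀)) = p := by
  classical
  haveI hf : Fact (IsElem p B) := ⟨hc⟩
  have hpp : p.Prime := Fact.out
  set E : Module.End (ZMod p) (EMod p B) := eEnd (MulAut.conjNormal x) with hE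
  have hEp : E ^ p = 1 := by
    rw [hE, ← map_pow, ← map_pow]
    have h : MulAut.conjNormal (x ^ p) = (1 : MulAut B) := by
      ext b
      rw [MulAut.conjNormal_apply, MulAut.one_apply]
      have := hc.1 ⟨x ^ p, hxp⟩ b
      have h2 := congrArg Subtype.val this
      simp only [Subgroup.coe_mul] at h2
      rw [h2]
      group
    rw [h, map_one]
  set N : Module.End (ZMod p) (EMod p B) := E - 1 with hN
  have hNp : N ^ p = 0 := by
    have h := sub_one_pow_char (F := ZMod p) (p := p) 1 E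
    rw [pow_one, hEp, sub_self] at h
    exact h
  haveI : Module.Finite (ZMod p) (EMod p B) := Module.Finite.of_finite
  have hdim : Module.finrank (ZMod p) (EMod p B) = p := by
    have h1 : Nat.card (EMod p B) = p ^ p := hcard
    rw [Module.natCard_eq_pow_finrank (K := ZMod p), Nat.card_zmod] at h1
    exact Nat.pow_right_injective hpp.two_le h1
  have hkerc : Nat.card (LinearMap.ker N) = p := by
    refine Eq.trans ?_ hCB
    refine (Nat.card_eq_of_bijective (fun c : ↥(B ⊓ centralizer ({x} : Set W₀)) =>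
      (⟨eOf p (⟨c.1, c.2.1⟩ : B), ?_⟩ : LinearMap.ker N)) ?_).symm
    · rw [LinearMap.mem_ker, hN, LinearMap.sub_apply, Module.End.one_apply, sub_eq_zero, hE, eEnd_apply]
      have h2 : x * c.1 = c.1 * x := by
        have h9 : (c : W₀) ∈ centralizer ({x} : Set W₀) := c.2.2
        rw [Subgroup.mem_centralizer_singleton_iff] at h9
        exact h9.symm
      have h3 : MulAut.conjNormal x (eTo (eOf p (⟨c.1, c.2.1⟩ : B))) = (⟨c.1, c.2.1⟩ : B) := by
        apply Subtype.ext
        rw [MulAut.conjNormal_apply, eTo_eOf]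
        simp only
        rw [h2]
        group
      rw [h3]
    · constructor
      · intro a b hab
        have h1 : eOf p (⟨a.1, a.2.1⟩ : B) = eOf p (⟨b.1, b.2.1⟩ : B) := congrArg Subtype.val hab
        have h2 : (⟨a.1, a.2.1⟩ : B) = ⟨b.1, b.2.1⟩ := h1
        exact Subtype.ext (congrArg (fun z : B => (z : W₀)) h2)
      · rintro ⟨v, hv⟩
        rw [LinearMap.mem_ker, hN, LinearMap.sub_apply, Module.End.one_apply, sub_eq_zero, hE, eEnd_apply] at hv
        have h3 : MulAut.conjNormal x (eTo v) = eTo v := hv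
        have h4 := congrArg Subtype.val h3
        rw [MulAut.conjNormal_apply] at h4
        have h9 : ((eTo v : B) : W₀) ∈ centralizer ({x} : Set W₀) := by
          rw [Subgroup.mem_centralizer_singleton_iff]
          rw [mul_inv_eq_iff_eq_mul] at h4
          exact h4.symm
        refine ⟨⟨(eTo v : B), (eTo v : B).2, h9⟩, rfl⟩
  have hkerd : Module.finrank (ZMod p) (LinearMap.ker N) = 1 := by
    rw [Module.natCard_eq_pow_finrank (K := ZMod p), Nat.card_zmod] at hkerc
    have h2 : p ^ Module.finrank (ZMod p) (LinearMap.ker N) = p ^ 1 := by rw [hkerc, pow_one]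
    exact Nat.pow_right_injective hpp.two_le h2
  have hNne : N ^ (p - 1) ≠ 0 := by
    intro h0
    have h1 := finrank_ker_pow_le N (p - 1)
    rw [h0, LinearMap.ker_zero, finrank_top, hdim, hkerd] at h1
    have := hpp.pos
    omega
  have hpe : p - 1 + 1 = p := Nat.sub_add_cancel hpp.pos
  obtain ⟨b₀, hb₀⟩ : ∃ b₀, (N ^ (p - 1)) b₀ ≠ 0 := by
    by_contra hcon
    push Not at hcon
    exact hNne (LinearMap.ext hcon)
  set c := (N ^ (p - 1)) b₀ with hcdef
  have hcN : c ∈ LinearMap.ker N := by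
    rw [LinearMap.mem_ker, hcdef, ← Module.End.mul_apply, ← pow_succ', hpe, hNp]
    rfl
  have hone := (finrank_eq_one_iff_of_nonzero' (⟨c, hcN⟩ : LinearMap.ker N)
    (fun h => hb₀ (congrArg Subtype.val h))).mp hkerd
  have hzN : eOf p (⟨x ^ p, hxp⟩ : B) ∈ LinearMap.ker N := by
    rw [LinearMap.mem_ker, hN, LinearMap.sub_apply, Module.End.one_apply, sub_eq_zero, hE, eEnd_apply]
    have h3 : MulAut.conjNormal x (eTo (eOf p (⟨x ^ p, hxp⟩ : B))) = (⟨x ^ p, hxp⟩ : B) := by
      apply Subtype.ext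
      rw [MulAut.conjNormal_apply, eTo_eOf]
      simp only
      rw [← pow_succ', pow_succ, mul_inv_cancel_right]
    rw [h3]
  obtain ⟨a, ha⟩ := hone ⟨_, hzN⟩
  have ha' : a • c = eOf p (⟨x ^ p, hxp⟩ : B) := congrArg Subtype.val ha
  set b₁ : EMod p B := (-a) • b₀ with hb₁
  have hb₁N : (N ^ (p - 1)) b₁ = -eOf p (⟨x ^ p, hxp⟩ : B) := by
    rw [hb₁, map_smul, neg_smul, ← hcdef, ha']
  refine ⟨((eTo b₁ : B) : W₀) * x, ?_, ?_, ?_⟩
  · have hsum : ∑ i ∈ Finset.range p, (E ^ i) b₁ = -eOf p (⟨x ^ p, hxp⟩ : B) := by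
      have h1 := geom_eq_sub_pow (F := ZMod p) (p := p) 1 E
      rw [pow_one] at h1
      rw [← hb₁N, hN, ← h1, LinearMap.sum_apply]
    have ht := mul_pow_eTo (p := p) B x b₁ p
    rw [← hE, hsum] at ht
    have h2 : eTo (-eOf p (⟨x ^ p, hxp⟩ : B)) = (⟨x ^ p, hxp⟩ : B)⁻¹ := by
      rw [eq_inv_iff_mul_eq_one]
      have h3 : eTo (-eOf p (⟨x ^ p, hxp⟩ : B)) * (⟨x ^ p, hxp⟩ : B) =
          eTo (-eOf p (⟨x ^ p, hxp⟩ : B) + eOf p (⟨x ^ p, hxp⟩ : B)) := rfl
      rw [h3, neg_add_cancel, eTo_zero]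
    rw [h2] at ht
    apply orderOf_eq_prime
    · rw [ht]
      simp
    · intro h1
      apply hxB
      have h3 : x = ((eTo b₁ : B) : W₀)⁻¹ := eq_inv_of_mul_eq_one_right h1
      rw [h3]
      exact B.inv_mem (eTo b₁ : B).2
  · intro h1
    apply hxB
    have h3 : x = ((eTo b₁ : B) : W₀)⁻¹ * (((eTo b₁ : B) : W₀) * x) := by group
    rw [h3]
    exact B.mul_mem (B.inv_mem (eTo b₁ : B).2) h1
  · have hset : B ⊓ centralizer ({((eTo b₁ : B) : W₀) * x} : Set W₀) = B ⊓ centralizer ({x} : Set W₀) := by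
      ext a
      simp only [Subgroup.mem_inf, Subgroup.mem_centralizer_singleton_iff]
      refine and_congr_right fun ha => ?_
      have hcomm : a * ((eTo b₁ : B) : W₀) = ((eTo b₁ : B) : W₀) * a :=
        congrArg Subtype.val (hc.1 ⟨a, ha⟩ (eTo b₁ : B))
      constructor
      · intro h
        have h1 : ((eTo b₁ : B) : W₀) * (a * x) = ((eTo b₁ : B) : W₀) * (x * a) := by
          calc ((eTo b₁ : B) : W₀) * (a * x) = a * ((eTo b₁ : B) : W₀) * x := by rw [hcomm, mul_assoc]
            _ = a * (((eTo b₁ : B) : W₀) * x) := by rw [mul_assoc]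
            _ = ((eTo b₁ : B) : W₀) * x * a := h
            _ = _ := by rw [mul_assoc]
        exact mul_left_cancel h1
      · intro h
        calc a * (((eTo b₁ : B) : W₀) * x) = a * ((eTo b₁ : B) : W₀) * x := by rw [mul_assoc]
          _ = ((eTo b₁ : B) : W₀) * (a * x) := by rw [hcomm, mul_assoc]
          _ = ((eTo b₁ : B) : W₀) * (x * a) := by rw [h]
          _ = _ := by rw [mul_assoc]
    rw [hset]
    exact hCB

theorem index_eq_of_gen {Y : Type*} [Group Y] (F : Subgroup Y) [F.Normal] (x : Y) (hx : x ∉ F) (hxp : x ^ p ∈ F)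
    (hgen : F ⊔ zpowers x = ⊤) : F.index = p := by
  have hm : ((x : Y) : Y ⧸ F) ^ p = 1 := by
    rw [← QuotientGroup.mk_pow]
    exact (QuotientGroup.eq_one_iff _).2 hxp
  have hne : ((x : Y) : Y ⧸ F) ≠ 1 := fun h => hx ((QuotientGroup.eq_one_iff _).1 h)
  have ho : orderOf ((x : Y) : Y ⧸ F) = p := orderOf_eq_prime hm hne
  have htop : zpowers ((x : Y) : Y ⧸ F) = ⊤ := by
    have h1 := congrArg (Subgroup.map (QuotientGroup.mk' F)) hgen
    rw [Subgroup.map_sup, Subgroup.map_top_of_surjective _ (QuotientGroup.mk'_surjective F),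
      MonoidHom.map_zpowers, QuotientGroup.map_mk'_self, bot_sup_eq] at h1
    exact h1
  rw [Subgroup.index_eq_card]
  have h2 : Nat.card (Y ⧸ F) = Nat.card (zpowers ((x : Y) : Y ⧸ F)) := by
    rw [htop]
    exact (Nat.card_congr Subgroup.topEquiv.toEquiv).symm
  rw [h2, Nat.card_zpowers, ho]

/-- The shift of coordinates. -/
def shiftA (p : ℕ) : (Fin p → ZMod p) →+ (Fin p → ZMod p) where
  toFun a i := if h : i.1 + 1 < p then a ⟨i.1 + 1, h⟩ else 0
  map_zero' := by
    ext i
    simp
  map_add' a b := by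
    ext i
    by_cases h : i.1 + 1 < p <;> simp [h]

theorem shiftA_apply (a : Fin p → ZMod p) (i : Fin p) :
    shiftA p a i = if h : i.1 + 1 < p then a ⟨i.1 + 1, h⟩ else 0 := rfl

theorem card_shiftA_ker : Nat.card {a : Fin p → ZMod p // shiftA p a = 0} = p := by
  classical
  have hpos : 0 < p := (Fact.out : p.Prime).pos
  have h : Nat.card {a : Fin p → ZMod p // shiftA p a = 0} = Nat.card (ZMod p) := by
    refine Nat.card_eq_of_bijective (fun a => a.1 ⟨0, hpos⟩) ⟨?_, ?_⟩
    · rintro ⟨a, ha⟩ ⟨b, hb⟩ hab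
      apply Subtype.ext
      funext i
      rcases Nat.eq_zero_or_pos i.1 with h0 | h0
      · have e : i = ⟨0, hpos⟩ := Fin.ext h0
        rw [e]
        exact hab
      · have hi : (i.1 - 1) + 1 < p := by
          have := i.2
          omega
        have h1 := congrFun ha ⟨i.1 - 1, by omega⟩
        have h2 := congrFun hb ⟨i.1 - 1, by omega⟩
        rw [shiftA_apply, dif_pos hi] at h1 h2
        have e : (⟨i.1 - 1 + 1, hi⟩ : Fin p) = i := Fin.ext (Nat.sub_add_cancel h0)
        rw [e] at h1 h2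
        show a i = b i
        rw [h1, h2]
    · intro c
      refine ⟨⟨fun i => if i.1 = 0 then c else 0, ?_⟩, ?_⟩
      · funext i
        rw [shiftA_apply]
        by_cases h : i.1 + 1 < p
        · rw [dif_pos h]
          simp
        · rw [dif_neg h]
          rfl
      · simp
  rw [h, Nat.card_zmod]

theorem card_coord : Nat.card (Fin p → ZMod p) = p ^ p := by
  rw [Nat.card_fun, Nat.card_zmod, Nat.card_fin]

/-- Coordinates of a full Jordan block. -/
theorem exists_coord {V : Type*} [AddCommGroup V] [Module (ZMod p) V] [FiniteDimensional (ZMod p) V]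
    (N : Module.End (ZMod p) V) (hNp : N ^ p = 0) (hN : N ^ (p - 1) ≠ 0) :
    ∃ L : V →ₗ[ZMod p] (Fin p → ZMod p), Function.Surjective L ∧ ∀ v, L (N v) = shiftA p (L v) := by
  classical
  have hpp : p.Prime := Fact.out
  have hpos := hpp.pos
  obtain ⟨v₀, hv₀⟩ : ∃ v₀, (N ^ (p - 1)) v₀ ≠ 0 := by
    by_contra hcon
    push Not at hcon
    exact hN (LinearMap.ext hcon)
  obtain ⟨φ, hφ⟩ : ∃ φ : Module.Dual (ZMod p) V, φ ((N ^ (p - 1)) v₀) ≠ 0 := by
    by_contra hcon
    push Not at hcon
    exact hv₀ ((Module.forall_dual_apply_eq_zero_iff (ZMod p) _).mp hcon)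
  let L : V →ₗ[ZMod p] (Fin p → ZMod p) := LinearMap.pi fun i => φ ∘ₗ (N ^ i.1)
  have hL : ∀ v i, L v i = φ ((N ^ i.1) v) := fun _ _ => rfl
  have hzero : ∀ k, p ≤ k → N ^ k = 0 := by
    intro k hk
    obtain ⟨m, rfl⟩ := Nat.exists_eq_add_of_le hk
    rw [pow_add, hNp, zero_mul]
  refine ⟨L, ?_, ?_⟩
  · have key : ∀ j : ℕ, ∀ a : Fin p → ZMod p, (∀ i : Fin p, j ≤ i.1 → a i = 0) → a ∈ LinearMap.range L := by
      intro j
      induction j with
      | zero =>
        intro a ha
        have h0 : a = 0 := funext fun i => ha i (Nat.zero_le _)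
        rw [h0]
        exact Submodule.zero_mem _
      | succ j ih =>
        intro a ha
        by_cases hj : j < p
        · set c := φ ((N ^ (p - 1)) v₀) with hc
          set u : V := (a ⟨j, hj⟩ / c) • (N ^ (p - 1 - j)) v₀ with hu
          have hLu : ∀ i, L u i = (a ⟨j, hj⟩ / c) * φ ((N ^ (i.1 + (p - 1 - j))) v₀) := by
            intro i
            rw [hL, hu, map_smul, map_smul, pow_add, Module.End.mul_apply, smul_eq_mul]
          have h1 : a - L u ∈ LinearMap.range L := by
            apply ih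
            intro i hi
            rw [Pi.sub_apply, hLu]
            rcases Nat.eq_or_lt_of_le hi with h2 | h2
            · have e : i = ⟨j, hj⟩ := Fin.ext h2.symm
              have e2 : i.1 + (p - 1 - j) = p - 1 := by
                rw [e]
                simp only
                omega
              rw [e2, e, ← hc, div_mul_cancel₀ _ hφ, sub_self]
            · rw [ha i (by omega), hzero _ (by omega)]
              simp
          have h2 : a = (a - L u) + L u := by abel
          rw [h2]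
          exact Submodule.add_mem _ h1 (LinearMap.mem_range_self L u)
        · apply ih
          intro i hi
          exact absurd (lt_of_le_of_lt hi i.2) hj
    intro a
    exact key p a (fun i hi => absurd i.2 (not_lt.mpr hi))
  · intro v
    funext i
    rw [hL, shiftA_apply]
    by_cases h : i.1 + 1 < p
    · rw [dif_pos h, hL, pow_succ]
      rfl
    · rw [dif_neg h]
      have e : (N ^ i.1) (N v) = (N ^ (i.1 + 1)) v := by
        rw [pow_succ]
        rfl
      rw [e, hzero _ (not_lt.mp h)]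
      simp

theorem isWr_of_mulEquiv {W W' : Type*} [Group W] [Group W'] (e : W ≃* W') (h : IsWr p W) : IsWr p W' := by
  obtain ⟨B, t, hn, hc, he, hcB, ho, htB, hcW, hcC⟩ := h
  have hcomap : ∀ b : W', b ∈ B.map e.toMonoidHom ↔ e.symm b ∈ B := by
    intro b
    constructor
    · rintro ⟨a, ha, rfl⟩
      simpa using ha
    · intro hb
      exact ⟨e.symm b, hb, by simp⟩
  refine ⟨B.map e.toMonoidHom, e t, Subgroup.Normal.map hn _ e.surjective, ?_, ?_, ?_, ?_, ?_, ?_, ?_⟩
  · refine ⟨⟨fun a b => ?_⟩⟩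
    obtain ⟨a, a', ha, rfl⟩ := a
    obtain ⟨b, b', hb, rfl⟩ := b
    apply Subtype.ext
    have h1 := hc.is_comm.comm ⟨a', ha⟩ ⟨b', hb⟩
    have h2 : a' * b' = b' * a' := congrArg Subtype.val h1
    show e a' * e b' = e b' * e a'
    rw [← map_mul, ← map_mul, h2]
  · rintro _ ⟨a, ha, rfl⟩
    have h1 := he a ha
    show (e a) ^ p = 1
    rw [← map_pow, h1, map_one]
  · rw [← hcB]
    exact (Nat.card_congr (B.equivMapOfInjective e.toMonoidHom e.injective).toEquiv).symm
  · rw [MulEquiv.orderOf_eq, ho]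
  · intro h1
    apply htB
    have h2 := (hcomap _).mp h1
    simpa using h2
  · rw [← hcW]
    exact (Nat.card_congr e.toEquiv).symm
  · rw [← hcC]
    have hset : B.map e.toMonoidHom ⊓ centralizer ({e t} : Set W') =
        (B ⊓ centralizer ({t} : Set W)).map e.toMonoidHom := by
      ext b
      simp only [Subgroup.mem_inf, Subgroup.mem_centralizer_singleton_iff, hcomap]
      constructor
      · rintro ⟨h1, h2⟩
        have h3 : e.symm b * t = t * e.symm b := by
          apply e.injective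
          rw [map_mul, map_mul, e.apply_symm_apply, h2]
        have h9 : e.symm b ∈ centralizer ({t} : Set W) := by
          rw [Subgroup.mem_centralizer_singleton_iff]
          exact h3
        exact ⟨e.symm b, ⟨h1, h9⟩, by simp⟩
      · rintro ⟨a, ⟨h1, h2⟩, rfl⟩
        have h9 : a ∈ centralizer ({t} : Set W) := h2
        rw [Subgroup.mem_centralizer_singleton_iff] at h9
        refine ⟨by simpa using h1, ?_⟩
        show e a * e t = e t * e a
        rw [← map_mul, ← map_mul, h9]
    rw [hset]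
    exact (Nat.card_congr ((B ⊓ centralizer ({t} : Set W)).equivMapOfInjective e.toMonoidHom e.injective).toEquiv).symm

/-- A section from a hom onto the coordinate space. -/
theorem isWr_quotient {Y : Type*} [Group Y] [Finite Y] (F : Subgroup Y) [hF : F.Normal] (x : Y) (hx : x ∉ F)
    (hxp : x ^ p ∈ F) (hgen : F ⊔ zpowers x = ⊤) {A : Type*} [AddCommGroup A] [Finite A]
    (hAp : ∀ a : A, p • a = 0) (g : ↥F →* Multiplicative A) (hg : Function.Surjective g) (s : A →+ A)
    (hs : ∀ f : F, Multiplicative.toAdd (g (MulAut.conjNormal x f)) =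
      Multiplicative.toAdd (g f) + s (Multiplicative.toAdd (g f)))
    (hA : Nat.card A = p ^ p) (hker : Nat.card {a : A // s a = 0} = p) :
    ∃ (R : Subgroup Y) (_ : R.Normal), IsWr p (Y ⧸ R) := by
  classical
  have hpp : p.Prime := Fact.out
  -- the action on `A` is bijective
  let σ : A → A := fun a => a + s a
  have hσ : ∀ f : F, g (MulAut.conjNormal x f) = Multiplicative.ofAdd (σ (Multiplicative.toAdd (g f))) := hs
  have hσs : Function.Surjective σ := by
    intro a
    obtain ⟨f, hf⟩ := hg (Multiplicative.ofAdd a)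
    refine ⟨Multiplicative.toAdd (g ((MulAut.conjNormal x)⁻¹ f)), ?_⟩
    have h1 := hσ ((MulAut.conjNormal x)⁻¹ f)
    rw [MulAut.apply_inv_self, hf] at h1
    exact (Multiplicative.ofAdd.injective h1).symm
  have hσi : Function.Injective σ := Finite.injective_iff_surjective.mpr hσs
  have hσ0 : σ 0 = 0 := by simp [σ]
  -- the kernel
  set R : Subgroup Y := g.ker.map F.subtype with hR
  have hRF : R ≤ F := by
    rintro _ ⟨r, _, rfl⟩
    exact r.2
  have hmemR : ∀ f : F, (f : Y) ∈ R ↔ g f = 1 := by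
    intro f
    constructor
    · rintro ⟨r, hr, hrf⟩
      have : r = f := Subtype.ext hrf
      rw [← this]
      exact hr
    · intro h
      exact ⟨f, h, rfl⟩
  have hRn : R.Normal := by
    rw [← Subgroup.normalizer_eq_top_iff, eq_top_iff, ← hgen]
    refine sup_le ?_ ?_
    · intro f hf
      rw [Subgroup.mem_normalizer_iff]
      intro r
      have hconj : ∀ r' : F, g (⟨f, hf⟩ * r' * (⟨f, hf⟩ : F)⁻¹) = g r' := by
        intro r'
        rw [map_mul, map_mul, map_inv, mul_comm, inv_mul_cancel_left]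
      constructor
      · intro hr
        have hrF := hRF hr
        have h1 := (hmemR ⟨r, hrF⟩).mp hr
        have h2 := hconj ⟨r, hrF⟩
        rw [h1] at h2
        exact (hmemR _).mpr h2
      · intro hr
        have hrF0 := hRF hr
        have hrF : r ∈ F := by
          have : r = f⁻¹ * (f * r * f⁻¹) * f := by group
          rw [this]
          exact F.mul_mem (F.mul_mem (F.inv_mem hf) hrF0) hf
        have h1 := (hmemR ⟨_, hrF0⟩).mp hr
        have h2 := hconj ⟨r, hrF⟩
        have h3 : (⟨f * r * f⁻¹, hrF0⟩ : F) = ⟨f, hf⟩ * ⟨r, hrF⟩ * (⟨f, hf⟩ : F)⁻¹ := rfl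
        rw [h3, h2] at h1
        exact (hmemR _).mpr h1
    · rw [Subgroup.zpowers_le, Subgroup.mem_normalizer_iff]
      intro r
      constructor
      · intro hr
        have hrF := hRF hr
        have h1 := (hmemR ⟨r, hrF⟩).mp hr
        have h2 := hσ ⟨r, hrF⟩
        rw [h1] at h2
        have h3 : g (MulAut.conjNormal x ⟨r, hrF⟩) = 1 := by
          rw [h2]
          show Multiplicative.ofAdd (σ 0) = 1
          rw [hσ0]
          rfl
        have h4 := (hmemR _).mpr h3
        rwa [MulAut.conjNormal_apply] at h4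
      · intro hr
        have hrF0 := hRF hr
        have hrF : r ∈ F := by
          have : r = x⁻¹ * (x * r * x⁻¹) * x := by group
          rw [this]
          have := hF.conj_mem _ hrF0 x⁻¹
          simpa using this
        have h1 := (hmemR ⟨_, hrF0⟩).mp hr
        have h2 := hσ ⟨r, hrF⟩
        have h3 : MulAut.conjNormal x (⟨r, hrF⟩ : F) = ⟨x * r * x⁻¹, hrF0⟩ := by
          apply Subtype.ext
          rw [MulAut.conjNormal_apply]
        rw [h3, h1] at h2
        have h4 : σ (Multiplicative.toAdd (g ⟨r, hrF⟩)) = σ 0 := by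
          rw [hσ0]
          exact (Multiplicative.ofAdd.injective h2).symm
        have h5 := hσi h4
        exact (hmemR _).mpr h5
  refine ⟨R, hRn, ?_⟩
  -- the quotient
  set π : Y →* Y ⧸ R := QuotientGroup.mk' R with hπ
  have hπs : Function.Surjective π := QuotientGroup.mk'_surjective R
  have hmk : ∀ f₁ f₂ : F, π f₁ = π f₂ ↔ g f₁ = g f₂ := by
    intro f₁ f₂
    constructor
    · intro h
      have h1 : ((f₁ : Y))⁻¹ * f₂ ∈ R := QuotientGroup.eq.mp h
      have h2 := (hmemR (f₁⁻¹ * f₂)).mp h1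
      rw [map_mul, map_inv, inv_mul_eq_one] at h2
      exact h2
    · intro h
      apply QuotientGroup.eq.mpr
      have h2 : g (f₁⁻¹ * f₂) = 1 := by
        rw [map_mul, map_inv, inv_mul_eq_one]
        exact h
      exact (hmemR (f₁⁻¹ * f₂)).mpr h2
  set B : Subgroup (Y ⧸ R) := F.map π with hB
  have hBn : B.Normal := Subgroup.Normal.map hF π hπs
  have hBcomm : ∀ a b : B, a * b = b * a := by
    rintro ⟨_, a, ha, rfl⟩ ⟨_, b, hb, rfl⟩
    apply Subtype.ext
    show π a * π b = π b * π a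
    rw [← map_mul, ← map_mul]
    have h1 := (hmk (⟨a, ha⟩ * ⟨b, hb⟩) (⟨b, hb⟩ * ⟨a, ha⟩)).mpr (by rw [map_mul, map_mul, mul_comm])
    exact h1
  have hBexp : ∀ b ∈ B, b ^ p = 1 := by
    rintro _ ⟨a, ha, rfl⟩
    rw [← map_pow]
    have h1 : π ((⟨a, ha⟩ ^ p : F) : Y) = π ((1 : F) : Y) := by
      rw [hmk, map_pow, map_one]
      apply Multiplicative.toAdd.injective
      rw [toAdd_pow]
      exact hAp _
    simpa using h1
  -- counting
  let pre : A → F := fun a => Classical.choose (hg (Multiplicative.ofAdd a))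
  have hpre : ∀ a, g (pre a) = Multiplicative.ofAdd a := fun a => Classical.choose_spec (hg _)
  have hcount : ∀ (U : Subgroup (Y ⧸ R)) (S : Set A), U ≤ B →
      (∀ f : F, (π f ∈ U ↔ Multiplicative.toAdd (g f) ∈ S)) → Nat.card U = Nat.card S := by
    intro U S hUB hUS
    refine (Nat.card_eq_of_bijective (fun a : S => (⟨π (pre a.1), ?_⟩ : U)) ⟨?_, ?_⟩).symm
    · rw [hUS, hpre]
      exact a.2
    · intro a b hab
      have h1 : π (pre a.1) = π (pre b.1) := congrArg Subtype.val hab
      rw [hmk, hpre, hpre] at h1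
      exact Subtype.ext (Multiplicative.ofAdd.injective h1)
    · rintro ⟨u, hu⟩
      obtain ⟨f, hf, rfl⟩ := hUB hu
      have h1 := (hUS ⟨f, hf⟩).mp hu
      refine ⟨⟨_, h1⟩, Subtype.ext ?_⟩
      show π (pre _) = π f
      have h2 := (hmk (pre (Multiplicative.toAdd (g ⟨f, hf⟩))) ⟨f, hf⟩).mpr (by rw [hpre]; rfl)
      exact h2
  have hBcard : Nat.card B = p ^ p := by
    have h1 := hcount B Set.univ le_rfl (fun f => by
      simp only [Set.mem_univ, iff_true]
      exact ⟨f, f.2, rfl⟩)
    rw [h1, Nat.card_coe_set_eq, Set.ncard_univ, hA]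
  set x' := π x with hx'
  have hx'B : x' ∉ B := by
    rintro ⟨f, hf, hfx⟩
    have h1 : f⁻¹ * x ∈ R := QuotientGroup.eq.mp hfx
    have h2 := F.mul_mem hf (hRF h1)
    rw [mul_inv_cancel_left] at h2
    exact hx h2
  have hx'p : x' ^ p ∈ B := by
    rw [hx', ← map_pow]
    exact ⟨_, hxp, rfl⟩
  have hgen' : B ⊔ zpowers x' = ⊤ := by
    have h1 := congrArg (Subgroup.map π) hgen
    rw [Subgroup.map_sup, Subgroup.map_top_of_surjective _ hπs, MonoidHom.map_zpowers] at h1
    exact h1
  haveI hBn' : B.Normal := hBn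
  have hidx := index_eq_of_gen (p := p) B x' hx'B hx'p hgen'
  have hWcard : Nat.card (Y ⧸ R) = p ^ (p + 1) := by
    rw [← Subgroup.card_mul_index B, hBcard, hidx, pow_succ]
  have hCcard : Nat.card ↥(B ⊓ centralizer ({x'} : Set (Y ⧸ R))) = p := by
    have h1 := hcount (B ⊓ centralizer ({x'} : Set (Y ⧸ R))) {a | s a = 0} inf_le_left (fun f => by
      simp only [Set.mem_setOf_eq, Subgroup.mem_inf, Subgroup.mem_centralizer_singleton_iff]
      constructor
      · rintro ⟨_, h2⟩
        have h3 : π (MulAut.conjNormal x f : F) = π f := by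
          rw [MulAut.conjNormal_apply, map_mul, map_mul, map_inv, ← hx', ← h2, mul_inv_cancel_right]
        rw [hmk, hσ] at h3
        have h4 : σ (Multiplicative.toAdd (g f)) = Multiplicative.toAdd (g f) :=
          Multiplicative.ofAdd.injective h3
        simpa [σ] using h4
      · intro h2
        refine ⟨⟨f, f.2, rfl⟩, ?_⟩
        have h3 : π (MulAut.conjNormal x f : F) = π f := by
          rw [hmk, hσ]
          apply Multiplicative.toAdd.injective
          show σ _ = _
          simp [σ, h2]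
        rw [MulAut.conjNormal_apply, map_mul, map_mul, map_inv, ← hx', mul_inv_eq_iff_eq_mul] at h3
        exact h3.symm)
    rw [h1]
    exact hker
  obtain ⟨t, ht1, ht2, ht3⟩ := exists_split (p := p) B ⟨hBcomm, fun b => Subtype.ext (hBexp b b.2)⟩ hBcard x' hx'B hx'p hCcard
  exact ⟨B, t, hBn, ⟨⟨hBcomm⟩⟩, hBexp, hBcard, ht1, ht2, hWcard, ht3⟩

/-- A carrier without any structure. -/
def CopyT (n : ℕ) : Type := Fin n

/-- A copy of a finite group in the lowest universe. -/
theorem exists_type_copy {W₀ : Type*} [Group W₀] [Finite W₀] :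
    ∃ (W : Type) (_ : Group W) (_ : Finite W), Nonempty (W₀ ≃* W) := by
  obtain ⟨n, ⟨e⟩⟩ := Finite.exists_equiv_fin W₀
  let e' : W₀ ≃ CopyT n := e
  letI : Group (CopyT n) := e'.symm.group
  haveI : Finite (CopyT n) := inferInstanceAs (Finite (Fin n))
  exact ⟨CopyT n, e'.symm.group, inferInstance, ⟨(e'.symm.mulEquiv).symm⟩⟩

/-- A full Jordan block on a section of a finite group gives a section of the shape of `C_p ≀ C_p`. -/
theorem exists_involved {T : Type*} [Group T] [Finite T] (F : Subgroup T) (x : T) (hxn : x ∈ normalizer (F : Set T))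
    (hx : x ∉ F) (hxp : x ^ p ∈ F) {W₀ : Type*} [CommGroup W₀] [Finite W₀] [hf : Fact (IsElem p W₀)]
    (g₀ : ↥F →* W₀) (hg₀ : Function.Surjective g₀) (σ : MulAut W₀)
    (hσ : ∀ (f : F) (h : x * f * x⁻¹ ∈ F), g₀ ⟨x * f * x⁻¹, h⟩ = σ (g₀ f)) (hσp : σ ^ p = 1)
    (hN : (eEnd (p := p) σ - 1) ^ (p - 1) ≠ 0) :
    ∃ (W : Type) (_ : Group W) (_ : Finite W), IsWr p W ∧ Cfsg.Involves W T := by
  classical
  set E : Module.End (ZMod p) (EMod p W₀) := eEnd σ with hE
  have hNp : (E - 1) ^ p = 0 := by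
    have h := sub_one_pow_char (F := ZMod p) (p := p) 1 E
    rw [pow_one] at h
    rw [h, hE, ← map_pow, hσp, map_one, sub_self]
  haveI : Module.Finite (ZMod p) (EMod p W₀) := Module.Finite.of_finite
  obtain ⟨L, hLs, hLN⟩ := exists_coord (E - 1) hNp hN
  let κ : W₀ →* Multiplicative (Fin p → ZMod p) :=
    { toFun := fun w => Multiplicative.ofAdd (L (eOf p w))
      map_one' := by
        have h : eOf p (1 : W₀) = 0 := rfl
        rw [h, map_zero]
        rfl
      map_mul' := fun a b => by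
        have h : eOf p (a * b) = eOf p a + eOf p b := rfl
        rw [h, map_add]
        rfl }
  have hκ : ∀ w, Multiplicative.toAdd (κ w) = L (eOf p w) := fun _ => rfl
  have hκs : Function.Surjective κ := by
    intro a
    obtain ⟨v, hv⟩ := hLs (Multiplicative.toAdd a)
    refine ⟨eTo v, ?_⟩
    apply Multiplicative.toAdd.injective
    rw [hκ, eOf_eTo, hv]
  have hκσ : ∀ w, Multiplicative.toAdd (κ (σ w)) =
      Multiplicative.toAdd (κ w) + shiftA p (Multiplicative.toAdd (κ w)) := by
    intro w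
    rw [hκ, hκ]
    have h1 : eOf p (σ w) = E (eOf p w) := rfl
    have h2 : E (eOf p w) = (E - 1) (eOf p w) + eOf p w := by
      rw [LinearMap.sub_apply, Module.End.one_apply, sub_add_cancel]
    rw [h1, h2, map_add, hLN, add_comm]
  set K : Subgroup T := F ⊔ zpowers x with hK
  have hFK : F ≤ K := le_sup_left
  have hxK : x ∈ K := (le_sup_right : zpowers x ≤ K) (mem_zpowers x)
  have hKn : K ≤ normalizer (F : Set T) :=
    sup_le Subgroup.le_normalizer ((Subgroup.zpowers_le).2 hxn)
  haveI hF' : (F.subgroupOf K).Normal := Subgroup.normal_subgroupOf_of_le_normalizer hKn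
  set x' : K := ⟨x, hxK⟩ with hx'
  have hx'F : x' ∉ F.subgroupOf K := fun h => hx (Subgroup.mem_subgroupOf.mp h)
  have hx'p : x' ^ p ∈ F.subgroupOf K := by
    rw [Subgroup.mem_subgroupOf]
    exact hxp
  have hgen : F.subgroupOf K ⊔ zpowers x' = ⊤ := by
    apply Subgroup.map_injective K.subtype_injective
    rw [Subgroup.map_sup, Subgroup.map_subgroupOf_eq_of_le hFK, MonoidHom.map_zpowers, ← MonoidHom.range_eq_map,
      Subgroup.range_subtype]
    rfl
  let e : ↥(F.subgroupOf K) ≃* F := Subgroup.subgroupOfEquivOfLe hFK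
  have hec : ∀ f, ((e f : F) : T) = ((f : K) : T) := fun _ => rfl
  let g : ↥(F.subgroupOf K) →* Multiplicative (Fin p → ZMod p) := κ.comp (g₀.comp e.toMonoidHom)
  have hgs : Function.Surjective g := hκs.comp (hg₀.comp e.surjective)
  have hgx : ∀ f : ↥(F.subgroupOf K), Multiplicative.toAdd (g (MulAut.conjNormal x' f)) =
      Multiplicative.toAdd (g f) + shiftA p (Multiplicative.toAdd (g f)) := by
    intro f
    have hmem : x * ((e f : F) : T) * x⁻¹ ∈ F := (Subgroup.mem_normalizer_iff.mp hxn _).mp (e f).2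
    have h1 : e (MulAut.conjNormal x' f) = ⟨x * (e f : F) * x⁻¹, hmem⟩ := by
      apply Subtype.ext
      rw [hec, MulAut.conjNormal_apply]
      rfl
    show Multiplicative.toAdd (κ (g₀ (e (MulAut.conjNormal x' f)))) =
      Multiplicative.toAdd (κ (g₀ (e f))) + shiftA p (Multiplicative.toAdd (κ (g₀ (e f))))
    rw [h1, hσ, hκσ]
  have hAp : ∀ a : Fin p → ZMod p, p • a = 0 := by
    intro a
    funext i
    simp
  obtain ⟨R, hR, hRW⟩ := isWr_quotient (p := p) (F.subgroupOf K) x' hx'F hx'p hgen hAp g hgs (shiftA p) hgx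
    card_coord card_shiftA_ker
  obtain ⟨W, grp, fin, ⟨ψ⟩⟩ := exists_type_copy (W₀ := ↥K ⧸ R)
  refine ⟨W, grp, fin, isWr_of_mulEquiv ψ hRW, ?_⟩
  exact Cfsg.Agent.Lib.Amalgam.involves_of_surjective K (ψ.toMonoidHom.comp (QuotientGroup.mk' R))
    (ψ.surjective.comp (QuotientGroup.mk'_surjective R))

open Cfsg.Agent.Lib.Core in
/-- Hall--Higman: a full Jordan block on the Frattini quotient of `O_p`. -/
theorem exists_full_block {X : Type u} [Group X] [Finite X] (hp2 : p ≠ 2) (hnf : ¬ ∃ k : ℕ, p = 2 ^ k + 1)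
    (hsol : IsPSolvable p X) (hO : pPrimeCore p X = ⊥) (y : X) (hy : y ∉ pCore p X) (hyp : y ^ p ∈ pCore p X) :
    ∃ (W₀ : Type u) (_ : CommGroup W₀) (_ : Finite W₀) (_ : Fact (IsElem p W₀)) (π : pCore p X →* W₀)
      (σ₀ : X →* MulAut W₀), Function.Surjective π ∧
      (∀ (x : X) (v : pCore p X), σ₀ x (π v) = π (MulAut.conjNormal x v)) ∧ (σ₀ y) ^ p = 1 ∧
      (eEnd (p := p) (σ₀ y) - 1) ^ (p - 1) ≠ 0 := by
  classical
  have hpp : p.Prime := Fact.out
  set V : Subgroup X := pCore p X with hVdef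
  haveI hVn : V.Normal := pCore_normal p X
  have hVp : IsPGroup p V := pCore_isPGroup p X
  have hcent : centralizer (V : Set X) ≤ V :=
    Cfsg.Agent.Lib.PSolv.centralizer_pCore_le (Cfsg.Agent.Lib.PSolv.pStep_of_isPSolvable hpp hsol) hO
  obtain ⟨W₀, inst, π, σ₀, hπ, hW, hσ₀, hker⟩ := Cfsg.Agent.Lib.Cl.exists_frattini_module p V hVp
  haveI hfin : Finite W₀ := Finite.of_surjective π hπ
  haveI hfact : Fact (IsElem p W₀) := ⟨⟨mul_comm, hW⟩⟩
  have hVtriv : V ≤ σ₀.ker := by
    intro x hx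
    rw [MonoidHom.mem_ker]
    ext w
    obtain ⟨v, rfl⟩ := hπ w
    rw [hσ₀, MulAut.one_apply]
    have h1 : MulAut.conjNormal x v = ⟨x, hx⟩ * v * (⟨x, hx⟩ : V)⁻¹ := by
      apply Subtype.ext
      simp [MulAut.conjNormal_apply]
    rw [h1, map_mul, map_mul, map_inv, mul_comm (π _) (π v), mul_inv_cancel_right]
  have hker2 : σ₀.ker ≤ V := by
    apply le_pCore inferInstance
    intro c
    obtain ⟨k, hk⟩ := Cfsg.Agent.Lib.FStar.exists_pow_orderOf_coprime (p := p) (c : X)
    refine ⟨k, ?_⟩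
    apply Subtype.ext
    show (c : X) ^ p ^ k = 1
    set a : X := (c : X) ^ p ^ k with ha'
    have ha : a ∈ σ₀.ker := pow_mem c.2 _
    have hA : zpowers a ≤ centralizer (V : Set X) := by
      apply Cfsg.Agent.Lib.Hall.le_centralizer_of_frattini (zpowers a) V
      · rw [Subgroup.normalizer_eq_top_iff.mpr hVn]
        exact le_top
      · rw [Nat.card_zpowers]
        have h5 : IsPGroup p (frattini V) := hVp.to_subgroup _
        obtain ⟨n, hn⟩ := h5.exists_card_eq
        rw [hn]
        exact Nat.Coprime.pow_right n hk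
      · intro b hb k' hk'
        have hb' : b ∈ σ₀.ker := (zpowers_le.2 ha) hb
        have h1 : σ₀ b (π ⟨k', hk'⟩) = π ⟨k', hk'⟩ := by
          rw [MonoidHom.mem_ker] at hb'
          rw [hb']
          rfl
        rw [hσ₀] at h1
        have h2 : (MulAut.conjNormal b ⟨k', hk'⟩ : V) * (⟨k', hk'⟩ : V)⁻¹ ∈ π.ker := by
          rw [MonoidHom.mem_ker, map_mul, map_inv, h1, mul_inv_cancel]
        rw [hker] at h2
        refine ⟨_, h2, ?_⟩
        simp [MulAut.conjNormal_apply]
    have haV : a ∈ V := hcent (hA (mem_zpowers a))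
    obtain ⟨n, hn⟩ := hVp ⟨a, haV⟩
    have hn' : a ^ p ^ n = 1 := by simpa using congrArg Subtype.val hn
    exact Cfsg.Agent.Lib.FStar.eq_one_of_pow_of_coprime hn' (pow_orderOf_eq_one a) hk
  have hσy : (σ₀ y) ^ p = 1 := by
    rw [← map_pow]
    exact hVtriv hyp
  refine ⟨W₀, inst, hfin, hfact, π, σ₀, hπ, hσ₀, hσy, ?_⟩
  intro hzero
  let σ : X ⧸ V →* MulAut W₀ := QuotientGroup.lift V σ₀ (fun x hx => hVtriv hx)
  have hσx : ∀ x : X, σ (x : X ⧸ V) = σ₀ x := fun x => rfl
  have hσinj : Function.Injective σ := by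
    rw [injective_iff_map_eq_one]
    intro g hg
    induction g using QuotientGroup.induction_on with
    | H x =>
      have h1 : σ₀ x = 1 := hg
      exact (QuotientGroup.eq_one_iff x).2 (hker2 h1)
  let ρ : X ⧸ V →* Module.End (ZMod p) (EMod p W₀) := (eEnd (p := p)).comp σ
  have hρinj : Function.Injective ρ := by
    intro a b hab
    apply hσinj
    have h1 : eEnd (p := p) (σ a) = eEnd (p := p) (σ b) := hab
    have h2 : eEnd (p := p) ((σ a)⁻¹ * σ b) = 1 := by
      rw [map_mul, ← h1, ← map_mul, inv_mul_cancel, map_one]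
    have h3 := eEnd_eq_one (p := p) h2
    rw [inv_mul_eq_one] at h3
    exact h3
  haveI hnt : Nontrivial W₀ := by
    by_contra hcon
    rw [not_nontrivial_iff_subsingleton] at hcon
    apply hy
    apply hker2
    rw [MonoidHom.mem_ker]
    ext w
    exact Subsingleton.elim _ _
  haveI : Module.Finite (ZMod p) (EMod p W₀) := Module.Finite.of_finite
  have hsolH : IsPSolvable p (X ⧸ V) :=
    Cfsg.Agent.Lib.Fusion.isPSolvable_of_surjective hpp (QuotientGroup.mk' V) (QuotientGroup.mk'_surjective V) hsol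
  have hOH : pCore p (X ⧸ V) = ⊥ := pCore_quotient_pCore_eq_bot
  have hord : orderOf (y : X ⧸ V) = p ^ 1 := by
    rw [pow_one]
    apply orderOf_eq_prime
    · rw [← QuotientGroup.mk_pow]
      exact (QuotientGroup.eq_one_iff _).2 hyp
    · exact fun h => hy ((QuotientGroup.eq_one_iff _).1 h)
  have hr : (ρ (y : X ⧸ V) - 1) ^ (p - 1) = 0 := hzero
  have hlt : p - 1 < p ^ 1 := by
    rw [pow_one]
    exact Nat.sub_lt hpp.pos one_pos
  obtain ⟨n₀, q, m, h1, h2, hq, hm, heq, -, -⟩ := thmB (F := ZMod p) (p := p) ρ hρinj hsolH hOH _ hord hr hlt (Or.inr rfl)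
  have hn₀ : n₀ = 1 := le_antisymm h2 h1
  rw [hn₀, pow_one] at heq
  rcases hq.eq_two_or_odd' with hq2 | hqo
  · exact hnf ⟨m, by rw [← heq, hq2]⟩
  · have h3 : Odd (q ^ m) := hqo.pow
    have h4 : Even p := by
      rw [← heq]
      exact h3.add_one
    exact hp2 (hpp.even_iff.mp h4)

open Cfsg.Agent.Lib.Core in
/-- No section of the shape of `C_p ≀ C_p` in a Sylow `p`-subgroup forces `p`-length one. -/
theorem plength_one_of_no_wreath {G : Type*} [Group G] [Finite G] (hp2 : p ≠ 2) (hnf : ¬ ∃ k : ℕ, p = 2 ^ k + 1)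
    (hG : IsPSolvable p G) (P : Sylow p G)
    (hwr : ∀ (W : Type) [Group W] [Finite W], IsWr p W → ¬ Cfsg.Involves W ↥(P : Subgroup G)) :
    PLengthLE p 1 G := by
  classical
  have hpp : p.Prime := Fact.out
  apply Cfsg.Agent.Lib.PGroup.plength_one_of_core
  set O := pPrimeCore p G with hOd
  haveI hOn : O.Normal := pPrimeCore_normal p G
  set X := G ⧸ O with hXd
  set q₀ : G →* X := QuotientGroup.mk' O with hq₀
  have hq₀s : Function.Surjective q₀ := QuotientGroup.mk'_surjective O
  set V : Subgroup X := pCore p X with hV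
  haveI hVn : V.Normal := pCore_normal p X
  let Pb : Sylow p X := P.mapSurjective hq₀s
  have hPb : (Pb : Subgroup X) = (P : Subgroup G).map q₀ := Sylow.coe_mapSurjective _ _
  have hVP : V ≤ Pb := pCore_le_sylow Pb
  by_contra hcop
  -- an element of `P` outside `O_{p',p}`
  have hnle : ¬ (Pb : Subgroup X) ≤ V := by
    intro hle
    apply hcop
    rw [← Subgroup.index_eq_card]
    have h1 : V.index ∣ (Pb : Subgroup X).index := Subgroup.index_dvd_of_le hle
    have h2 := Pb.not_dvd_index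
    exact ((Nat.Prime.coprime_iff_not_dvd hpp).mpr fun h => h2 (h.trans h1)).symm
  obtain ⟨y₀, hy₀P, hy₀V⟩ := Set.not_subset.mp hnle
  obtain ⟨y, hyP, hyV, hyp⟩ : ∃ y ∈ (Pb : Subgroup X), y ∉ V ∧ y ^ p ∈ V := by
    obtain ⟨k, hk⟩ := Pb.2 ⟨y₀, hy₀P⟩
    have hk' : y₀ ^ p ^ k = 1 := by simpa using congrArg Subtype.val hk
    have hex : ∃ k, y₀ ^ p ^ k ∈ V := ⟨k, by rw [hk']; exact one_mem _⟩
    have hf := Nat.find_spec hex
    have hf0 : Nat.find hex ≠ 0 := by
      intro h0
      rw [h0, pow_zero, pow_one] at hf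
      exact hy₀V hf
    obtain ⟨j, hj⟩ := Nat.exists_eq_succ_of_ne_zero hf0
    refine ⟨y₀ ^ p ^ j, pow_mem hy₀P _, ?_, ?_⟩
    · exact Nat.find_min hex (m := j) (by omega)
    · rw [← pow_mul, ← pow_succ, ← Nat.succ_eq_add_one, ← hj]
      exact hf
  rw [hPb] at hyP
  obtain ⟨x₀, hx₀P, rfl⟩ := hyP
  -- the data on the Sylow subgroup
  obtain ⟨W₀, inst, hfin, hfact, π, σ₀, hπ, hσ₀, hσy, hN⟩ := exists_full_block (p := p) hp2 hnf
    (Cfsg.Agent.Lib.Fusion.isPSolvable_of_surjective hpp q₀ hq₀s hG) pPrimeCore_quotient_eq_bot (q₀ x₀) hyV hyp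
  let ψ : ↥(P : Subgroup G) →* X := q₀.comp (P : Subgroup G).subtype
  set F : Subgroup ↥(P : Subgroup G) := V.comap ψ with hF
  set x : ↥(P : Subgroup G) := ⟨x₀, hx₀P⟩ with hx
  have hψx : ψ x = q₀ x₀ := rfl
  have hxn : x ∈ normalizer (F : Set ↥(P : Subgroup G)) := by
    rw [Subgroup.normalizer_eq_top_iff.mpr (hVn.comap ψ)]
    trivial
  have hxF : x ∉ F := hyV
  have hxp : x ^ p ∈ F := by
    rw [hF, Subgroup.mem_comap, map_pow]
    exact hyp
  let g₀ : ↥F →* W₀ := π.comp (ψ.subgroupComap V)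
  have hg₀ : Function.Surjective g₀ := by
    refine hπ.comp ?_
    rintro ⟨v, hv⟩
    have h1 := hVP hv
    rw [hPb] at h1
    obtain ⟨t, ht, rfl⟩ := h1
    exact ⟨⟨⟨t, ht⟩, hv⟩, rfl⟩
  have hσ : ∀ (f : F) (h : x * f * x⁻¹ ∈ F), g₀ ⟨x * f * x⁻¹, h⟩ = σ₀ (q₀ x₀) (g₀ f) := by
    intro f h
    show π _ = σ₀ (q₀ x₀) (π _)
    rw [hσ₀]
    congr 1
  obtain ⟨W, grp, fin, hIs, hInv⟩ := exists_involved (p := p) F x hxn hxF hxp g₀ hg₀ (σ₀ (q₀ x₀)) hσ hσy hN
  exact hwr W hIs hInv

end wr

end Cfsg.Agent.Lib.PGroup.HB
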