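import Mathlib
import Cfsg.Agent.Lib.PGroup.HHSG2

/-!
# The Shult--Gross theorem
-/

set_option autoImplicit false

namespace Cfsg.Agent.Lib.PGroup.HH

open Cfsg Subgroup Cfsg.Agent.Lib.Core
open scoped commutatorElement

/-- **The key claim**: the last step of `σ` acts trivially modulo the Fitting subgroup. -/
theorem key_claim {G : Type*} [Group G] [Finite G] [hsolv : Group.IsSolvable G] {p n : ℕ} (hp : p.Prime) (hp2 : p ≠ 2)
    (σ : G ≃* G) (hfpf : ∀ g, σ g = g → g = 1) (hσK : ∀ g, σ^[p ^ (n + 1)] g = g) (g₀ : G) :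
    g₀⁻¹ * σ^[p ^ n] g₀ ∈ fittingSubgroup G := by
  classical
  by_contra hg₀
  let Fit := fittingSubgroup G
  have hcopG : p.Coprime (Nat.card G) := coprime_of_fpf_pow hp σ hfpf hσK
  have hFitσ : ∀ a ∈ Fit, σ a ∈ Fit := fun a ha =>
    (Subgroup.characteristic_iff_le_comap.mp (fittingSubgroup_characteristic G) σ) ha
  let π : G →* G ⧸ Fit := QuotientGroup.mk' Fit
  have hπs : Function.Surjective π := QuotientGroup.mk'_surjective Fit
  let τ : (G ⧸ Fit) ≃* (G ⧸ Fit) := quotAut Fit σ hFitσ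
  have hτ : ∀ g, τ (π g) = π (σ g) := fun g => rfl
  have hτit : ∀ (i : ℕ) (g : G), τ^[i] (π g) = π (σ^[i] g) := quotAut_iter Fit σ hFitσ
  let y' : G ⧸ Fit →* G ⧸ Fit := (itE τ (p ^ n)).toMonoidHom
  have hy' : ∀ a, y' a = τ^[p ^ n] a := fun a => rfl
  have hyπ : ∀ g, y' (π g) = π (σ^[p ^ n] g) := fun g => hτit _ g
  have hcopH : p.Coprime (Nat.card (G ⧸ Fit)) :=
    Nat.Coprime.coprime_dvd_right ⟨Nat.card Fit, by
      rw [mul_comm]
      exact (Subgroup.card_mul_index Fit).symm⟩ hcopG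
  have hyp : ∀ a, y'^[p] a = a := by
    intro a
    obtain ⟨g, rfl⟩ := hπs a
    have e : ∀ j : ℕ, y'^[j] (π g) = π (σ^[p ^ n * j] g) := by
      intro j
      induction j with
      | zero => rfl
      | succ j ih =>
        rw [Function.iterate_succ_apply', ih, hyπ, ← Function.iterate_add_apply, mul_add, mul_one, add_comm]
    rw [e, ← pow_succ, hσK]
  haveI : Group.IsSolvable (G ⧸ Fit) := inferInstance
  -- Step 1: `y'` is nontrivial on `F(G/F(G))`
  have hstep1 : ∃ a ∈ fittingSubgroup (G ⧸ Fit), y' a ≠ a := by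
    by_contra hcon
    push Not at hcon
    apply hg₀
    have hall := y_trivial_of_L hcopH y' hyp (fun a => by
      apply hcon
      apply Cfsg.Agent.Lib.Geo.centralizer_fitting_le_of_solvable
      rw [Subgroup.mem_centralizer_iff]
      intro b hb
      have h1 : a * b * a⁻¹ ∈ fittingSubgroup (G ⧸ Fit) :=
        (fittingSubgroup_normal (G ⧸ Fit)).conj_mem b hb a
      have h2 := hcon _ h1
      rw [map_mul, map_mul, map_inv, hcon b hb] at h2
      have h3 : (a⁻¹ * y' a) * b = b * (a⁻¹ * y' a) := by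
        calc (a⁻¹ * y' a) * b = a⁻¹ * (y' a * b * (y' a)⁻¹) * y' a := by group
          _ = a⁻¹ * (a * b * a⁻¹) * y' a := by rw [h2]
          _ = b * (a⁻¹ * y' a) := by group
      exact h3.symm) (π g₀)
    rw [hyπ] at hall
    have h4 : (π g₀)⁻¹ * π (σ^[p ^ n] g₀) = 1 := by rw [hall, inv_mul_cancel]
    rw [← map_inv, ← map_mul] at h4
    exact (QuotientGroup.eq_one_iff _).mp h4
  -- Step 2: on a primary component
  have hstep2 : ∃ q : Nat.Primes, ∃ a ∈ pCore (q : ℕ) (G ⧸ Fit), y' a ≠ a := by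
    by_contra hcon
    push Not at hcon
    obtain ⟨a, ha, hne⟩ := hstep1
    apply hne
    have hle : fittingSubgroup (G ⧸ Fit) ≤ MonoidHom.eqLocus y' (MonoidHom.id _) := by
      rw [fittingSubgroup_eq_iSup_pCore]
      exact iSup_le fun q b hb => hcon q b hb
    exact hle ha
  obtain ⟨⟨q, hq⟩, ā, hā, hne⟩ := hstep2
  haveI hqF : Fact q.Prime := ⟨hq⟩
  change ā ∈ pCore q (G ⧸ Fit) at hā
  -- Step 3: the preimage and an invariant Sylow subgroup
  let L : Subgroup G := (pCore q (G ⧸ Fit)).comap π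
  haveI : (pCore q (G ⧸ Fit)).Normal := pCore_normal q _
  haveI hLn : L.Normal := Subgroup.Normal.comap inferInstance π
  have hLσ : ∀ a ∈ L, σ a ∈ L := by
    intro a ha
    show π (σ a) ∈ pCore q (G ⧸ Fit)
    rw [← hτ]
    exact (Subgroup.characteristic_iff_le_comap.mp (pCore_characteristic q (G ⧸ Fit)) τ) ha
  have hP₀ : IsPGroup q (pCore q (G ⧸ Fit)) := pCore_isPGroup q _
  have hLq : ∀ x ∈ L, ∃ k : ℕ, x ^ q ^ k ∈ fittingSubgroup G := by
    intro x hx
    obtain ⟨k, hk⟩ := hP₀ ⟨π x, hx⟩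
    refine ⟨k, ?_⟩
    have h1 : π x ^ q ^ k = 1 := congrArg Subtype.val hk
    rw [← map_pow] at h1
    exact (QuotientGroup.eq_one_iff _).mp h1
  let σL : L ≃* L := subAut L σ hLσ
  have hσLfpf : ∀ a, σL a = a → a = 1 := by
    intro a ha
    exact Subtype.ext (hfpf a.1 (congrArg Subtype.val ha))
  obtain ⟨S, hS⟩ := exists_inv_sylow σL hσLfpf q
  let f : L →* pCore q (G ⧸ Fit) := (π.comp L.subtype).codRestrict (pCore q (G ⧸ Fit)) (fun x => x.2)
  have hf : Function.Surjective f := by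
    rintro ⟨b, hb⟩
    obtain ⟨h, rfl⟩ := hπs b
    exact ⟨⟨h, hb⟩, rfl⟩
  obtain ⟨h, rfl⟩ := hπs ā
  obtain ⟨gt, hgtS, hgt⟩ := sylow_surj f hf hP₀ S ⟨h, hā⟩
  have hπg : π gt.1 = π h := congrArg Subtype.val hgt
  set g : G := gt.1 with hgdef
  let Q₁ : Subgroup G := (S : Subgroup L).map L.subtype
  have hQ₁ : IsPGroup q Q₁ := S.isPGroup'.map _
  have hQσ : ∀ a ∈ Q₁, σ a ∈ Q₁ := by
    rintro _ ⟨s, hs, rfl⟩
    exact ⟨σL s, hS s hs, rfl⟩
  have hgQ : g ∈ Q₁ := ⟨gt, hgtS, rfl⟩
  set t : G := g⁻¹ * σ^[p ^ n] g with htdef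
  have htF : t ∉ fittingSubgroup G := by
    intro h1
    apply hne
    have h2 : π t = 1 := (QuotientGroup.eq_one_iff _).mpr h1
    rw [htdef, map_mul, map_inv, ← hyπ, hπg, inv_mul_eq_one] at h2
    exact h2.symm
  have hgL : g ∈ L := gt.2
  have hitL : ∀ (j : ℕ), ∀ r ∈ L, σ^[j] r ∈ L := by
    intro j r hr
    induction j with
    | zero => exact hr
    | succ j ih =>
      rw [Function.iterate_succ_apply']
      exact hLσ _ ih
  have htL : t ∈ L := L.mul_mem (L.inv_mem hgL) (hitL _ _ hgL)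
  -- Step 5: a prime `r`
  have hstep5 : ¬ ∀ r : ℕ, r.Prime → r ≠ q → ∀ s ∈ pCore r G, t * s = s * t :=
    fun hcon => htF (mem_fit_of_centralizes L hLq htL hcon)
  push Not at hstep5
  obtain ⟨r, hr, hrq, s, hs, hts⟩ := hstep5
  haveI hrF : Fact r.Prime := ⟨hr⟩
  let P : Subgroup G := pCore r G
  haveI hPn : P.Normal := pCore_normal r G
  have hPp : IsPGroup r P := pCore_isPGroup r G
  have hPσ : ∀ a ∈ P, σ a ∈ P := fun a ha =>
    (Subgroup.characteristic_iff_le_comap.mp (pCore_characteristic r G) σ) ha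
  have hg1 : g ≠ 1 := by
    intro h1
    apply htF
    have : t = 1 := by
      rw [htdef, h1, iter_one, inv_one, one_mul]
    rw [this]
    exact Subgroup.one_mem _
  have hs1 : s ≠ 1 := by
    rintro rfl
    simp at hts
  have hdvd : ∀ (X : Subgroup G) (u : ℕ) (_ : u.Prime), IsPGroup u X → ∀ x ∈ X, x ≠ 1 → p ≠ u := by
    intro X u hu hX x hx hx1 hpu
    subst hpu
    haveI : Fact p.Prime := ⟨hu⟩
    have hnt : Nontrivial X := ⟨⟨⟨x, hx⟩, 1, fun h => hx1 (congrArg Subtype.val h)⟩⟩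
    obtain ⟨a, ha⟩ := IsPGroup.iff_card.mp hX
    have ha0 : a ≠ 0 := by
      rintro rfl
      have h1 := Finite.one_lt_card (α := X)
      rw [ha] at h1
      simp at h1
    have h2 : p ∣ Nat.card X := by
      rw [ha]
      exact dvd_pow_self p ha0
    have h3 : p ∣ Nat.card G := h2.trans (Subgroup.card_subgroup_dvd_card X)
    exact hp.one_lt.ne' (Nat.dvd_one.mp (hcopG ▸ Nat.dvd_gcd (dvd_refl p) h3))
  have hpq : p ≠ q := hdvd Q₁ q hq hQ₁ g hgQ hg1
  have hpr : p ≠ r := hdvd P r hr hPp s hs hs1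
  have hmain := frat_hh (m := n + 1) hp hq hr hp2 hpq hpr hrq.symm (Nat.succ_pos n) σ hfpf hσK P hPp hPσ Q₁ hQ₁ hQσ hgQ
  rw [Nat.add_sub_cancel, Subgroup.mem_centralizer_iff] at hmain
  exact hts (hmain s hs).symm

/-- Nilpotent chains of length `n`. -/
def FitChain (n : ℕ) (G : Type*) [Group G] : Prop :=
  ∃ F : ℕ → Subgroup G, F 0 = ⊥ ∧ F n = ⊤ ∧ (∀ i, F i ≤ F (i + 1)) ∧ (∀ i, (F i).Normal) ∧
    ∀ i, i < n → ∃ k : ℕ, (F (i + 1)).lowerCentralSeries k ≤ F i

/-- The lower central series under a homomorphism. -/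
theorem map_lcs_le {G H : Type*} [Group G] [Group H] (f : G →* H) (S : Subgroup G) (k : ℕ) :
    (S.lowerCentralSeries k).map f ≤ (S.map f).lowerCentralSeries k := by
  induction k with
  | zero => exact le_rfl
  | succ k ih =>
    rw [Subgroup.lowerCentralSeries_succ, Subgroup.lowerCentralSeries_succ, Subgroup.map_commutator]
    exact Subgroup.commutator_mono ih le_rfl

/-- **Shult--Gross.** -/
theorem chain_of_fpf {p : ℕ} (hp : p.Prime) (hp2 : p ≠ 2) (n : ℕ) :
    ∀ (G : Type*) [Group G] [Finite G], Group.IsSolvable G → ∀ σ : G ≃* G, (∀ g, σ g = g → g = 1) →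
      (∀ g, σ^[p ^ n] g = g) → FitChain n G := by
  induction n with
  | zero =>
    intro G _ _ _ σ hfpf hσ
    have h1 : ∀ g : G, g = 1 := by
      intro g
      apply hfpf
      simpa using hσ g
    refine ⟨fun _ => ⊤, ?_, rfl, fun _ => le_rfl, fun _ => inferInstance, fun i hi => absurd hi (Nat.not_lt_zero i)⟩
    rw [eq_bot_iff]
    intro g _
    exact (Subgroup.mem_bot).mpr (h1 g)
  | succ n ih =>
    intro G _ _ hsolv σ hfpf hσ
    have hkey := key_claim hp hp2 σ hfpf hσ
    let Fit := fittingSubgroup G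
    have hFitσ : ∀ a ∈ Fit, σ a ∈ Fit := fun a ha =>
      (Subgroup.characteristic_iff_le_comap.mp (fittingSubgroup_characteristic G) σ) ha
    let π : G →* G ⧸ Fit := QuotientGroup.mk' Fit
    have hπs : Function.Surjective π := QuotientGroup.mk'_surjective Fit
    let τ : (G ⧸ Fit) ≃* (G ⧸ Fit) := quotAut Fit σ hFitσ
    have hτit : ∀ (i : ℕ) (g : G), τ^[i] (π g) = π (σ^[i] g) := quotAut_iter Fit σ hFitσ
    have hτfpf : ∀ a, τ a = a → a = 1 := by
      intro a ha
      obtain ⟨g, rfl⟩ := hπs a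
      have h1 : π (σ g) = π g := ha
      have h2 : ((σ g : G) : G ⧸ Fit) = g := h1
      rw [QuotientGroup.eq] at h2
      exact (QuotientGroup.eq_one_iff _).mpr (fix_mod_mem σ hfpf hFitσ h2)
    have hτK : ∀ a, τ^[p ^ n] a = a := by
      intro a
      obtain ⟨g, rfl⟩ := hπs a
      rw [hτit]
      have h2 : ((σ^[p ^ n] g : G) : G ⧸ Fit) = g := by
        rw [eq_comm, QuotientGroup.eq]
        exact hkey g
      exact h2
    haveI : Group.IsSolvable (G ⧸ Fit) := inferInstance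
    obtain ⟨F, hF0, hFn, hFm, hFN, hFk⟩ := ih (G ⧸ Fit) inferInstance τ hτfpf hτK
    refine ⟨fun i => Nat.casesOn i ⊥ (fun j => (F j).comap π), rfl, ?_, ?_, ?_, ?_⟩
    · show (F n).comap π = ⊤
      rw [hFn, Subgroup.comap_top]
    · intro i
      cases i with
      | zero => exact bot_le
      | succ j => exact Subgroup.comap_mono (hFm j)
    · intro i
      cases i with
      | zero => exact Subgroup.normal_bot
      | succ j =>
        haveI := hFN j
        exact Subgroup.Normal.comap inferInstance π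
    · intro i hi
      cases i with
      | zero =>
        haveI hnil : Group.IsNilpotent Fit := isNilpotent_fittingSubgroup G
        show ∃ k, ((F 0).comap π).lowerCentralSeries k ≤ ⊥
        rw [hF0]
        have hker : (⊥ : Subgroup (G ⧸ Fit)).comap π = Fit := by
          ext x
          exact (QuotientGroup.eq_one_iff x)
        rw [hker]
        obtain ⟨k, hk⟩ := (Subgroup.isNilpotent_iff_lowerCentralSeries Fit).mp hnil
        exact ⟨k, hk.le⟩
      | succ j =>
        obtain ⟨k, hk⟩ := hFk j (by omega)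
        refine ⟨k, ?_⟩
        show ((F (j + 1)).comap π).lowerCentralSeries k ≤ (F j).comap π
        rw [← Subgroup.map_le_iff_le_comap]
        refine (map_lcs_le π _ k).trans ?_
        rw [Subgroup.map_comap_eq_self_of_surjective hπs]
        exact hk

end Cfsg.Agent.Lib.PGroup.HH
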