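import Mathlib

/-!
# Kreknin's theorem and the Kreknin--Kostrikin step for `ℤ/p`-graded Lie rings

We work with a family `S : ZMod p → AddSubgroup L` of additive subgroups of a Lie ring
with `⁅S a, S b⁆ ⊆ S (a + b)` and `S 0 = ⊥`.  No directness of the sum is used.
-/

namespace Cfsg.Agent.Lib.PGroup.HKK

open scoped Pointwise

variable {L : Type*} [LieRing L] {p : ℕ}

/-- A graded family. -/
def IsGr (S : ZMod p → AddSubgroup L) : Prop :=
  ∀ a b x y, x ∈ S a → y ∈ S b → ⁅x, y⁆ ∈ S (a + b)

/-- The derived family. -/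
def Der (S : ZMod p → AddSubgroup L) (a : ZMod p) : AddSubgroup L :=
  AddSubgroup.closure {z | ∃ b c x y, b + c = a ∧ x ∈ S b ∧ y ∈ S c ∧ ⁅x, y⁆ = z}

theorem lie_mem_Der {S : ZMod p → AddSubgroup L} {a b c : ZMod p} {x y : L}
    (h : b + c = a) (hx : x ∈ S b) (hy : y ∈ S c) : ⁅x, y⁆ ∈ Der S a :=
  AddSubgroup.subset_closure ⟨b, c, x, y, h, hx, hy, rfl⟩

theorem Der_le {S : ZMod p → AddSubgroup L} (hS : IsGr S) (a : ZMod p) : Der S a ≤ S a := by
  refine (AddSubgroup.closure_le _).2 ?_
  rintro _ ⟨b, c, x, y, rfl, hx, hy, rfl⟩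
  exact hS _ _ _ _ hx hy

theorem Der_isGr {S : ZMod p → AddSubgroup L} (hS : IsGr S) : IsGr (Der S) := fun a b x y hx hy =>
  lie_mem_Der rfl (Der_le hS a hx) (Der_le hS b hy)

theorem iter_isGr {S : ZMod p → AddSubgroup L} (hS : IsGr S) (k : ℕ) : IsGr (Der^[k] S) := by
  induction k with
  | zero => exact hS
  | succ k ih =>
    rw [Function.iterate_succ_apply']
    exact Der_isGr ih

theorem iter_le {S : ZMod p → AddSubgroup L} (hS : IsGr S) (k : ℕ) (a : ZMod p) :
    Der^[k] S a ≤ S a := by
  induction k with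
  | zero => exact le_rfl
  | succ k ih =>
    rw [Function.iterate_succ_apply']
    exact (Der_le (iter_isGr hS k) a).trans ih

/-- Ideal of a graded family. -/
def IsId (A S : ZMod p → AddSubgroup L) : Prop :=
  ∀ a b x y, x ∈ A a → y ∈ S b → ⁅x, y⁆ ∈ A (a + b)

theorem Der_isId {A S : ZMod p → AddSubgroup L} (hA : IsId A S) : IsId (Der A) S := by
  intro a e x y hx hy
  induction hx using AddSubgroup.closure_induction with
  | mem z hz =>
    obtain ⟨b, c, u, v, rfl, hu, hv, rfl⟩ := hz
    have h := leibniz_lie u v y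
    have h1 : ⁅⁅u, v⁆, y⁆ = ⁅u, ⁅v, y⁆⁆ - ⁅v, ⁅u, y⁆⁆ := by rw [h]; abel
    rw [h1]
    refine AddSubgroup.sub_mem _ ?_ ?_
    · exact lie_mem_Der (by ring) hu (hA _ _ _ _ hv hy)
    · exact lie_mem_Der (by ring) hv (hA _ _ _ _ hu hy)
  | zero => simp
  | add u v _ _ hu hv => rw [add_lie]; exact AddSubgroup.add_mem _ hu hv
  | neg u _ hu => rw [neg_lie]; exact AddSubgroup.neg_mem _ hu

theorem iter_isId {S : ZMod p → AddSubgroup L} (hS : IsGr S) (k : ℕ) : IsId (Der^[k] S) S := by
  induction k with
  | zero => exact hS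
  | succ k ih =>
    rw [Function.iterate_succ_apply']
    exact Der_isId ih

/-! ### Kreknin -/

/-- Homogeneous elements of the subring generated by `S j` with `j.val ≥ k`. -/
inductive HM (S : ZMod p → AddSubgroup L) (k : ℕ) : ZMod p → L → Prop
  | gen {j x} : k ≤ j.val → x ∈ S j → HM S k j x
  | zero (a) : HM S k a 0
  | add {a x y} : HM S k a x → HM S k a y → HM S k a (x + y)
  | neg {a x} : HM S k a x → HM S k a (-x)
  | lie {a b c x y} : HM S k a x → HM S k b y → a + b = c → HM S k c ⁅x, y⁆

theorem HM_mem {S : ZMod p → AddSubgroup L} (hS : IsGr S) {k : ℕ} {a : ZMod p} {x : L}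
    (h : HM S k a x) : x ∈ S a := by
  induction h with
  | gen _ hx => exact hx
  | zero a => exact AddSubgroup.zero_mem _
  | add _ _ h1 h2 => exact AddSubgroup.add_mem _ h1 h2
  | neg _ h1 => exact AddSubgroup.neg_mem _ h1
  | lie _ _ h h1 h2 => rw [← h]; exact hS _ _ _ _ h1 h2

theorem val_of_add_eq [Fact p.Prime] {j b : ZMod p} {k : ℕ} (hk : k < j.val) (h : j + b = (k : ZMod p)) :
    k + 1 ≤ b.val := by
  have hjp : j.val < p := ZMod.val_lt j
  have hbp : b.val < p := ZMod.val_lt b
  have hkp : k < p := hk.trans hjp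
  have h1 := congrArg ZMod.val h
  rw [ZMod.val_add, ZMod.val_natCast, Nat.mod_eq_of_lt hkp] at h1
  rcases lt_or_ge (j.val + b.val) p with h2 | h2
  · rw [Nat.mod_eq_of_lt h2] at h1
    omega
  · have h3 : (j.val + b.val) % p = j.val + b.val - p := by
      rw [Nat.mod_eq_sub_mod h2, Nat.mod_eq_of_lt (by omega)]
    rw [h3] at h1
    omega

theorem hm_step [Fact p.Prime] {S : ZMod p → AddSubgroup L} (hS : IsGr S) (h0 : S 0 = ⊥) {k : ℕ}
    {a : ZMod p} {u : L} (hu : HM S k a u) :
    ∀ (b : ZMod p) (v : L), v ∈ S b → a + b = (k : ZMod p) → HM S (k + 1) (k : ZMod p) ⁅v, u⁆ := by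
  induction hu with
  | @gen j x hj hx =>
    intro b v hv hab
    rcases eq_or_lt_of_le hj with hjk | hjk
    · have hj' : j = (k : ZMod p) := by rw [hjk, ZMod.natCast_zmod_val]
      have hb : b = 0 := by
        have : j + b = j + 0 := by rw [hab, hj', add_zero]
        exact add_left_cancel this
      subst hb
      rw [h0] at hv
      have : v = 0 := by simpa using hv
      rw [this, zero_lie]
      exact HM.zero _
    · have hb := val_of_add_eq hjk hab
      exact HM.lie (HM.gen hb hv) (HM.gen (Nat.succ_le_of_lt hjk) hx) (by rw [add_comm]; exact hab)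
  | zero a =>
    intro b v _ _
    rw [lie_zero]
    exact HM.zero _
  | add _ _ h1 h2 =>
    intro b v hv hab
    rw [lie_add]
    exact HM.add (h1 b v hv hab) (h2 b v hv hab)
  | neg _ h1 =>
    intro b v hv hab
    rw [lie_neg]
    exact HM.neg (h1 b v hv hab)
  | @lie a1 a2 c x y hx hy hc h1 h2 =>
    intro b v hv hab
    have e : ⁅v, ⁅x, y⁆⁆ = ⁅⁅v, x⁆, y⁆ + -⁅⁅v, y⁆, x⁆ := by
      rw [leibniz_lie v x y, ← lie_skew ⁅v, y⁆ x, neg_neg]
    rw [e]
    refine HM.add ?_ (HM.neg ?_)
    · exact h2 _ _ (hS _ _ _ _ hv (HM_mem hS hx)) (by rw [← hab, ← hc]; ring)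
    · exact h1 _ _ (hS _ _ _ _ hv (HM_mem hS hy)) (by rw [← hab, ← hc]; ring)

theorem kreknin_aux [Fact p.Prime] : ∀ (k : ℕ), k < p → ∀ (S : ZMod p → AddSubgroup L), IsGr S → S 0 = ⊥ →
    ∀ (a : ZMod p) (x : L), x ∈ Der^[2 ^ k - 1] S a → HM S (k + 1) a x := by
  intro k
  induction k with
  | zero =>
    intro _ S _ h0 a x hx
    have hx' : x ∈ S a := hx
    by_cases ha : a = 0
    · subst ha
      rw [h0] at hx'
      have : x = 0 := by simpa using hx'
      rw [this]
      exact HM.zero _
    · refine HM.gen ?_ hx'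
      have : a.val ≠ 0 := by
        rwa [Ne, ZMod.val_eq_zero]
      omega
  | succ k ih =>
    intro hk S hS h0 a x hx
    have hk' : k < p := by omega
    set N := Der^[2 ^ k - 1] S with hN
    have hNgr : IsGr N := iter_isGr hS _
    have hNle : ∀ a, N a ≤ S a := iter_le hS _
    set M := Der N with hM
    have hMgr : IsGr M := Der_isGr hNgr
    have hMle : ∀ a, M a ≤ S a := fun a => (Der_le hNgr a).trans (hNle a)
    have hM0 : M 0 = ⊥ := by
      rw [eq_bot_iff, ← h0]
      exact hMle 0
    have hiter : Der^[2 ^ (k + 1) - 1] S = Der^[2 ^ k - 1] M := by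
      have h2 : 2 ^ k ≥ 1 := Nat.one_le_two_pow
      have e : 2 ^ (k + 1) - 1 = (2 ^ k - 1) + ((2 ^ k - 1) + 1) := by
        rw [pow_succ]; omega
      rw [e, Function.iterate_add_apply, Function.iterate_succ_apply']
    rw [hiter] at hx
    have h1 := ih hk' M hMgr hM0 a x hx
    -- transfer
    have htr : ∀ {a : ZMod p} {x : L}, HM M (k + 1) a x → HM S (k + 2) a x := by
      intro a x h
      induction h with
      | @gen j x hj hx =>
        rcases eq_or_lt_of_le hj with hjk | hjk
        · have hj' : j = ((k + 1 : ℕ) : ZMod p) := by rw [hjk, ZMod.natCast_zmod_val]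
          induction hx using AddSubgroup.closure_induction with
          | mem z hz =>
            obtain ⟨b, c, u, v, hbc, hu, hv, rfl⟩ := hz
            have hu' := ih hk' S hS h0 b u hu
            have hstep := hm_step hS h0 hu' c v (hNle c hv) (by rw [hbc, hj'])
            rw [← hj'] at hstep
            rw [← lie_skew]
            exact HM.neg hstep
          | zero => exact HM.zero _
          | add u v _ _ hu hv => exact HM.add hu hv
          | neg u _ hu => exact HM.neg hu
        · exact HM.gen hjk (hMle j hx)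
      | zero a => exact HM.zero _
      | add _ _ h1 h2 => exact HM.add h1 h2
      | neg _ h1 => exact HM.neg h1
      | lie _ _ h h1 h2 => exact HM.lie h1 h2 h
    exact htr h1

theorem HM_top [Fact p.Prime] {S : ZMod p → AddSubgroup L} {a : ZMod p} {x : L}
    (h : HM S p a x) : x = 0 := by
  induction h with
  | @gen j x hj hx => exact absurd (ZMod.val_lt j) (by omega)
  | zero a => rfl
  | add _ _ h1 h2 => rw [h1, h2, add_zero]
  | neg _ h1 => rw [h1, neg_zero]
  | lie _ _ h h1 h2 => rw [h1, zero_lie]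

/-- **Kreknin's theorem**: a `ℤ/p`-graded Lie ring with vanishing zero component
has derived length at most `2 ^ (p - 1) - 1`. -/
theorem kreknin [hp : Fact p.Prime] {S : ZMod p → AddSubgroup L} (hS : IsGr S) (h0 : S 0 = ⊥)
    (a : ZMod p) : Der^[2 ^ (p - 1) - 1] S a = ⊥ := by
  rw [eq_bot_iff]
  intro x hx
  have hp1 : p - 1 < p := Nat.sub_lt hp.out.pos one_pos
  have := kreknin_aux (p - 1) hp1 S hS h0 a x hx
  have e : p - 1 + 1 = p := Nat.sub_add_cancel hp.out.pos
  rw [e] at this
  simpa using HM_top this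

/-! ### The lower central family -/

/-- Lower central family: `LC S w` has weight `w + 1`. -/
def LC (S : ZMod p → AddSubgroup L) : ℕ → ZMod p → AddSubgroup L
  | 0, a => S a
  | w + 1, a => AddSubgroup.closure {z | ∃ b c x y, b + c = a ∧ x ∈ LC S w b ∧ y ∈ S c ∧ ⁅x, y⁆ = z}

theorem lie_mem_LC {S : ZMod p → AddSubgroup L} {w : ℕ} {a b c : ZMod p} {x y : L}
    (h : b + c = a) (hx : x ∈ LC S w b) (hy : y ∈ S c) : ⁅x, y⁆ ∈ LC S (w + 1) a :=
  AddSubgroup.subset_closure ⟨b, c, x, y, h, hx, hy, rfl⟩

theorem LC_le_S {S : ZMod p → AddSubgroup L} (hS : IsGr S) (w : ℕ) : ∀ a, LC S w a ≤ S a := by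
  induction w with
  | zero => exact fun a => le_rfl
  | succ w ih =>
    intro a
    refine (AddSubgroup.closure_le _).2 ?_
    rintro _ ⟨b, c, x, y, rfl, hx, hy, rfl⟩
    exact hS _ _ _ _ (ih b hx) hy

theorem LC_succ_le {S : ZMod p → AddSubgroup L} (hS : IsGr S) (w : ℕ) : ∀ a, LC S (w + 1) a ≤ LC S w a := by
  induction w with
  | zero => exact fun a => LC_le_S hS 1 a
  | succ w ih =>
    intro a
    refine (AddSubgroup.closure_le _).2 ?_
    rintro _ ⟨b, c, x, y, rfl, hx, hy, rfl⟩
    exact lie_mem_LC rfl (ih b hx) hy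

theorem LC_anti {S : ZMod p → AddSubgroup L} (hS : IsGr S) {w w' : ℕ} (h : w ≤ w') (a : ZMod p) :
    LC S w' a ≤ LC S w a := by
  induction h with
  | refl => exact le_rfl
  | step _ ih => exact (LC_succ_le hS _ a).trans ih

theorem LC_lie {S : ZMod p → AddSubgroup L} (hS : IsGr S) (w' : ℕ) :
    ∀ (w : ℕ) (d d' : ZMod p) (x y : L), x ∈ LC S w d → y ∈ LC S w' d' →
      ⁅x, y⁆ ∈ LC S (w + w' + 1) (d + d') := by
  induction w' with
  | zero =>
    intro w d d' x y hx hy
    exact lie_mem_LC rfl hx hy
  | succ w' ih =>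
    intro w d d' x y hx hy
    induction hy using AddSubgroup.closure_induction with
    | mem z hz =>
      obtain ⟨b, c, u, v, hbc, hu, hv, rfl⟩ := hz
      have e : ⁅x, ⁅u, v⁆⁆ = ⁅⁅x, u⁆, v⁆ + -⁅⁅x, v⁆, u⁆ := by
        rw [leibniz_lie x u v, ← lie_skew ⁅x, v⁆ u, neg_neg]
      rw [e]
      refine AddSubgroup.add_mem _ ?_ (AddSubgroup.neg_mem _ ?_)
      · have := ih w d b x u hx hu
        exact lie_mem_LC (by rw [← hbc]; ring) this hv
      · have h1 : ⁅x, v⁆ ∈ LC S (w + 1) (d + c) := lie_mem_LC rfl hx hv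
        have := ih (w + 1) (d + c) b _ u h1 hu
        have e2 : w + 1 + w' + 1 = w + (w' + 1) + 1 := by omega
        have e3 : d + c + b = d + d' := by rw [← hbc]; ring
        rwa [e2, e3] at this
    | zero => rw [lie_zero]; exact AddSubgroup.zero_mem _
    | add u v _ _ hu hv => rw [lie_add]; exact AddSubgroup.add_mem _ hu hv
    | neg u _ hu => rw [lie_neg]; exact AddSubgroup.neg_mem _ hu

/-! ### Items -/

/-- An element with a weight and a degree. -/
structure Item (L : Type*) (p : ℕ) where
  w : ℕ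
  d : ZMod p
  y : L

/-- The left-normed action of a list of items. -/
def act (z : L) (l : List (Item L p)) : L := l.foldl (fun u i => ⁅u, i.y⁆) z

/-- Weight of a list. -/
def wt (l : List (Item L p)) : ℕ := (l.map (fun i => i.w + 1)).sum

/-- Degree of a list. -/
def dg (l : List (Item L p)) : ZMod p := (l.map (fun i => i.d)).sum

/-- Validity of an item. -/
def Val (S : ZMod p → AddSubgroup L) (i : Item L p) : Prop := i.y ∈ LC S i.w i.d

@[simp] theorem act_nil (z : L) : act z ([] : List (Item L p)) = z := rfl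
@[simp] theorem act_cons (z : L) (i : Item L p) (l : List (Item L p)) :
    act z (i :: l) = act ⁅z, i.y⁆ l := rfl
@[simp] theorem wt_nil : wt ([] : List (Item L p)) = 0 := rfl
@[simp] theorem wt_cons (i : Item L p) (l : List (Item L p)) : wt (i :: l) = i.w + 1 + wt l := by
  simp [wt]
@[simp] theorem dg_nil : dg ([] : List (Item L p)) = 0 := rfl
@[simp] theorem dg_cons (i : Item L p) (l : List (Item L p)) : dg (i :: l) = i.d + dg l := by
  simp [dg]

theorem act_append (z : L) (l l' : List (Item L p)) : act z (l ++ l') = act (act z l) l' := by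
  simp [act, List.foldl_append]

theorem dg_append (l l' : List (Item L p)) : dg (l ++ l') = dg l + dg l' := by
  simp [dg]

theorem wt_append (l l' : List (Item L p)) : wt (l ++ l') = wt l + wt l' := by
  simp [wt]

theorem act_zero (l : List (Item L p)) : act (0 : L) l = 0 := by
  induction l with
  | nil => rfl
  | cons i l ih => simpa using ih

theorem act_add (z z' : L) (l : List (Item L p)) : act (z + z') l = act z l + act z' l := by
  induction l generalizing z z' with
  | nil => rfl
  | cons i l ih => simp [add_lie, ih]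

theorem act_neg (z : L) (l : List (Item L p)) : act (-z) l = - act z l := by
  induction l generalizing z with
  | nil => rfl
  | cons i l ih =>
    rw [act_cons, act_cons, neg_lie, ih]

theorem act_sub (z z' : L) (l : List (Item L p)) : act (z - z') l = act z l - act z' l := by
  rw [sub_eq_add_neg, act_add, act_neg, sub_eq_add_neg]

theorem dg_perm {l l' : List (Item L p)} (h : l.Perm l') : dg l = dg l' :=
  (h.map _).sum_eq

theorem wt_perm {l l' : List (Item L p)} (h : l.Perm l') : wt l = wt l' :=
  (h.map _).sum_eq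

/-- Acting on an ideal. -/
theorem act_mem_of_id {A S : ZMod p → AddSubgroup L} (hA : IsId A S) (hS : IsGr S)
    (l : List (Item L p)) (hl : ∀ i ∈ l, Val S i) :
    ∀ (b : ZMod p) (z : L), z ∈ A b → act z l ∈ A (b + dg l) := by
  induction l with
  | nil => intro b z hz; simpa using hz
  | cons i l ih =>
    intro b z hz
    have h1 : i.y ∈ S i.d := LC_le_S hS i.w i.d (hl i (by simp))
    have h2 := ih (fun j hj => hl j (List.mem_cons_of_mem _ hj)) _ _ (hA _ _ _ _ hz h1)
    have e : b + i.d + dg l = b + dg (i :: l) := by simp [add_assoc]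
    rw [act_cons, ← e]
    exact h2

/-- Subset sums: any `p - 1` nonzero degrees have all residues as subset sums. -/
theorem subset_sum [hp : Fact p.Prime] {α : Type*} (d : α → ZMod p) (l : List α) (hl : ∀ i ∈ l, d i ≠ 0) :
    ∃ s : Finset (ZMod p), min p (l.length + 1) ≤ s.card ∧
      ∀ t ∈ s, ∃ l₁ l₂ : List α, l.Perm (l₁ ++ l₂) ∧ (l₁.map d).sum = t := by
  classical
  induction l with
  | nil =>
    refine ⟨{0}, by simp, ?_⟩
    intro t ht
    rw [Finset.mem_singleton] at ht
    exact ⟨[], [], by simp, by simp [ht]⟩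
  | cons x l ih =>
    obtain ⟨s, hs, hs'⟩ := ih (fun i hi => hl i (List.mem_cons_of_mem _ hi))
    have hx : d x ≠ 0 := hl x (by simp)
    have hsne : s.Nonempty := by
      rw [← Finset.card_pos]
      have hp0 : 0 < p := hp.out.pos
      have : 0 < min p (l.length + 1) := by omega
      omega
    have ht : ({0, d x} : Finset (ZMod p)).Nonempty := ⟨0, by simp⟩
    have hcd := ZMod.cauchy_davenport hp.out hsne ht
    have hcard : ({0, d x} : Finset (ZMod p)).card = 2 := by
      rw [Finset.card_pair]
      exact hx.symm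
    rw [hcard] at hcd
    refine ⟨s + ({0, d x} : Finset (ZMod p)), ?_, ?_⟩
    · simp only [List.length_cons]
      have : s.card + 2 - 1 = s.card + 1 := by omega
      rw [this] at hcd
      refine le_trans ?_ hcd
      omega
    · intro t ht
      obtain ⟨u, hu, v, hv, rfl⟩ := Finset.mem_add.mp ht
      obtain ⟨l₁, l₂, hp12, hsum⟩ := hs' u hu
      rw [Finset.mem_insert, Finset.mem_singleton] at hv
      rcases hv with rfl | rfl
      · refine ⟨l₁, x :: l₂, ?_, by simpa using hsum⟩
        exact (hp12.cons x).trans List.perm_middle.symm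
      · refine ⟨x :: l₁, l₂, hp12.cons x, ?_⟩
        simp [hsum, add_comm]

section main

variable {S A : ZMod p → AddSubgroup L}

/-- Reordering modulo shorter monomials. -/
theorem act_swap (z : L) (P : List (Item L p)) (i j : Item L p) (l : List (Item L p)) :
    act z (P ++ i :: j :: l) - act z (P ++ j :: i :: l) =
      act z (P ++ ⟨i.w + j.w + 1, i.d + j.d, ⁅i.y, j.y⁆⟩ :: l) := by
  simp only [act_append, act_cons]
  rw [← act_sub]
  congr 1
  set u := act z P
  have := leibniz_lie u i.y j.y
  rw [this, ← lie_skew ⁅u, j.y⁆ i.y]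
  abel

theorem act_perm_mod (hS : IsGr S) {B : ZMod p → AddSubgroup L} (z : L) (b : ZMod p) (c n : ℕ) (W : ℕ)
    (ih : ∀ l : List (Item L p), l.length < n → (∀ i ∈ l, Val S i) → W ≤ wt l → act z l ∈ B (b + dg l))
    {l₁ l₂ : List (Item L p)} (hperm : l₁.Perm l₂) :
    ∀ P : List (Item L p), (P ++ l₁).length = n → (∀ i ∈ P ++ l₁, Val S i) → W ≤ wt (P ++ l₁) →
      act z (P ++ l₁) - act z (P ++ l₂) ∈ B (b + dg (P ++ l₁)) := by
  induction hperm with
  | nil => intro P _ _ _; simp
  | @cons x l₁ l₂ _ ih1 =>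
    intro P h1 h2 h3
    have := ih1 (P ++ [x]) (by simpa using h1) (by simpa using h2) (by simpa [wt_append] using h3)
    simpa using this
  | swap x y l =>
    intro P h1 h2 h3
    rw [act_swap]
    have hval : ∀ i ∈ P ++ (⟨y.w + x.w + 1, y.d + x.d, ⁅y.y, x.y⁆⟩ : Item L p) :: l, Val S i := by
      intro i hi
      simp only [List.mem_append, List.mem_cons] at hi
      rcases hi with hi | rfl | hi
      · exact h2 i (by simp [hi])
      · exact LC_lie hS _ _ _ _ _ _ (h2 y (by simp)) (h2 x (by simp))
      · exact h2 i (by simp [hi])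
    have := ih _ (by simp at h1 ⊢; omega) hval (by simp [wt_append] at h3 ⊢; omega)
    have e : dg (P ++ (⟨y.w + x.w + 1, y.d + x.d, ⁅y.y, x.y⁆⟩ : Item L p) :: l) = dg (P ++ y :: x :: l) := by
      simp [dg_append, add_assoc]
    rwa [e] at this
  | @trans l₁ l₂ l₃ h12 h23 ih1 ih2 =>
    intro P h1 h2 h3
    have hp : (P ++ l₁).Perm (P ++ l₂) := h12.append_left P
    have := AddSubgroup.add_mem _ (ih1 P h1 h2 h3)
      (by
        have h4 := ih2 P (by rw [← hp.length_eq]; exact h1) (fun i hi => h2 i (hp.mem_iff.mpr hi))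
          (by rw [← wt_perm hp]; exact h3)
        rwa [← dg_perm hp] at h4)
    simpa using this

/-- The main reduction: monomials of large weight acting on `A` land in `Der A`. -/
theorem kos_main [hp : Fact p.Prime] (hS : IsGr S) (h0 : S 0 = ⊥) (hAS : ∀ a, A a ≤ S a) (hA : IsId A S)
    {c : ℕ} (hc : ∀ a, LC S c a ≤ A a) (n : ℕ) :
    ∀ (l : List (Item L p)), l.length = n → (∀ i ∈ l, Val S i) → (p - 2) * c + 1 ≤ wt l →
      ∀ (b : ZMod p) (z : L), z ∈ A b → act z l ∈ Der A (b + dg l) := by
  induction n using Nat.strong_induction_on with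
  | _ n IH =>
    intro l hlen hval hwt b z hz
    have hmod := fun (l₂ : List (Item L p)) (hperm : l.Perm l₂) =>
      act_perm_mod (B := Der A) hS z b c n ((p - 2) * c + 1)
        (fun l' hl' hv hw => IH _ hl' l' rfl hv hw b z hz) hperm [] (by simpa using hlen) (by simpa using hval)
        (by simpa using hwt)
    simp only [List.nil_append] at hmod
    -- it suffices to find a permutation whose action lands in `Der A`
    have key : ∀ l₂ : List (Item L p), l.Perm l₂ → act z l₂ ∈ Der A (b + dg l₂) → act z l ∈ Der A (b + dg l) := by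
      intro l₂ h12 hm
      have := AddSubgroup.add_mem _ (hmod l₂ h12) (by rw [dg_perm h12]; exact hm)
      simpa using this
    have hDer : IsId (Der A) S := Der_isId hA
    by_cases hcase : ∃ i ∈ l, c ≤ i.w
    · obtain ⟨i, hi, hic⟩ := hcase
      obtain ⟨l₁, l₂, rfl⟩ := List.append_of_mem hi
      refine key (i :: (l₁ ++ l₂)) List.perm_middle ?_
      rw [act_cons]
      have hy : i.y ∈ A i.d := hc _ (LC_anti hS hic _ (hval i hi))
      have h1 : ⁅z, i.y⁆ ∈ Der A (b + i.d) := lie_mem_Der rfl hz hy
      have := act_mem_of_id hDer hS (l₁ ++ l₂)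
        (fun j hj => hval j (by simp at hj ⊢; tauto)) _ _ h1
      simpa [add_assoc] using this
    · push Not at hcase
      -- a component of degree zero kills the monomial
      by_cases hd : ∃ i ∈ l, i.d = 0
      · obtain ⟨i, hi, hid⟩ := hd
        obtain ⟨l₁, l₂, rfl⟩ := List.append_of_mem hi
        refine key (i :: (l₁ ++ l₂)) List.perm_middle ?_
        have hy : i.y ∈ S 0 := by
          have := LC_le_S hS _ _ (hval i hi)
          rwa [hid] at this
        rw [h0] at hy
        have hy0 : i.y = 0 := by simpa using hy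
        rw [act_cons, hy0, lie_zero, act_zero]
        exact AddSubgroup.zero_mem _
      · push Not at hd
        -- length count
        have hlenp : p - 1 ≤ l.length := by
          by_contra hlt
          push Not at hlt
          have hle : wt l ≤ l.length * c := by
            have : ∀ l' : List (Item L p), (∀ i ∈ l', i.w < c) → wt l' ≤ l'.length * c := by
              intro l' hl'
              induction l' with
              | nil => simp
              | cons i l' ih =>
                have h1 := hl' i (by simp)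
                have h2 := ih (fun j hj => hl' j (List.mem_cons_of_mem _ hj))
                simp only [wt_cons, List.length_cons, add_mul, one_mul]
                omega
            exact this l hcase
          have : l.length * c ≤ (p - 2) * c := Nat.mul_le_mul_right c (by omega)
          omega
        obtain ⟨s, hs, hs'⟩ := subset_sum (fun i : Item L p => i.d) l hd
        have hscard : s = Finset.univ := by
          apply Finset.eq_univ_of_card
          have h1 : s.card ≤ Fintype.card (ZMod p) := Finset.card_le_univ s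
          rw [ZMod.card] at h1 ⊢
          have h2 : p ≤ l.length + 1 := by
            have := hp.out.pos
            omega
          rw [min_eq_left h2] at hs
          omega
        obtain ⟨l₁, l₂, hperm, hsum⟩ := hs' (-b) (by simp [hscard])
        refine key _ hperm ?_
        have hl₁ : ∀ i ∈ l₁, Val S i := fun i hi => hval i (hperm.mem_iff.mpr (by simp [hi]))
        have h1 := act_mem_of_id hA hS l₁ hl₁ b z hz
        have h2 : dg l₁ = -b := hsum
        rw [h2, add_neg_cancel] at h1
        have h3 : act z l₁ = 0 := by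
          have := hAS 0 h1
          rw [h0] at this
          simpa using this
        rw [act_append, h3, act_zero]
        exact AddSubgroup.zero_mem _

theorem kos_ext [hp : Fact p.Prime] (hS : IsGr S) (h0 : S 0 = ⊥) (hAS : ∀ a, A a ≤ S a) (hA : IsId A S)
    {c : ℕ} (hc : ∀ a, LC S c a ≤ A a) (t : ℕ) :
    ∀ (b : ZMod p) (x : L) (l : List (Item L p)), x ∈ LC S (c + t) b → (∀ i ∈ l, Val S i) →
      (p - 2) * c + 1 ≤ t + wt l → act x l ∈ Der A (b + dg l) := by
  induction t with
  | zero =>
    intro b x l hx hl hw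
    exact kos_main hS h0 hAS hA hc _ l rfl hl (by simpa using hw) b x (hc _ hx)
  | succ t ih =>
    intro b x l hx hl hw
    induction hx using AddSubgroup.closure_induction with
    | mem z hz =>
      obtain ⟨b', e, u, y, hbe, hu, hy, rfl⟩ := hz
      have := ih b' u ((⟨0, e, y⟩ : Item L p) :: l) hu
        (by
          intro i hi
          rcases List.mem_cons.mp hi with rfl | hi
          · exact hy
          · exact hl i hi)
        (by simp at hw ⊢; omega)
      have e2 : b' + dg ((⟨0, e, y⟩ : Item L p) :: l) = b + dg l := by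
        simp [← hbe, add_assoc]
      rwa [e2] at this
    | zero => rw [act_zero]; exact AddSubgroup.zero_mem _
    | add u v _ _ hu hv => rw [act_add]; exact AddSubgroup.add_mem _ hu hv
    | neg u _ hu => rw [act_neg]; exact AddSubgroup.neg_mem _ hu

/-- The Kostrikin function. -/
def kf (p : ℕ) : ℕ → ℕ
  | 0 => 0
  | s + 1 => (p - 1) * kf p s + 1

theorem LC_le_iter [hp : Fact p.Prime] (hS : IsGr S) (h0 : S 0 = ⊥) (s : ℕ) :
    ∀ a, LC S (kf p s) a ≤ Der^[s] S a := by
  induction s with
  | zero => exact fun a => le_rfl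
  | succ s ih =>
    intro a x hx
    rw [Function.iterate_succ_apply']
    set c := kf p s
    obtain ⟨q, hq⟩ : ∃ q, p = q + 2 := ⟨p - 2, by have := hp.out.two_le; omega⟩
    have e1 : kf p (s + 1) = c + ((p - 2) * c + 1) := by
      show (p - 1) * c + 1 = _
      rw [hq]
      simp only [Nat.add_sub_cancel]
      have : q + 2 - 1 = q + 1 := by omega
      rw [this]
      ring
    rw [e1] at hx
    have := kos_ext hS h0 (iter_le hS s) (iter_isId hS s) ih ((p - 2) * c + 1) a x [] hx (by simp)
      (by simp)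
    simpa using this

theorem kf_eq (p s : ℕ) : kf p s = ∑ i ∈ Finset.range s, (p - 1) ^ i := by
  induction s with
  | zero => simp [kf]
  | succ s ih =>
    rw [Finset.sum_range_succ', kf, ih, Finset.mul_sum]
    simp only [pow_succ, pow_zero]
    congr 1
    refine Finset.sum_congr rfl fun i _ => ?_
    ring

/-- **Higman--Kreknin--Kostrikin, graded form.** -/
theorem LC_eq_bot [hp : Fact p.Prime] (hS : IsGr S) (h0 : S 0 = ⊥) (a : ZMod p) :
    LC S (∑ i ∈ Finset.range (2 ^ (p - 1) - 1), (p - 1) ^ i) a = ⊥ := by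
  rw [← kf_eq, eq_bot_iff]
  exact (LC_le_iter hS h0 _ a).trans (kreknin hS h0 a).le

/-- The class one case: `p = 2`. -/
theorem LC_one_two {S : ZMod 2 → AddSubgroup L} (hS : IsGr S) (h0 : S 0 = ⊥) (a : ZMod 2) : LC S 1 a = ⊥ := by
  rw [eq_bot_iff]
  refine (AddSubgroup.closure_le _).2 ?_
  rintro _ ⟨b, c, x, y, rfl, hx, hy, rfl⟩
  have hzero : ∀ {d : ZMod 2} {v : L}, d = 0 → v ∈ S d → v = 0 := by
    intro d v hd hv
    rw [hd, h0] at hv
    simpa using hv
  by_cases hb : b = 0
  · rw [hzero hb hx, zero_lie]; exact AddSubgroup.zero_mem _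
  by_cases hc : c = 0
  · rw [hzero hc hy, lie_zero]; exact AddSubgroup.zero_mem _
  have aux : ∀ b c : ZMod 2, b ≠ 0 → c ≠ 0 → b + c = 0 := by decide
  have : b + c = 0 := aux b c hb hc
  rw [hzero this (hS _ _ _ _ hx hy)]
  exact AddSubgroup.zero_mem _

/-- The class two case: `p = 3`. -/
theorem LC_two_three {S : ZMod 3 → AddSubgroup L} (hS : IsGr S) (h0 : S 0 = ⊥) (a : ZMod 3) : LC S 2 a = ⊥ := by
  rw [eq_bot_iff]
  refine (AddSubgroup.closure_le _).2 ?_
  rintro _ ⟨b', d, u, z, rfl, hu, hz, rfl⟩
  have hzero : ∀ {d : ZMod 3} {v : L}, d = 0 → v ∈ S d → v = 0 := by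
    intro d v hd hv
    rw [hd, h0] at hv
    simpa using hv
  -- the statement for generators of `LC S 1 b'`
  have : ∀ v ∈ LC S 1 b', ⁅v, z⁆ = 0 := by
    intro v hv
    induction hv using AddSubgroup.closure_induction with
    | mem w hw =>
      obtain ⟨b, c, x, y, rfl, hx, hy, rfl⟩ := hw
      have hx' : x ∈ S b := hx
      by_cases hb : b = 0
      · rw [hzero hb hx', zero_lie, zero_lie]
      by_cases hc : c = 0
      · rw [hzero hc hy, lie_zero, zero_lie]
      by_cases hd : d = 0
      · rw [hzero hd hz, lie_zero]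
      have aux : ∀ b c d : ZMod 3, b ≠ 0 → c ≠ 0 → d ≠ 0 →
          b + c = 0 ∨ b + c + d = 0 ∨ (c + d = 0 ∧ b + d = 0) := by decide
      have hcases := aux b c d hb hc hd
      rcases hcases with h | h | ⟨h1, h2⟩
      · rw [hzero h (hS _ _ _ _ hx' hy), zero_lie]
      · exact hzero h (hS _ _ _ _ (hS _ _ _ _ hx' hy) hz)
      · have hyz := hzero h1 (hS _ _ _ _ hy hz)
        have hxz := hzero h2 (hS _ _ _ _ hx' hz)
        have := leibniz_lie x y z
        rw [hyz, lie_zero, hxz, lie_zero, add_zero] at this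
        exact this.symm
    | zero => simp
    | add u v _ _ hu hv => rw [add_lie, hu, hv, add_zero]
    | neg u _ hu => rw [neg_lie, hu, neg_zero]
  rw [this u hu]
  exact AddSubgroup.zero_mem _

end main

end Cfsg.Agent.Lib.PGroup.HKK
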