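import Mathlib
import Cfsg.Agent.Lib.PGroup.LieKK

/-!
# The group-ring trick replacing scalar extension

For a Lie ring `L` with an automorphism `φ` of order dividing `p` without nontrivial fixed points
and no `p`-torsion, the Lie ring of functions `ZMod p → L` with the convolution bracket carries
a graded family with vanishing zero component, and `L` embeds in it modulo constants.
-/

namespace Cfsg.Agent.Lib.PGroup.HKK

/-- Functions on `ZMod p` with the convolution bracket. -/
structure Conv (p : ℕ) (L : Type*) where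
  /-- The underlying function. -/
  ap : ZMod p → L

variable {L : Type*} [LieRing L] {p : ℕ} [hp : Fact p.Prime]

instance : CoeFun (Conv p L) (fun _ => ZMod p → L) := ⟨Conv.ap⟩

theorem Conv.ap_inj : Function.Injective (Conv.ap : Conv p L → ZMod p → L) := by
  rintro ⟨f⟩ ⟨g⟩ h
  simpa using h

instance : Zero (Conv p L) := ⟨⟨0⟩⟩
instance : Add (Conv p L) := ⟨fun f g => ⟨f.ap + g.ap⟩⟩
instance : Neg (Conv p L) := ⟨fun f => ⟨-f.ap⟩⟩
instance : Sub (Conv p L) := ⟨fun f g => ⟨f.ap - g.ap⟩⟩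
instance : SMul ℕ (Conv p L) := ⟨fun n f => ⟨n • f.ap⟩⟩
instance : SMul ℤ (Conv p L) := ⟨fun n f => ⟨n • f.ap⟩⟩

instance : AddCommGroup (Conv p L) :=
  Function.Injective.addCommGroup Conv.ap Conv.ap_inj rfl (fun _ _ => rfl) (fun _ => rfl)
    (fun _ _ => rfl) (fun _ _ => rfl) (fun _ _ => rfl)

instance : Bracket (Conv p L) (Conv p L) :=
  ⟨fun f g => ⟨fun c => ∑ a : ZMod p, ⁅f a, g (c - a)⁆⟩⟩

theorem Conv.lie_apply (f g : Conv p L) (c : ZMod p) : (⁅f, g⁆ : Conv p L) c = ∑ a : ZMod p, ⁅f a, g (c - a)⁆ := rfl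

theorem Conv.add_apply (f g : Conv p L) (c : ZMod p) : (f + g : Conv p L) c = f c + g c := rfl

theorem Conv.neg_apply (f : Conv p L) (c : ZMod p) : (-f : Conv p L) c = - f c := rfl

theorem Conv.zero_apply (c : ZMod p) : (0 : Conv p L) c = 0 := rfl

theorem Conv.nsmul_apply (n : ℕ) (f : Conv p L) (c : ZMod p) : (n • f : Conv p L) c = n • f c := rfl

theorem Conv.sum_apply {ι : Type*} (s : Finset ι) (F : ι → Conv p L) (c : ZMod p) :
    (∑ i ∈ s, F i : Conv p L) c = ∑ i ∈ s, F i c := by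
  classical
  induction s using Finset.induction_on with
  | empty => rfl
  | insert a s ha ih => rw [Finset.sum_insert ha, Finset.sum_insert ha, Conv.add_apply, ih]

@[ext] theorem Conv.ext {f g : Conv p L} (h : ∀ c, f c = g c) : f = g :=
  Conv.ap_inj (funext h)

/-- bracket with a finite sum on the right -/
theorem lie_sum' {ι : Type*} (s : Finset ι) (x : L) (F : ι → L) :
    ⁅x, ∑ i ∈ s, F i⁆ = ∑ i ∈ s, ⁅x, F i⁆ := by
  classical
  induction s using Finset.induction_on with
  | empty => simp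
  | insert a s ha ih => rw [Finset.sum_insert ha, Finset.sum_insert ha, lie_add, ih]

/-- bracket with a finite sum on the left -/
theorem sum_lie' {ι : Type*} (s : Finset ι) (x : L) (F : ι → L) :
    ⁅∑ i ∈ s, F i, x⁆ = ∑ i ∈ s, ⁅F i, x⁆ := by
  classical
  induction s using Finset.induction_on with
  | empty => simp
  | insert a s ha ih => rw [Finset.sum_insert ha, Finset.sum_insert ha, add_lie, ih]

instance : LieRing (Conv p L) where
  add_lie f g h := by
    ext c
    simp only [Conv.lie_apply, Conv.add_apply, add_lie, Finset.sum_add_distrib]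
  lie_add f g h := by
    ext c
    simp only [Conv.lie_apply, Conv.add_apply, lie_add, Finset.sum_add_distrib]
  lie_self f := by
    ext c
    rw [Conv.lie_apply, Conv.zero_apply]
    refine Finset.sum_involution (fun a _ => c - a) ?_ ?_ (fun _ _ => Finset.mem_univ _) ?_
    · intro a _
      rw [sub_sub_cancel, ← lie_skew (f (c - a)) (f a)]
      exact add_neg_cancel _
    · intro a _ hne heq
      apply hne
      rw [heq, lie_self]
    · intro a _
      exact sub_sub_cancel c a
  leibniz_lie f g h := by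
    ext c
    rw [Conv.add_apply, Conv.lie_apply, Conv.lie_apply ⁅f, g⁆ h, Conv.lie_apply g ⁅f, h⁆]
    simp only [Conv.lie_apply, lie_sum', sum_lie']
    -- the three double sums
    have h1 : ∑ d : ZMod p, ∑ a : ZMod p, ⁅⁅f a, g (d - a)⁆, h (c - d)⁆ =
        ∑ a : ZMod p, ∑ b : ZMod p, ⁅⁅f a, g b⁆, h (c - a - b)⁆ := by
      rw [Finset.sum_comm]
      refine Finset.sum_congr rfl fun a _ => ?_
      refine Fintype.sum_equiv (Equiv.subRight a) _ _ fun d => ?_
      simp only [Equiv.subRight_apply]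
      congr 2
      abel
    have h2 : ∑ b : ZMod p, ∑ a : ZMod p, ⁅g b, ⁅f a, h (c - b - a)⁆⁆ =
        ∑ a : ZMod p, ∑ b : ZMod p, ⁅g b, ⁅f a, h (c - a - b)⁆⁆ := by
      rw [Finset.sum_comm]
      refine Finset.sum_congr rfl fun a _ => Finset.sum_congr rfl fun b _ => ?_
      congr 3
      abel
    rw [h1, h2, ← Finset.sum_add_distrib]
    refine Finset.sum_congr rfl fun a _ => ?_
    rw [← Finset.sum_add_distrib]
    refine Finset.sum_congr rfl fun b _ => ?_
    exact leibniz_lie _ _ _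

variable (φ : L →+ L)

/-- The twisted eigen-family. -/
def Sg (i : ZMod p) : AddSubgroup (Conv p L) where
  carrier := {f | ∀ a, φ (f a) = f (a - i)}
  add_mem' := by
    intro f g hf hg a
    simp only [Set.mem_setOf_eq] at hf hg
    rw [Conv.add_apply, Conv.add_apply, map_add, hf, hg]
  zero_mem' := by
    intro a
    simp [Conv.zero_apply]
  neg_mem' := by
    intro f hf a
    simp only [Set.mem_setOf_eq] at hf
    rw [Conv.neg_apply, Conv.neg_apply, map_neg, hf]

theorem mem_Sg {i : ZMod p} {f : Conv p L} : f ∈ Sg φ i ↔ ∀ a, φ (f a) = f (a - i) := Iff.rfl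

variable {φ}

theorem Sg_isGr (hφ : ∀ x y, φ ⁅x, y⁆ = ⁅φ x, φ y⁆) : IsGr (Sg (p := p) φ) := by
  intro i j f g hf hg
  rw [mem_Sg] at hf hg ⊢
  intro c
  rw [Conv.lie_apply, Conv.lie_apply, map_sum]
  refine Fintype.sum_equiv (Equiv.subRight i) _ _ fun a => ?_
  rw [hφ, hf, hg]
  simp only [Equiv.subRight_apply]
  congr 2
  abel

theorem Sg_zero (hfix : ∀ x, φ x = x → x = 0) : Sg (p := p) φ 0 = ⊥ := by
  rw [eq_bot_iff]
  intro f hf
  rw [mem_Sg] at hf
  rw [AddSubgroup.mem_bot]
  ext a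
  refine hfix _ ?_
  rw [hf, sub_zero]

/-- Powers of `φ` indexed by `ZMod p`. -/
def pw (φ : L →+ L) (c : ZMod p) (x : L) : L := φ^[c.val] x

theorem pw_zero (x : L) : pw φ (0 : ZMod p) x = x := by simp [pw]


theorem pw_succ (hpp : ∀ x, φ^[p] x = x) (c : ZMod p) (x : L) : pw φ (c + 1) x = φ (pw φ c x) := by
  have h1 : (c + 1).val = (c.val + 1) % p := by
    rw [ZMod.val_add, ZMod.val_one'' hp.out.ne_one]
  have hper : Function.IsPeriodicPt (⇑φ) p x := hpp x
  rw [pw, h1, hper.iterate_mod_apply, Function.iterate_succ_apply']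
  rfl

theorem pw_map_add (c : ZMod p) (x y : L) : pw φ c (x + y) = pw φ c x + pw φ c y := by
  simp [pw, iterate_map_add]

theorem norm_zero (hpp : ∀ x, φ^[p] x = x) (hfix : ∀ x, φ x = x → x = 0) (x : L) :
    ∑ c : ZMod p, pw φ c x = 0 := by
  apply hfix
  rw [map_sum]
  refine Fintype.sum_equiv (Equiv.addRight 1) _ _ fun c => ?_
  rw [← pw_succ hpp]
  rfl

/-- Eigenvectors. -/
def ev (φ : L →+ L) (i : ZMod p) (x : L) : Conv p L := ⟨fun a => pw φ (-a * i⁻¹) x⟩

theorem ev_mem (hpp : ∀ x, φ^[p] x = x) {i : ZMod p} (hi : i ≠ 0) (x : L) : ev φ i x ∈ Sg φ i := by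
  rw [mem_Sg]
  intro a
  show φ (pw φ _ x) = pw φ _ x
  rw [← pw_succ hpp]
  congr 1
  field_simp
  ring

/-- Delta at zero. -/
def dl (x : L) : Conv p L := ⟨fun a => if a = 0 then x else 0⟩

/-- Constant functions. -/
def cs (x : L) : Conv p L := ⟨fun _ => x⟩

theorem dl_add (x y : L) : (dl (x + y) : Conv p L) = dl x + dl y := by
  ext a
  rw [Conv.add_apply]
  by_cases h : a = 0 <;> simp [dl, h]

theorem dl_neg (x : L) : (dl (-x) : Conv p L) = - dl x := by
  ext a
  rw [Conv.neg_apply]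
  by_cases h : a = 0 <;> simp [dl, h]

theorem dl_zero : (dl (0 : L) : Conv p L) = 0 := by
  ext a
  rw [Conv.zero_apply]
  by_cases h : a = 0 <;> simp [dl, h]

theorem dl_lie (x y : L) : (dl ⁅x, y⁆ : Conv p L) = ⁅(dl x : Conv p L), (dl y : Conv p L)⁆ := by
  ext c
  rw [Conv.lie_apply]
  rw [Finset.sum_eq_single (0 : ZMod p)]
  · by_cases h : c = 0 <;> simp [dl, h]
  · intro a _ ha
    simp [dl, ha]
  · simp

theorem cs_lie_left (x : L) (g : Conv p L) :
    (⁅(cs x : Conv p L), g⁆ : Conv p L) = cs ⁅x, ∑ a : ZMod p, g a⁆ := by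
  ext c
  rw [Conv.lie_apply, lie_sum']
  show _ = ∑ a : ZMod p, ⁅x, g a⁆
  exact Fintype.sum_equiv (Equiv.subLeft c) _ _ (fun a => rfl)

theorem cs_lie_right (x : L) (g : Conv p L) :
    (⁅g, (cs x : Conv p L)⁆ : Conv p L) = cs ⁅∑ a : ZMod p, g a, x⁆ := by
  ext c
  rw [Conv.lie_apply, sum_lie']
  rfl

theorem cs_add (x y : L) : (cs (x + y) : Conv p L) = cs x + cs y := rfl

theorem cs_neg (x : L) : (cs (-x) : Conv p L) = - cs x := rfl

theorem cs_zero : (cs (0 : L) : Conv p L) = 0 := rfl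

/-- The decomposition of `p • δ x`. -/
theorem decomp (hpp : ∀ x, φ^[p] x = x) (hfix : ∀ x, φ x = x → x = 0) (x : L) :
    p • (dl x : Conv p L) = ∑ i ∈ Finset.univ.erase (0 : ZMod p), ev φ i x + cs x := by
  ext a
  rw [Conv.nsmul_apply, Conv.add_apply, Conv.sum_apply]
  show _ = ∑ i ∈ Finset.univ.erase (0 : ZMod p), pw φ (-a * i⁻¹) x + x
  by_cases ha : a = 0
  · subst ha
    simp only [neg_zero, zero_mul, pw_zero, Finset.sum_const]
    rw [Finset.card_erase_of_mem (Finset.mem_univ _), Finset.card_univ, ZMod.card]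
    have hp1 : 1 ≤ p := hp.out.pos
    obtain ⟨q, rfl⟩ : ∃ q, p = q + 1 := ⟨p - 1, by omega⟩
    simp [dl, add_smul]
  · have h1 : ∑ i ∈ Finset.univ.erase (0 : ZMod p), pw φ (-a * i⁻¹) x =
        ∑ c ∈ Finset.univ.erase (0 : ZMod p), pw φ c x := by
      refine Finset.sum_nbij' (fun i => -a * i⁻¹) (fun c => -a * c⁻¹) ?_ ?_ ?_ ?_ ?_
      · intro i hi
        simp only [Finset.mem_erase, Finset.mem_univ, and_true] at hi ⊢
        exact mul_ne_zero (neg_ne_zero.mpr ha) (inv_ne_zero hi)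
      · intro i hi
        simp only [Finset.mem_erase, Finset.mem_univ, and_true] at hi ⊢
        exact mul_ne_zero (neg_ne_zero.mpr ha) (inv_ne_zero hi)
      · intro i hi
        simp only [Finset.mem_erase, Finset.mem_univ, and_true] at hi
        field_simp
      · intro i hi
        simp only [Finset.mem_erase, Finset.mem_univ, and_true] at hi
        field_simp
      · intro i _
        rfl
    rw [h1]
    have h2 := Finset.add_sum_erase (Finset.univ : Finset (ZMod p)) (fun c => pw φ c x) (Finset.mem_univ 0)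
    simp only [pw_zero] at h2
    rw [norm_zero hpp hfix x] at h2
    rw [add_comm, h2]
    simp [dl, ha]

/-- Total of a lower central family. -/
def TT (S : ZMod p → AddSubgroup L) (w : ℕ) : AddSubgroup L := ⨆ a, LC S w a

theorem lie_TT {S : ZMod p → AddSubgroup L} {w : ℕ} {x y : L} (hx : x ∈ TT S w) (hy : y ∈ TT S 0) :
    ⁅x, y⁆ ∈ TT S (w + 1) := by
  unfold TT at hx hy
  induction hx using AddSubgroup.iSup_induction' with
  | hp a x hx =>
    induction hy using AddSubgroup.iSup_induction' with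
    | hp c y hy =>
      exact AddSubgroup.mem_iSup_of_mem (a + c) (lie_mem_LC rfl hx hy)
    | h1 => rw [lie_zero]; exact AddSubgroup.zero_mem _
    | hadd u v _ _ hu hv => rw [lie_add]; exact AddSubgroup.add_mem _ hu hv
  | h1 => rw [zero_lie]; exact AddSubgroup.zero_mem _
  | hadd u v _ _ hu hv => rw [add_lie]; exact AddSubgroup.add_mem _ hu hv

/-- Lower central series of a Lie ring. -/
def LS (L : Type*) [LieRing L] : ℕ → AddSubgroup L
  | 0 => ⊤
  | w + 1 => AddSubgroup.closure {z | ∃ x ∈ LS L w, ∃ y : L, ⁅x, y⁆ = z}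

theorem exists_rep (hpp : ∀ x, φ^[p] x = x) (hfix : ∀ x, φ x = x → x = 0) (w : ℕ) :
    ∀ z ∈ LS L w, ∃ t ∈ TT (Sg (p := p) φ) w, ∃ c : L, p ^ (w + 1) • (dl z : Conv p L) = t + cs c := by
  induction w with
  | zero =>
    intro z _
    refine ⟨∑ i ∈ Finset.univ.erase (0 : ZMod p), ev φ i z, ?_, z, ?_⟩
    · refine AddSubgroup.sum_mem _ fun i hi => ?_
      exact AddSubgroup.mem_iSup_of_mem i (ev_mem hpp (Finset.ne_of_mem_erase hi) z)
    · rw [pow_one]
      exact decomp hpp hfix z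
  | succ w ih =>
    intro z hz
    induction hz using AddSubgroup.closure_induction with
    | mem z hz =>
      obtain ⟨u, hu, v, rfl⟩ := hz
      obtain ⟨t, ht, c, hc⟩ := ih u hu
      have ht' : ∑ i ∈ Finset.univ.erase (0 : ZMod p), ev φ i v ∈ TT (Sg (p := p) φ) 0 := by
        refine AddSubgroup.sum_mem _ fun i hi => ?_
        exact AddSubgroup.mem_iSup_of_mem i (ev_mem hpp (Finset.ne_of_mem_erase hi) v)
      set t' := ∑ i ∈ Finset.univ.erase (0 : ZMod p), ev φ i v
      have hd := decomp hpp hfix v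
      refine ⟨⁅t, t'⁆, lie_TT ht ht',
        ⁅∑ a : ZMod p, t a, v⁆ + (⁅c, ∑ a : ZMod p, t' a⁆ + ⁅c, ∑ a : ZMod p, (cs v : Conv p L) a⁆), ?_⟩
      · have e : p ^ (w + 1 + 1) • (dl ⁅u, v⁆ : Conv p L) =
            ⁅p ^ (w + 1) • (dl u : Conv p L), p • (dl v : Conv p L)⁆ := by
          rw [dl_lie, nsmul_lie, lie_nsmul, smul_smul, pow_succ _ (w + 1)]
        rw [e, hc, hd, add_lie, lie_add, lie_add, cs_lie_left, cs_lie_left, cs_lie_right, cs_add, cs_add]
        abel
    | zero =>
      exact ⟨0, AddSubgroup.zero_mem _, 0, by rw [dl_zero, smul_zero, cs_zero, add_zero]⟩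
    | add x y _ _ hx hy =>
      obtain ⟨t, ht, c, hc⟩ := hx
      obtain ⟨t', ht', c', hc'⟩ := hy
      refine ⟨t + t', AddSubgroup.add_mem _ ht ht', c + c', ?_⟩
      rw [dl_add, smul_add, hc, hc', cs_add]
      abel
    | neg x _ hx =>
      obtain ⟨t, ht, c, hc⟩ := hx
      refine ⟨-t, AddSubgroup.neg_mem _ ht, -c, ?_⟩
      rw [dl_neg, smul_neg, hc, cs_neg]
      abel

theorem LS_eq_bot (hpp : ∀ x, φ^[p] x = x) (hfix : ∀ x, φ x = x → x = 0) (htors : ∀ x : L, p • x = 0 → x = 0)
    {m : ℕ} (hLC : ∀ a, LC (Sg (p := p) φ) m a = ⊥) : LS L m = ⊥ := by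
  rw [eq_bot_iff]
  intro z hz
  rw [AddSubgroup.mem_bot]
  obtain ⟨t, ht, c, hc⟩ := exists_rep hpp hfix m z hz
  have hT : TT (Sg (p := p) φ) m = ⊥ := by
    unfold TT
    simp [hLC]
  rw [hT, AddSubgroup.mem_bot] at ht
  subst ht
  rw [zero_add] at hc
  have h1 : (1 : ZMod p) ≠ 0 := one_ne_zero
  have hc0 : c = 0 := by
    have := congrArg (fun f : Conv p L => f 1) hc
    simp only [Conv.nsmul_apply] at this
    have e : (dl z : Conv p L) 1 = 0 := by
      show (if (1 : ZMod p) = 0 then z else 0) = 0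
      rw [if_neg h1]
    rw [e, smul_zero] at this
    exact this.symm
  subst hc0
  have h2 := congrArg (fun f : Conv p L => f 0) hc
  simp only [Conv.nsmul_apply] at h2
  have e0 : (dl z : Conv p L) 0 = z := by
    show (if (0 : ZMod p) = 0 then z else 0) = z
    rw [if_pos rfl]
  rw [e0] at h2
  have h3 : p ^ (m + 1) • z = 0 := h2
  have : ∀ n : ℕ, p ^ n • z = 0 → z = 0 := by
    intro n
    induction n with
    | zero => simp
    | succ n ih =>
      intro h
      apply ih
      apply htors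
      rw [smul_smul, ← pow_succ']
      exact h
  exact this _ h3

end Cfsg.Agent.Lib.PGroup.HKK
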