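import Mathlib
import Cfsg.Agent.Lib.ClassSizes.HallPet
import Cfsg.Agent.Lib.PGroup.LieConv

/-!
# The Lie ring of the lower central factors of a group
-/

namespace Cfsg.Agent.Lib.PGroup.HKK

open Cfsg.Agent.Lib.ClassSizes.HallPet
open scoped commutatorElement

section gamma

variable (G : Type*) [Group G]

/-- The lower central series. -/
abbrev Gm (n : ℕ) : Subgroup G := (⊤ : Subgroup G).lowerCentralSeries n

instance Gm_normal (n : ℕ) : (Gm G n).Normal := inferInstance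

variable {G}

theorem comm_mem {i j n : ℕ} (hn : i + j + 1 = n) {a b : G} (ha : a ∈ Gm G i) (hb : b ∈ Gm G j) :
    ⁅a, b⁆ ∈ Gm G n := by
  subst hn
  exact lcs_comm G j i (Subgroup.commutator_mem_commutator ha hb)

theorem mem_Gm_zero (g : G) : g ∈ Gm G 0 := Subgroup.mem_top g

theorem Gm_anti {m n : ℕ} (h : m ≤ n) : Gm G n ≤ Gm G m :=
  Subgroup.lowerCentralSeries_antitone _ h

theorem Gm_succ_le (n : ℕ) : Gm G (n + 1) ≤ Gm G n := Gm_anti (Nat.le_succ n)

variable (G)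

/-- The `n`-th lower central factor. -/
def Qt (n : ℕ) : Type _ := ↥(Gm G n) ⧸ ((Gm G (n + 1)).subgroupOf (Gm G n))

instance (n : ℕ) : Group (Qt G n) :=
  inferInstanceAs (Group (↥(Gm G n) ⧸ ((Gm G (n + 1)).subgroupOf (Gm G n))))

/-- The quotient map to the lower central factor. -/
def qm (n : ℕ) : ↥(Gm G n) →* Qt G n := QuotientGroup.mk' ((Gm G (n + 1)).subgroupOf (Gm G n))

variable {G}

theorem qm_surj (n : ℕ) : Function.Surjective (qm G n) := QuotientGroup.mk'_surjective _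

theorem qm_eq_one_iff {n : ℕ} (a : ↥(Gm G n)) : qm G n a = 1 ↔ a.1 ∈ Gm G (n + 1) := by
  have := QuotientGroup.eq_one_iff (N := (Gm G (n + 1)).subgroupOf (Gm G n)) a
  rw [Subgroup.mem_subgroupOf] at this
  exact this

variable (G)

instance (n : ℕ) : CommGroup (Qt G n) :=
  { (inferInstance : Group (Qt G n)) with
    mul_comm := by
      intro x y
      obtain ⟨a, rfl⟩ := qm_surj n x
      obtain ⟨b, rfl⟩ := qm_surj n y
      rw [← map_mul, ← map_mul]
      have h : (b * a)⁻¹ * (a * b) ∈ (⊤ : Subgroup ↥(Gm G n)) := Subgroup.mem_top _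
      have h2 : qm G n ((b * a)⁻¹ * (a * b)) = 1 := by
        rw [qm_eq_one_iff]
        have e : (((b * a)⁻¹ * (a * b) : ↥(Gm G n)) : G) = ⁅a.1⁻¹, b.1⁻¹⁆ := by
          simp [commutatorElement_def, mul_assoc]
        rw [e]
        exact comm_mem (by simp) (Subgroup.inv_mem _ a.2) (mem_Gm_zero _)
      rw [map_mul, map_inv, inv_mul_eq_one] at h2
      exact h2.symm }

/-- The additive lower central factor. -/
abbrev Ad (n : ℕ) : Type _ := Additive (Qt G n)

/-- The image of an element of the series in the factor. -/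
def pi (n : ℕ) (a : ↥(Gm G n)) : Ad G n := Additive.ofMul (qm G n a)

variable {G}

theorem pi_mul {n : ℕ} (a b : ↥(Gm G n)) : pi G n (a * b) = pi G n a + pi G n b := by
  simp [pi]

theorem pi_surj (n : ℕ) : Function.Surjective (pi G n) := fun x => by
  obtain ⟨a, ha⟩ := qm_surj n (Additive.toMul x)
  exact ⟨a, by simp [pi, ha]⟩

theorem pi_eq_zero_iff {n : ℕ} (a : ↥(Gm G n)) : pi G n a = 0 ↔ a.1 ∈ Gm G (n + 1) := by
  rw [← qm_eq_one_iff]
  exact Iff.rfl

/-- Lifting an additive map to the factor. -/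
def liftA {X : Type*} [AddCommGroup X] (n : ℕ) (F : ↥(Gm G n) → X)
    (hadd : ∀ a b, F (a * b) = F a + F b) (hker : ∀ a : ↥(Gm G n), a.1 ∈ Gm G (n + 1) → F a = 0) :
    Ad G n →+ X :=
  MonoidHom.toAdditiveLeft
    (QuotientGroup.lift ((Gm G (n + 1)).subgroupOf (Gm G n))
      (MonoidHom.mk' (fun a => Multiplicative.ofAdd (F a)) (fun a b => by rw [hadd]; rfl))
      (fun x hx => by
        have : F x = 0 := hker x (Subgroup.mem_subgroupOf.mp hx)
        show Multiplicative.ofAdd (F x) = 1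
        rw [this]; rfl))

theorem liftA_pi {X : Type*} [AddCommGroup X] (n : ℕ) (F : ↥(Gm G n) → X)
    (hadd : ∀ a b, F (a * b) = F a + F b) (hker : ∀ a : ↥(Gm G n), a.1 ∈ Gm G (n + 1) → F a = 0)
    (a : ↥(Gm G n)) : liftA n F hadd hker (pi G n a) = F a := rfl

variable (G)

/-- The Lie ring of the lower central factors. -/
abbrev GrL : Type _ := DirectSum ℕ (fun n => Ad G n)

/-- The inclusion of a factor. -/
def inc (n : ℕ) : Ad G n →+ GrL G := DirectSum.of (fun n => Ad G n) n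

variable {G}

open Classical in
/-- The class of a group element in a given factor. -/
noncomputable def gr (n : ℕ) (g : G) : GrL G :=
  if h : g ∈ Gm G n then inc G n (pi G n ⟨g, h⟩) else 0

theorem gr_of_mem {n : ℕ} {g : G} (h : g ∈ Gm G n) : gr n g = inc G n (pi G n ⟨g, h⟩) := dif_pos h

theorem gr_mul {n : ℕ} {a b : G} (ha : a ∈ Gm G n) (hb : b ∈ Gm G n) :
    gr n (a * b) = gr n a + gr n b := by
  rw [gr_of_mem ha, gr_of_mem hb, gr_of_mem (Subgroup.mul_mem _ ha hb), ← map_add, ← pi_mul]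
  rfl

theorem gr_eq_zero {n : ℕ} {a : G} (ha : a ∈ Gm G (n + 1)) : gr n a = 0 := by
  rw [gr_of_mem (Gm_succ_le n ha), (pi_eq_zero_iff _).mpr ha, map_zero]

theorem gr_eq_zero_iff {n : ℕ} {a : G} (ha : a ∈ Gm G n) : gr n a = 0 ↔ a ∈ Gm G (n + 1) := by
  refine ⟨fun h => ?_, gr_eq_zero⟩
  rw [gr_of_mem ha] at h
  have h2 : pi G n ⟨a, ha⟩ = 0 := by
    apply DirectSum.of_injective (β := fun n => Ad G n) n
    rw [map_zero]
    exact h
  exact (pi_eq_zero_iff _).mp h2

theorem gr_one (n : ℕ) : gr n (1 : G) = 0 := gr_eq_zero (Subgroup.one_mem _)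

theorem gr_inv {n : ℕ} {a : G} (ha : a ∈ Gm G n) : gr n a⁻¹ = - gr n a := by
  have := gr_mul ha (Subgroup.inv_mem _ ha)
  rw [mul_inv_cancel, gr_one] at this
  exact (neg_eq_of_add_eq_zero_right this.symm).symm

theorem gr_pow {n : ℕ} {a : G} (ha : a ∈ Gm G n) (k : ℕ) : gr n (a ^ k) = k • gr n a := by
  induction k with
  | zero => simp [gr_one]
  | succ k ih => rw [pow_succ, gr_mul (Subgroup.pow_mem _ ha k) ha, ih, succ_nsmul]

theorem gr_conj {n : ℕ} {a : G} (ha : a ∈ Gm G n) (g : G) : gr n (g * a * g⁻¹) = gr n a := by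
  have e : g * a * g⁻¹ = ⁅g, a⁆ * a := by simp [commutatorElement_def]
  have hc : ⁅g, a⁆ ∈ Gm G (n + 1) := comm_mem (by omega) (mem_Gm_zero g) ha
  rw [e, gr_mul (Gm_succ_le n hc) ha, gr_eq_zero hc, zero_add]

theorem gr_induct {P : GrL G → Prop} (h0 : P 0) (hadd : ∀ x y, P x → P y → P (x + y))
    (hgr : ∀ (n : ℕ) (g : G), g ∈ Gm G n → P (gr n g)) (x : GrL G) : P x := by
  induction x using DirectSum.induction_on with
  | zero => exact h0
  | of n x =>
    obtain ⟨a, rfl⟩ := pi_surj n x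
    have := hgr n a.1 a.2
    rw [gr_of_mem a.2] at this
    exact this
  | add x y hx hy => exact hadd x y hx hy

theorem addHom_ext_gr {X : Type*} [AddCommGroup X] {f g : GrL G →+ X}
    (h : ∀ (n : ℕ) (a : G), a ∈ Gm G n → f (gr n a) = g (gr n a)) : f = g := by
  refine AddMonoidHom.ext fun x => ?_
  induction x using gr_induct with
  | h0 => simp
  | hadd x y hx hy => simp [map_add, hx, hy]
  | hgr n a ha => exact h n a ha

/-! ### Bi-additivity of the commutator modulo higher terms -/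

theorem gr_cml {i j n : ℕ} (hn : i + j + 1 = n) {a a' b : G} (ha : a ∈ Gm G i) (ha' : a' ∈ Gm G i)
    (hb : b ∈ Gm G j) : gr n ⁅a * a', b⁆ = gr n ⁅a, b⁆ + gr n ⁅a', b⁆ := by
  have e : ⁅a * a', b⁆ = (a * ⁅a', b⁆ * a⁻¹) * ⁅a, b⁆ := by
    simp [commutatorElement_def, mul_assoc]
  have h1 : ⁅a, b⁆ ∈ Gm G n := comm_mem hn ha hb
  have h2 : ⁅a', b⁆ ∈ Gm G n := comm_mem hn ha' hb
  rw [e, gr_mul ((Gm_normal G n).conj_mem _ h2 _) h1, gr_conj h2, add_comm]

theorem gr_cmr {i j n : ℕ} (hn : i + j + 1 = n) {a b b' : G} (ha : a ∈ Gm G i) (hb : b ∈ Gm G j)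
    (hb' : b' ∈ Gm G j) : gr n ⁅a, b * b'⁆ = gr n ⁅a, b⁆ + gr n ⁅a, b'⁆ := by
  have e : ⁅a, b * b'⁆ = ⁅a, b⁆ * (b * ⁅a, b'⁆ * b⁻¹) := by
    simp [commutatorElement_def, mul_assoc]
  have h1 : ⁅a, b⁆ ∈ Gm G n := comm_mem hn ha hb
  have h2 : ⁅a, b'⁆ ∈ Gm G n := comm_mem hn ha hb'
  rw [e, gr_mul h1 ((Gm_normal G n).conj_mem _ h2 _), gr_conj h2]

theorem gr_ckl {i j n : ℕ} (hn : i + j + 1 = n) {a b : G} (ha : a ∈ Gm G (i + 1))
    (hb : b ∈ Gm G j) : gr n ⁅a, b⁆ = 0 :=
  gr_eq_zero (comm_mem (by omega) ha hb)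

theorem gr_ckr {i j n : ℕ} (hn : i + j + 1 = n) {a b : G} (ha : a ∈ Gm G i)
    (hb : b ∈ Gm G (j + 1)) : gr n ⁅a, b⁆ = 0 :=
  gr_eq_zero (comm_mem (by omega) ha hb)

/-! ### The bracket -/

/-- Bracket by a fixed element of `Gm G i`. -/
noncomputable def brY (i : ℕ) (a : ↥(Gm G i)) : GrL G →+ GrL G :=
  DirectSum.toAddMonoid (fun j =>
    liftA j (fun b : ↥(Gm G j) => gr (i + j + 1) ⁅a.1, b.1⁆)
      (fun b b' => gr_cmr rfl a.2 b.2 b'.2)
      (fun b hb => gr_ckr rfl a.2 hb))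

theorem brY_gr (i : ℕ) (a : ↥(Gm G i)) {j : ℕ} {b : G} (hb : b ∈ Gm G j) :
    brY i a (gr j b) = gr (i + j + 1) ⁅a.1, b⁆ := by
  rw [gr_of_mem hb]
  exact (DirectSum.toAddMonoid_of _ j _).trans rfl

/-- The bracket on the Lie ring of the lower central factors. -/
noncomputable def brk : GrL G →+ GrL G →+ GrL G :=
  DirectSum.toAddMonoid (fun i =>
    liftA i (fun a : ↥(Gm G i) => brY i a)
      (fun a a' => by
        refine addHom_ext_gr fun j b hb => ?_
        rw [AddMonoidHom.add_apply, brY_gr _ _ hb, brY_gr _ _ hb, brY_gr _ _ hb]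
        exact gr_cml rfl a.2 a'.2 hb)
      (fun a ha => by
        refine addHom_ext_gr fun j b hb => ?_
        rw [brY_gr _ _ hb, AddMonoidHom.zero_apply]
        exact gr_ckl rfl ha hb))

theorem brk_gr {i j n : ℕ} (hn : i + j + 1 = n) {a b : G} (ha : a ∈ Gm G i) (hb : b ∈ Gm G j) :
    brk (gr i a) (gr j b) = gr n ⁅a, b⁆ := by
  subst hn
  have e : brk (gr i a) = brY i ⟨a, ha⟩ := by
    rw [gr_of_mem ha]
    exact (DirectSum.toAddMonoid_of _ i _).trans rfl
  rw [e, brY_gr _ _ hb]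

theorem brk_skew (x y : GrL G) : brk x y = - brk y x := by
  induction x using gr_induct with
  | h0 => simp
  | hadd x x' hx hx' => simp [hx, hx', add_comm]
  | hgr i a ha =>
    induction y using gr_induct with
    | h0 => simp
    | hadd y y' hy hy' => simp [hy, hy', add_comm]
    | hgr j b hb =>
      have hc : ⁅b, a⁆ ∈ Gm G (i + j + 1) := comm_mem (by omega) hb ha
      rw [brk_gr rfl ha hb, brk_gr (by omega : j + i + 1 = i + j + 1) hb ha, ← gr_inv hc,
        commutatorElement_inv]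

/-- Cyclic Jacobi on representatives. -/
theorem gr_jacobi {i j k n : ℕ} (hn : i + j + k + 2 = n) {a b c : G} (ha : a ∈ Gm G i)
    (hb : b ∈ Gm G j) (hc : c ∈ Gm G k) :
    gr n ⁅⁅a, b⁆, c⁆ + gr n ⁅⁅b, c⁆, a⁆ + gr n ⁅⁅c, a⁆, b⁆ = 0 := by
  -- a general reduction for one term
  have red : ∀ {i j k : ℕ} {a b c : G}, i + j + k + 2 = n → a ∈ Gm G i → b ∈ Gm G j → c ∈ Gm G k →
      gr n ⁅⁅a, b⁆, b * c * b⁻¹⁆ = gr n ⁅⁅a, b⁆, c⁆ := by
    intro i j k a b c hn ha hb hc
    have e : b * c * b⁻¹ = ⁅b, c⁆ * c := by simp [commutatorElement_def]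
    have h1 : ⁅a, b⁆ ∈ Gm G (i + j + 1) := comm_mem rfl ha hb
    have h2 : ⁅b, c⁆ ∈ Gm G (k + 1) := Gm_anti (by omega) (comm_mem rfl hb hc)
    rw [e, gr_cmr (i := i + j + 1) (j := k) (by omega) h1 (Gm_succ_le k h2) hc,
      gr_ckr (i := i + j + 1) (j := k) (by omega) h1 h2, zero_add]
  have hw : ⁅⁅a, b⁆, b * c * b⁻¹⁆ * ⁅⁅b, c⁆, c * a * c⁻¹⁆ * ⁅⁅c, a⁆, a * b * a⁻¹⁆ = 1 := by
    simp only [commutatorElement_def]
    group
  have h1 : ⁅⁅a, b⁆, b * c * b⁻¹⁆ ∈ Gm G n :=
    comm_mem (i := i + j + 1) (j := k) (by omega) (comm_mem rfl ha hb) ((Gm_normal G k).conj_mem _ hc _)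
  have h2 : ⁅⁅b, c⁆, c * a * c⁻¹⁆ ∈ Gm G n :=
    comm_mem (i := j + k + 1) (j := i) (by omega) (comm_mem rfl hb hc) ((Gm_normal G i).conj_mem _ ha _)
  have h3 : ⁅⁅c, a⁆, a * b * a⁻¹⁆ ∈ Gm G n :=
    comm_mem (i := k + i + 1) (j := j) (by omega) (comm_mem rfl hc ha) ((Gm_normal G j).conj_mem _ hb _)
  have := congrArg (gr n) hw
  rw [gr_mul (Subgroup.mul_mem _ h1 h2) h3, gr_mul h1 h2, gr_one, red hn ha hb hc,
    red (by omega) hb hc ha, red (by omega) hc ha hb] at this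
  exact this

theorem brk_jacobi (x y z : GrL G) : brk (brk x y) z + brk (brk y z) x + brk (brk z x) y = 0 := by
  induction x using gr_induct with
  | h0 => simp
  | hadd x x' hx hx' =>
    simp only [map_add, AddMonoidHom.add_apply]
    rw [← add_zero (0 : GrL G)]
    nth_rewrite 1 [← hx]
    nth_rewrite 1 [← hx']
    abel
  | hgr i a ha =>
    induction y using gr_induct with
    | h0 => simp
    | hadd y y' hy hy' =>
      simp only [map_add, AddMonoidHom.add_apply]
      rw [← add_zero (0 : GrL G)]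
      nth_rewrite 1 [← hy]
      nth_rewrite 1 [← hy']
      abel
    | hgr j b hb =>
      induction z using gr_induct with
      | h0 => simp
      | hadd z z' hz hz' =>
        simp only [map_add, AddMonoidHom.add_apply]
        rw [← add_zero (0 : GrL G)]
        nth_rewrite 1 [← hz]
        nth_rewrite 1 [← hz']
        abel
      | hgr k c hc =>
        rw [brk_gr rfl ha hb, brk_gr rfl hb hc, brk_gr rfl hc ha,
          brk_gr rfl (comm_mem rfl ha hb) hc, brk_gr rfl (comm_mem rfl hb hc) ha,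
          brk_gr rfl (comm_mem rfl hc ha) hb]
        have e1 : i + j + 1 + k + 1 = i + j + k + 2 := by omega
        have e2 : j + k + 1 + i + 1 = i + j + k + 2 := by omega
        have e3 : k + i + 1 + j + 1 = i + j + k + 2 := by omega
        rw [e1, e2, e3]
        exact gr_jacobi rfl ha hb hc

theorem brk_self (x : GrL G) : brk x x = 0 := by
  induction x using gr_induct with
  | h0 => simp
  | hadd x y hx hy =>
    simp only [map_add, AddMonoidHom.add_apply, hx, hy]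
    rw [brk_skew y x]
    abel
  | hgr i a ha =>
    rw [brk_gr rfl ha ha]
    simp [gr_one]

noncomputable instance : LieRing (GrL G) where
  bracket x y := brk x y
  add_lie x y z := by
    show brk (x + y) z = brk x z + brk y z
    simp
  lie_add x y z := by
    show brk x (y + z) = brk x y + brk x z
    simp
  lie_self x := brk_self x
  leibniz_lie x y z := by
    show brk x (brk y z) = brk (brk x y) z + brk y (brk x z)
    have h := brk_jacobi x y z
    have h1 : brk (brk y z) x = - brk x (brk y z) := brk_skew _ _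
    have h2 : brk (brk z x) y = brk y (brk x z) := by
      rw [brk_skew z x, map_neg, AddMonoidHom.neg_apply, brk_skew (brk x z) y, neg_neg]
    rw [h1, h2] at h
    rw [← sub_eq_zero, ← neg_eq_zero, ← h]
    abel

theorem lie_gr {i j n : ℕ} (hn : i + j + 1 = n) {a b : G} (ha : a ∈ Gm G i) (hb : b ∈ Gm G j) :
    ⁅(gr i a : GrL G), (gr j b : GrL G)⁆ = gr n ⁅a, b⁆ := brk_gr hn ha hb

end gamma

end Cfsg.Agent.Lib.PGroup.HKK
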