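import Mathlib
import Cfsg.Agent.Lib.FrobThm.FixedPointFree
import Cfsg.Agent.Lib.PGroup.LieGroup

/-!
# The Higman--Kreknin--Kostrikin theorem for finite groups
-/

namespace Cfsg.Agent.Lib.PGroup.HKK

open scoped commutatorElement

variable {G : Type*} [Group G]

theorem Gm_map (α : G ≃* G) {n : ℕ} {a : G} (ha : a ∈ Gm G n) : α a ∈ Gm G n := by
  have hc : (Gm G n).Characteristic := inferInstance
  exact (Subgroup.characteristic_iff_le_comap.mp hc α) ha

/-- The map induced on a lower central factor. -/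
noncomputable def phiA (α : G ≃* G) (n : ℕ) : Ad G n →+ Ad G n :=
  liftA n (fun a : ↥(Gm G n) => pi G n ⟨α a.1, Gm_map α a.2⟩)
    (fun a b => by
      rw [← pi_mul]
      congr 1
      ext
      simp)
    (fun a ha => (pi_eq_zero_iff _).mpr (Gm_map α ha))

/-- The map induced on the Lie ring. -/
noncomputable def phi (α : G ≃* G) : GrL G →+ GrL G := DirectSum.map (fun n => phiA α n)

theorem phi_gr (α : G ≃* G) {n : ℕ} {a : G} (ha : a ∈ Gm G n) : phi α (gr n a) = gr n (α a) := by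
  rw [gr_of_mem ha, gr_of_mem (Gm_map α ha)]
  exact DirectSum.map_of _ _ _

theorem phi_lie (α : G ≃* G) (x y : GrL G) : phi α ⁅x, y⁆ = ⁅phi α x, phi α y⁆ := by
  induction x using gr_induct with
  | h0 => simp
  | hadd x x' hx hx' => simp only [map_add, add_lie, hx, hx']
  | hgr i a ha =>
    induction y using gr_induct with
    | h0 => simp
    | hadd y y' hy hy' => simp only [map_add, lie_add, hy, hy']
    | hgr j b hb =>
      rw [lie_gr rfl ha hb, phi_gr α (comm_mem rfl ha hb), phi_gr α ha, phi_gr α hb,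
        lie_gr rfl (Gm_map α ha) (Gm_map α hb), map_commutatorElement]

theorem phi_iter_gr (α : G ≃* G) {n : ℕ} {a : G} (ha : a ∈ Gm G n) (k : ℕ) :
    (phi α)^[k] (gr n a) = gr n (α^[k] a) := by
  induction k generalizing a with
  | zero => rfl
  | succ k ih =>
    rw [Function.iterate_succ_apply, Function.iterate_succ_apply, phi_gr α ha, ih (Gm_map α ha)]

theorem phi_iter {p : ℕ} (α : G ≃* G) (hα : ∀ x, α^[p] x = x) (x : GrL G) : (phi α)^[p] x = x := by
  induction x using gr_induct with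
  | h0 => simp
  | hadd x y hx hy => rw [iterate_map_add, hx, hy]
  | hgr n a ha => rw [phi_iter_gr α ha, hα]

theorem mem_of_fix_mod [Finite G] (α : G ≃* G) (hfix : ∀ x, α x = x → x = 1) {H : Subgroup G}
    (hH : ∀ a ∈ H, α a ∈ H) {a : G} (ha : (α a)⁻¹ * a ∈ H) : a ∈ H := by
  have hinj : Function.Injective (fun y : ↥H => (⟨y.1 * (α y.1)⁻¹, H.mul_mem y.2 (H.inv_mem (hH _ y.2))⟩ : ↥H)) := by
    intro y y' h
    have h1 : y.1 * (α y.1)⁻¹ = y'.1 * (α y'.1)⁻¹ := congrArg Subtype.val h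
    have h2 : α (y'.1⁻¹ * y.1) = y'.1⁻¹ * y.1 := by
      rw [map_mul, map_inv]
      have h3 : y'.1⁻¹ * y.1 = (α y'.1)⁻¹ * α y.1 := by
        calc y'.1⁻¹ * y.1 = y'.1⁻¹ * (y.1 * (α y.1)⁻¹) * α y.1 := by group
          _ = y'.1⁻¹ * (y'.1 * (α y'.1)⁻¹) * α y.1 := by rw [h1]
          _ = (α y'.1)⁻¹ * α y.1 := by group
      exact h3.symm
    have h3 := hfix _ h2
    apply Subtype.ext
    rw [inv_mul_eq_one] at h3
    exact h3.symm
  have hsurj := Finite.injective_iff_surjective.mp hinj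
  obtain ⟨y, hy⟩ := hsurj ⟨a⁻¹ * α a, by
    have := H.inv_mem ha
    simpa using this⟩
  have hy' : y.1 * (α y.1)⁻¹ = a⁻¹ * α a := congrArg Subtype.val hy
  have hfx : α (a * y.1) = a * y.1 := by
    rw [map_mul]
    have : α a = a * (y.1 * (α y.1)⁻¹) := by rw [hy']; group
    rw [this]
    group
  have h1 := hfix _ hfx
  have : a = y.1⁻¹ := eq_inv_of_mul_eq_one_left h1
  rw [this]
  exact H.inv_mem y.2

theorem phi_fix [Finite G] (α : G ≃* G) (hfix : ∀ x, α x = x → x = 1) (x : GrL G) (hx : phi α x = x) :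
    x = 0 := by
  ext n
  have h1 : phiA α n (x n) = x n := by
    have := congrArg (fun z : GrL G => z n) hx
    simpa [phi] using this
  obtain ⟨a, ha⟩ := pi_surj n (x n)
  rw [← ha] at h1 ⊢
  have h2 : pi G n ⟨α a.1, Gm_map α a.2⟩ = pi G n a := h1
  have h3 : pi G n (⟨α a.1, Gm_map α a.2⟩⁻¹ * a) = 0 := by
    rw [pi_mul]
    have : pi G n (⟨α a.1, Gm_map α a.2⟩⁻¹) = - pi G n ⟨α a.1, Gm_map α a.2⟩ := by
      have h4 := pi_mul (⟨α a.1, Gm_map α a.2⟩ : ↥(Gm G n)) (⟨α a.1, Gm_map α a.2⟩⁻¹)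
      rw [mul_inv_cancel] at h4
      have h5 : pi G n (1 : ↥(Gm G n)) = 0 := (pi_eq_zero_iff _).mpr (Subgroup.one_mem _)
      rw [h5] at h4
      exact (neg_eq_of_add_eq_zero_right h4.symm).symm
    rw [this, h2]
    simp
  rw [pi_eq_zero_iff] at h3
  have h4 : a.1 ∈ Gm G (n + 1) :=
    mem_of_fix_mod α hfix (fun b hb => Gm_map α hb) (by simpa using h3)
  exact (pi_eq_zero_iff a).mpr h4

theorem card_smul_eq_zero [Finite G] (x : GrL G) : Nat.card G • x = 0 := by
  induction x using gr_induct with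
  | h0 => simp
  | hadd x y hx hy => rw [smul_add, hx, hy, add_zero]
  | hgr n a ha => rw [← gr_pow ha, pow_card_eq_one', gr_one]

theorem torsion_free [Finite G] {p : ℕ} (hc : Nat.Coprime p (Nat.card G)) (x : GrL G) (hx : p • x = 0) :
    x = 0 := by
  obtain ⟨u, v, huv⟩ := (Nat.isCoprime_iff_coprime.mpr hc)
  have h1 : (1 : ℤ) • x = (u * (p : ℤ) + v * (Nat.card G : ℤ)) • x := by rw [huv]
  rw [one_smul, add_smul, mul_smul, mul_smul, natCast_zsmul, natCast_zsmul, hx, card_smul_eq_zero,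
    smul_zero, smul_zero, add_zero] at h1
  exact h1

theorem gr_mem_LS (n : ℕ) : ∀ a ∈ Gm G n, gr n a ∈ LS (GrL G) n := by
  induction n with
  | zero => intro a _; exact AddSubgroup.mem_top _
  | succ n ih =>
    intro a ha
    have ha2 : a ∈ ⁅Gm G n, (⊤ : Subgroup G)⁆ := ha
    rw [Subgroup.commutator_def] at ha2
    have hgen : ∀ a (ha' : a ∈ Subgroup.closure {g | ∃ g₁ ∈ Gm G n, ∃ g₂ ∈ (⊤ : Subgroup G), ⁅g₁, g₂⁆ = g}),
        a ∈ Gm G (n + 1) ∧ gr (n + 1) a ∈ LS (GrL G) (n + 1) := by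
      intro a ha'
      induction ha' using Subgroup.closure_induction with
      | mem x hx =>
        obtain ⟨u, hu, v, hv, rfl⟩ := hx
        have h1 : ⁅u, v⁆ ∈ Gm G (n + 1) := comm_mem (by omega) hu (mem_Gm_zero v)
        refine ⟨h1, ?_⟩
        rw [← lie_gr (i := n) (j := 0) (n := n + 1) rfl hu (mem_Gm_zero v)]
        exact AddSubgroup.subset_closure ⟨_, ih u hu, _, rfl⟩
      | one => exact ⟨Subgroup.one_mem _, by rw [gr_one]; exact AddSubgroup.zero_mem _⟩
      | mul x y _ _ hx hy =>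
        refine ⟨Subgroup.mul_mem _ hx.1 hy.1, ?_⟩
        rw [gr_mul hx.1 hy.1]
        exact AddSubgroup.add_mem _ hx.2 hy.2
      | inv x _ hx =>
        refine ⟨Subgroup.inv_mem _ hx.1, ?_⟩
        rw [gr_inv hx.1]
        exact AddSubgroup.neg_mem _ hx.2
    exact (hgen a ha2).2

theorem Gm_le_succ_of_LS {m : ℕ} (h : LS (GrL G) m = ⊥) : Gm G m ≤ Gm G (m + 1) := by
  intro a ha
  have h1 := gr_mem_LS m a ha
  rw [h, AddSubgroup.mem_bot] at h1
  exact (gr_eq_zero_iff ha).mp h1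

/-- Nilpotency gives triviality from stabilization. -/
theorem Gm_eq_bot_of_stable (hnil : Group.IsNilpotent G) {m : ℕ} (h : Gm G m ≤ Gm G (m + 1)) :
    Gm G m = ⊥ := by
  obtain ⟨N, hN⟩ := (Subgroup.isNilpotent_iff_lowerCentralSeries ⊤ |>.mp (by simpa using hnil))
  have hk : ∀ k, Gm G m ≤ Gm G (m + k) := by
    intro k
    induction k with
    | zero => exact le_rfl
    | succ k ih =>
      refine h.trans ?_
      have e : m + (k + 1) = (m + k) + 1 := by omega
      rw [e]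
      show ⁅Gm G m, (⊤ : Subgroup G)⁆ ≤ ⁅Gm G (m + k), (⊤ : Subgroup G)⁆
      exact Subgroup.commutator_mono ih le_rfl
  rw [eq_bot_iff, ← hN]
  exact (hk N).trans (Gm_anti (by omega))

theorem coprime_card_of_fpf [Finite G] {p : ℕ} (hp : p.Prime) (α : G ≃* G)
    (hfix : ∀ x, α x = x → x = 1) (hα : ∀ x, α^[p] x = x) : Nat.Coprime p (Nat.card G) := by
  classical
  haveI : Fact p.Prime := ⟨hp⟩
  haveI := Fintype.ofFinite G
  let f : Function.End G := fun x => α x
  have hf : f ^ p ^ 1 = 1 := by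
    rw [pow_one]
    funext x
    have : ∀ k : ℕ, (f ^ k) x = α^[k] x := by
      intro k
      induction k generalizing x with
      | zero => rfl
      | succ k ih =>
        rw [pow_succ, Function.iterate_succ_apply]
        exact ih (α x)
    rw [this, hα]
    rfl
  have hm := Equiv.Perm.card_fixedPoints_modEq hf
  have hfx : ∀ [Fintype (Function.fixedPoints f)], Fintype.card (Function.fixedPoints f) = 1 := by
    intro _
    rw [Fintype.card_eq_one_iff]
    refine ⟨⟨1, map_one α⟩, ?_⟩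
    rintro ⟨y, hy⟩
    exact Subtype.ext (hfix y hy)
  rw [hfx] at hm
  rw [Nat.Prime.coprime_iff_not_dvd hp]
  intro hd
  rw [Nat.card_eq_fintype_card] at hd
  have h1 : 1 ≡ 0 [MOD p] := hm.symm.trans ((Nat.modEq_zero_iff_dvd).mpr hd)
  have := (Nat.modEq_zero_iff_dvd).mp h1
  exact hp.one_lt.ne' (Nat.dvd_one.mp this)

/-- The reduction of the group-theoretic statement to graded Lie rings. -/
theorem Gm_eq_bot_of_graded [Finite G] {p : ℕ} [hp : Fact p.Prime] (α : G ≃* G)
    (hfix : ∀ x, α x = x → x = 1) (hα : ∀ x, α^[p] x = x) {m : ℕ}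
    (h : ∀ S : ZMod p → AddSubgroup (Conv p (GrL G)), IsGr S → S 0 = ⊥ → ∀ a, LC S m a = ⊥) :
    Gm G m = ⊥ := by
  have hnil : Group.IsNilpotent G := Cfsg.Agent.Lib.FrobThm.fpf_nilpotent hp.out α hfix hα
  apply Gm_eq_bot_of_stable hnil
  apply Gm_le_succ_of_LS
  have hc := coprime_card_of_fpf hp.out α hfix hα
  exact LS_eq_bot (φ := phi α) (phi_iter α hα) (phi_fix α hfix) (torsion_free hc)
    (h _ (Sg_isGr (phi_lie α)) (Sg_zero (phi_fix α hfix)))

end Cfsg.Agent.Lib.PGroup.HKK
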