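import Mathlib
import Cfsg.Agent.Lib.PGroup.OddPGroup
import Cfsg.Agent.Lib.GS1.PHall2
import Cfsg.Agent.Lib.Core.Basic

/-!
# Miller's theorem: counting elements of order `p ^ s` in a group with non-cyclic Sylow `p`-subgroups

For `p` odd: if `E` is a normal elementary abelian subgroup of order `p²` in a `p`-group then
`(x e) ^ p = x ^ p`; hence `p² ∣ #{x | x ^ p = c}` for all `c`, and
`p ^ s ∣ #{x | orderOf x = p ^ s}` for `s ≥ 2` in any group with non-cyclic Sylow `p`-subgroups.
-/

set_option autoImplicit false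
set_option linter.unusedSectionVars false

namespace Cfsg.Agent.Lib.PGroup.Miller

open Subgroup

section Right

variable {G : Type*} [Group G] [Finite G]

/-- A set stable under right multiplication by `E` has size divisible by `|E|`. -/
theorem card_dvd_of_mul_stable (E : Subgroup G) (S : Set G) (h : ∀ x ∈ S, ∀ e ∈ E, x * e ∈ S) :
    Nat.card E ∣ Nat.card S := by
  classical
  haveI := Fintype.ofFinite G
  haveI := Fintype.ofFinite (G ⧸ E)
  let S' : Finset G := Finset.univ.filter (· ∈ S)
  have hS' : Nat.card S = S'.card := by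
    rw [Nat.card_eq_fintype_card, Fintype.card_subtype]
  rw [hS', Finset.card_eq_sum_card_fiberwise (f := fun x : G => (x : G ⧸ E)) (t := Finset.univ)
    (fun _ _ => Finset.mem_univ _)]
  refine Finset.dvd_sum fun q _ => ?_
  by_cases hq : ∃ x ∈ S, (x : G ⧸ E) = q
  · obtain ⟨x, hx, rfl⟩ := hq
    have : (S'.filter fun y : G => (QuotientGroup.mk y : G ⧸ E) = (x : G ⧸ E)).card = Nat.card E := by
      rw [Nat.card_eq_fintype_card (α := E), ← Finset.card_univ]
      symm
      refine Finset.card_bij (fun e _ => x * (e : G)) (fun e _ => ?_) (fun e _ e' _ he => ?_) ?_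
      · simp only [Finset.mem_filter, S', Finset.mem_univ, true_and]
        refine ⟨h x hx e e.2, ?_⟩
        rw [QuotientGroup.eq]
        simp
      · exact Subtype.ext (mul_left_cancel he)
      · intro y hy
        simp only [Finset.mem_filter] at hy
        have h1 : x⁻¹ * y ∈ E := by
          rw [← QuotientGroup.eq]
          exact hy.2.symm
        exact ⟨⟨x⁻¹ * y, h1⟩, Finset.mem_univ _, by simp⟩
    rw [this]
  · have : (S'.filter fun y : G => (QuotientGroup.mk y : G ⧸ E) = q) = ∅ := by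
      apply Finset.filter_eq_empty_iff.mpr
      intro y hy hyq
      exact hq ⟨y, (Finset.mem_filter.mp hy).2, hyq⟩
    rw [this]
    simp

end Right

section Power

variable {G : Type*} [Group G] [Finite G] {p : ℕ} [hp : Fact p.Prime]

/-- A non-cyclic `p`-group, `p` odd, has a normal elementary abelian subgroup of order `p²`. -/
theorem exists_E (hG : IsPGroup p G) (hodd : p ≠ 2) (hnc : ¬ IsCyclic G) :
    ∃ A : Subgroup G, A.Normal ∧ Cfsg.IsElementaryAbelian p A ∧ Nat.card A = p ^ 2 := by
  have hpp : p.Prime := hp.out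
  have hev : ∀ k : ℕ, 2 ∣ k → Nat.card G = k → k = 1 ∨ False := by
    intro k h2 hk
    obtain ⟨n, hn⟩ := IsPGroup.iff_card.mp hG
    rw [hk] at hn
    subst hn
    rcases Nat.eq_zero_or_pos n with rfl | hpos
    · left; simp
    · right
      have : 2 ∣ p := Nat.prime_two.dvd_of_dvd_pow h2
      have h3 := (Nat.prime_dvd_prime_iff_eq Nat.prime_two hpp).mp this
      exact hodd h3.symm
  have hev' : ∀ k : ℕ, 2 ∣ k → k ≠ 1 → Nat.card G ≠ k := by
    intro k h2 h1 hk
    rcases hev k h2 hk with h | h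
    · exact h1 h
    · exact h
  refine Cfsg.Agent.Lib.GS1.exists_normal_elem_p2 hG hnc ?_ ?_ ?_
  · rintro n ⟨e⟩
    have h1 : Nat.card G = Nat.card (QuaternionGroup n) := Nat.card_congr e.toEquiv
    rcases Nat.eq_zero_or_pos n with rfl | hn
    · haveI : Finite (QuaternionGroup 0) := Finite.of_equiv G e.toEquiv
      have hinj : Function.Injective (QuaternionGroup.a : ZMod (2 * 0) → QuaternionGroup 0) :=
        fun a b h => QuaternionGroup.a.inj h
      haveI : Finite ℤ := Finite.of_injective (β := QuaternionGroup 0)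
        (QuaternionGroup.a : ZMod (2 * 0) → QuaternionGroup 0) hinj
      exact not_finite ℤ
    · haveI : NeZero n := ⟨hn.ne'⟩
      rw [Nat.card_eq_fintype_card (α := QuaternionGroup n), QuaternionGroup.card] at h1
      exact hev' _ ⟨2 * n, by ring⟩ (by omega) h1
  · rintro n ⟨e⟩
    have h1 : Nat.card G = Nat.card (DihedralGroup n) := Nat.card_congr e.toEquiv
    rw [DihedralGroup.nat_card] at h1
    rcases Nat.eq_zero_or_pos n with rfl | hn
    · have := Nat.card_pos (α := G)
      omega
    · exact hev' _ ⟨n, rfl⟩ (by omega) h1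
  · rintro ⟨n, hn, hc, -⟩
    refine hev' _ ?_ ?_ hc
    · exact dvd_pow_self 2 (by omega)
    · have : 1 < 2 ^ (n + 1) := Nat.one_lt_two_pow (by omega)
      omega

end Power

section Power2

variable {G : Type*} [Group G] [Finite G] {p : ℕ} [hp : Fact p.Prime]

/-- In a `p`-group, the commutator of any element with an element of a normal subgroup of order
`p²` is central. -/
theorem commutator_central (hG : IsPGroup p G) {E : Subgroup G} (hE : E.Normal)
    (hEc : Nat.card E = p ^ 2) {e : G} (he : e ∈ E) (x : G) : e⁻¹ * x⁻¹ * e * x ∈ center G := by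
  classical
  have hpp : p.Prime := hp.out
  haveI hnil : Group.IsNilpotent G := hG.isNilpotent
  have hE1 : E ≠ ⊥ := by
    intro h
    rw [h, Subgroup.card_bot] at hEc
    have : 1 < p ^ 2 := Nat.one_lt_pow (by omega) hpp.one_lt
    omega
  have h1 := Cfsg.Agent.Lib.Core.normal_inf_center_ne_bot E hE1
  let K : Subgroup G := E ⊓ center G
  haveI hKn : K.Normal := inferInstance
  have hKE : K ≤ E := inf_le_left
  by_cases hK : E ≤ K
  · have h2 : e ∈ center G := (Subgroup.mem_inf.mp (hK he)).2
    have h3 := mem_center_iff.mp h2 x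
    have h4 : e⁻¹ * x⁻¹ * e * x = 1 := by
      calc e⁻¹ * x⁻¹ * e * x = e⁻¹ * x⁻¹ * (e * x) := by group
        _ = e⁻¹ * x⁻¹ * (x * e) := by rw [h3]
        _ = 1 := by group
    rw [h4]
    exact one_mem _
  · have hKc : Nat.card K = p := by
      have h2 : Nat.card K ∣ p ^ 2 := hEc ▸ Subgroup.card_dvd_of_le hKE
      obtain ⟨i, hi, hi'⟩ := (Nat.dvd_prime_pow hpp).mp h2
      interval_cases i
      · exfalso
        apply h1
        exact Subgroup.eq_bot_of_card_eq K (by simpa using hi')
      · simpa using hi'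
      · exfalso
        apply hK
        have := Subgroup.eq_of_le_of_card_ge hKE (by rw [hEc, hi'])
        rw [this]
    haveI hQnil : Group.IsNilpotent (G ⧸ K) :=
      (hG.of_surjective (QuotientGroup.mk' K) (QuotientGroup.mk'_surjective K)).isNilpotent
    let E' : Subgroup (G ⧸ K) := E.map (QuotientGroup.mk' K)
    haveI hE'n : E'.Normal := hE.map _ (QuotientGroup.mk'_surjective K)
    have hE'1 : E' ≠ ⊥ := by
      intro h
      apply hK
      intro u hu
      have h2 : (u : G ⧸ K) ∈ E' := ⟨u, hu, rfl⟩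
      rw [h, mem_bot] at h2
      exact (QuotientGroup.eq_one_iff u).mp h2
    have h3 := Cfsg.Agent.Lib.Core.normal_inf_center_ne_bot E' hE'1
    obtain ⟨v, hv1⟩ := (Subgroup.ne_bot_iff_exists_ne_one.mp h3)
    obtain ⟨⟨y, hy, hyv⟩, hvZ⟩ := Subgroup.mem_inf.mp v.2
    let L : Subgroup G := E ⊓ (center (G ⧸ K)).comap (QuotientGroup.mk' K)
    have hKL : K ≤ L := by
      intro u hu
      refine Subgroup.mem_inf.mpr ⟨hKE hu, ?_⟩
      rw [Subgroup.mem_comap]
      have h2 : QuotientGroup.mk' K u = 1 := (QuotientGroup.eq_one_iff u).mpr hu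
      rw [h2]
      exact one_mem _
    have hyL : y ∈ L := by
      refine Subgroup.mem_inf.mpr ⟨hy, ?_⟩
      rw [Subgroup.mem_comap, hyv]
      exact hvZ
    have hyK : y ∉ K := by
      intro hyK
      apply hv1
      apply Subtype.ext
      show (v : G ⧸ K) = 1
      rw [← hyv]
      exact (QuotientGroup.eq_one_iff y).mpr hyK
    have hLE : E ≤ L := by
      have hLE' : L ≤ E := inf_le_left
      have h2 : Nat.card L ∣ p ^ 2 := hEc ▸ Subgroup.card_dvd_of_le hLE'
      obtain ⟨i, hi, hi'⟩ := (Nat.dvd_prime_pow hpp).mp h2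
      have h4 : p ∣ Nat.card L := hKc ▸ Subgroup.card_dvd_of_le hKL
      interval_cases i
      · exfalso
        rw [hi', pow_zero] at h4
        exact hpp.one_lt.ne' (Nat.dvd_one.mp h4)
      · exfalso
        have h5 := Subgroup.eq_of_le_of_card_ge hKL (by rw [hi', hKc]; simp)
        exact hyK (h5 ▸ hyL)
      · have := Subgroup.eq_of_le_of_card_ge hLE' (by rw [hEc, hi'])
        rw [this]
    have heL := hLE he
    have h4 : QuotientGroup.mk' K e ∈ center (G ⧸ K) := (Subgroup.mem_inf.mp heL).2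
    have h5 : QuotientGroup.mk' K (e⁻¹ * x⁻¹ * e * x) = 1 := by
      have h6 := mem_center_iff.mp h4 (QuotientGroup.mk' K x)
      rw [map_mul, map_mul, map_mul, map_inv, map_inv]
      calc (QuotientGroup.mk' K e)⁻¹ * (QuotientGroup.mk' K x)⁻¹ * QuotientGroup.mk' K e * QuotientGroup.mk' K x
          = (QuotientGroup.mk' K e)⁻¹ * (QuotientGroup.mk' K x)⁻¹ * (QuotientGroup.mk' K e * QuotientGroup.mk' K x) := by group
        _ = (QuotientGroup.mk' K e)⁻¹ * (QuotientGroup.mk' K x)⁻¹ * (QuotientGroup.mk' K x * QuotientGroup.mk' K e) := by rw [h6]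
        _ = 1 := by group
    have h7 : e⁻¹ * x⁻¹ * e * x ∈ K := (QuotientGroup.eq_one_iff _).mp h5
    exact (Subgroup.mem_inf.mp h7).2

/-- `(x e) ^ p = x ^ p` for `p` odd. -/
theorem mul_pow_prime_eq (hG : IsPGroup p G) (hodd : p ≠ 2) {E : Subgroup G} (hE : E.Normal)
    (hEe : Cfsg.IsElementaryAbelian p E) (hEc : Nat.card E = p ^ 2) {e : G} (he : e ∈ E) (x : G) :
    (x * e) ^ p = x ^ p := by
  have hpp : p.Prime := hp.out
  have hZ := commutator_central hG hE hEc he x
  obtain ⟨c, hc⟩ : ∃ c, c = e⁻¹ * x⁻¹ * e * x := ⟨_, rfl⟩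
  rw [← hc] at hZ
  have hcE : c ∈ E := by
    have h1 : x⁻¹ * e * x ∈ E := by
      have := hE.conj_mem e he x⁻¹
      simpa using this
    have h2 : c = e⁻¹ * (x⁻¹ * e * x) := by
      rw [hc]
      group
    rw [h2]
    exact mul_mem (inv_mem he) h1
  have h1 : e * x = x * e * c := by
    rw [hc]
    group
  have hcx : Commute c x := (mem_center_iff.mp hZ x).symm
  have hce : Commute c e := (mem_center_iff.mp hZ e).symm
  have h2 := Cfsg.Agent.Lib.PGroup.mul_pow_of_comm_comm x e c h1 hcx hce p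
  have h3 : c ^ (p.choose 2) = 1 := by
    have h2lt : 2 < p := by
      have := hpp.two_le
      omega
    obtain ⟨t, ht⟩ : p ∣ p.choose 2 := hpp.dvd_choose_self (by norm_num) h2lt
    rw [ht, pow_mul, hEe.2 c hcE, one_pow]
  rw [h2, hEe.2 e he, h3]
  simp

/-- `p² ∣ #{x | x ^ p = c}`. -/
theorem sq_dvd_card_pow_eq (hG : IsPGroup p G) (hodd : p ≠ 2) (hnc : ¬ IsCyclic G) (c : G) :
    p ^ 2 ∣ Nat.card {x : G | x ^ p = c} := by
  obtain ⟨E, hE, hEe, hEc⟩ := exists_E hG hodd hnc
  rw [← hEc]
  apply card_dvd_of_mul_stable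
  intro x hx e he
  show (x * e) ^ p = c
  rw [mul_pow_prime_eq hG hodd hE hEe hEc he]
  exact hx

end Power2

section Gen

variable {H : Type*} [Group H] [Finite H]

/-- The number of generators of a cyclic subgroup. -/
theorem card_generators (x : H) : Nat.card {y : H // zpowers y = zpowers x} = (orderOf x).totient := by
  classical
  haveI := Fintype.ofFinite H
  haveI : Fintype (zpowers x) := Fintype.ofFinite _
  have h1 := IsCyclic.card_orderOf_eq_totient (α := zpowers x) (d := orderOf x) (by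
    rw [← Nat.card_eq_fintype_card, Nat.card_zpowers])
  rw [← h1, Nat.card_eq_fintype_card, Fintype.card_subtype]
  refine Finset.card_bij (fun y hy => ⟨y, (Finset.mem_filter.mp hy).2 ▸ mem_zpowers y⟩) ?_ ?_ ?_
  · intro y hy
    simp only [Finset.mem_filter, Finset.mem_univ, true_and] at hy ⊢
    rw [Subgroup.orderOf_mk, ← Nat.card_zpowers, hy, Nat.card_zpowers]
  · intro y _ y' _ h
    exact congrArg (fun z : zpowers x => (z : H)) h
  · intro a ha
    simp only [Finset.mem_filter, Finset.mem_univ, true_and] at ha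
    refine ⟨(a : H), ?_, rfl⟩
    simp only [Finset.mem_filter, Finset.mem_univ, true_and]
    have h2 : zpowers (a : H) ≤ zpowers x := by
      rw [zpowers_le]
      exact a.2
    apply Subgroup.eq_of_le_of_card_ge h2
    rw [Nat.card_zpowers, Nat.card_zpowers, Subgroup.orderOf_coe, ha]

variable [DecidableEq H] [Fintype H]

theorem fiber_card (S : Finset H) {d : ℕ} (hS : ∀ x ∈ S, orderOf x = d)
    (hcl : ∀ x ∈ S, ∀ y, zpowers y = zpowers x → y ∈ S) {x₀ : H} (hx₀ : x₀ ∈ S)
    [DecidablePred fun x : H => zpowers x = zpowers x₀] :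
    (S.filter fun x => zpowers x = zpowers x₀).card = d.totient := by
  rw [← hS x₀ hx₀, ← card_generators x₀, Nat.card_eq_fintype_card, Fintype.card_subtype]
  congr 1
  ext y
  simp only [Finset.mem_filter, Finset.mem_univ, true_and]
  exact ⟨fun h => h.2, fun h => ⟨hcl x₀ hx₀ y h, h⟩⟩

/-- `|S| = φ(d) · #(cyclic subgroups generated by `S`)`. -/
theorem card_eq_totient_mul (S : Finset H) {d : ℕ} (hS : ∀ x ∈ S, orderOf x = d)
    (hcl : ∀ x ∈ S, ∀ y, zpowers y = zpowers x → y ∈ S) [DecidableEq (Subgroup H)] :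
    S.card = d.totient * (S.image fun x => zpowers x).card := by
  rw [Finset.card_eq_sum_card_image (fun x => zpowers x) S, mul_comm, ← smul_eq_mul]
  rw [← Finset.sum_const]
  refine Finset.sum_congr rfl fun C hC => ?_
  obtain ⟨x₀, hx₀, rfl⟩ := Finset.mem_image.mp hC
  exact fiber_card S hS hcl hx₀

/-- `φ(d) ∣ ∑_{x ∈ S} F x` for `F` depending only on the cyclic subgroup. -/
theorem totient_dvd_sum (S : Finset H) {d : ℕ} (hS : ∀ x ∈ S, orderOf x = d)
    (hcl : ∀ x ∈ S, ∀ y, zpowers y = zpowers x → y ∈ S) (F : H → ℕ)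
    (hF : ∀ x ∈ S, ∀ y, zpowers y = zpowers x → F y = F x) [DecidableEq (Subgroup H)] :
    d.totient ∣ ∑ x ∈ S, F x := by
  rw [← Finset.sum_fiberwise_of_maps_to (g := fun x => zpowers x) (t := S.image fun x => zpowers x)
    (fun x hx => Finset.mem_image_of_mem _ hx)]
  refine Finset.dvd_sum fun C hC => ?_
  obtain ⟨x₀, hx₀, rfl⟩ := Finset.mem_image.mp hC
  have h1 : ∑ x ∈ S.filter (fun x => zpowers x = zpowers x₀), F x =
      ∑ _x ∈ S.filter (fun x => zpowers x = zpowers x₀), F x₀ := by
    refine Finset.sum_congr rfl fun y hy => ?_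
    obtain ⟨-, hy2⟩ := Finset.mem_filter.mp hy
    exact hF x₀ hx₀ y hy2
  rw [h1, Finset.sum_const, fiber_card S hS hcl hx₀, smul_eq_mul]
  exact dvd_mul_right _ _

end Gen

section PCount

variable {G : Type*} [Group G] [Finite G] {p : ℕ} [hp : Fact p.Prime]

/-- Subgroups with the same generators have the same number of `p`-th roots. -/
theorem card_root_eq [DecidableEq G] [Fintype G] {s : ℕ} (hs : 2 ≤ s) {c c' : G}
    (hc : orderOf c = p ^ (s - 1)) (h : zpowers c' = zpowers c) :
    (Finset.univ.filter fun x : G => x ^ p = c').card =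
      (Finset.univ.filter fun x : G => x ^ p = c).card := by
  have hpp : p.Prime := hp.out
  have hc' : orderOf c' = p ^ (s - 1) := by rw [← Nat.card_zpowers, h, Nat.card_zpowers, hc]
  have h1 : c' ∈ zpowers c := h ▸ mem_zpowers c'
  obtain ⟨j, hj⟩ : ∃ j : ℕ, c ^ j = c' := mem_powers_iff_mem_zpowers.mpr h1
  have hcp : c ^ (p ^ (s - 1)) = 1 := by rw [← hc, pow_orderOf_eq_one]
  have hcp' : c' ^ (p ^ (s - 1)) = 1 := by rw [← hc', pow_orderOf_eq_one]
  have hcop : Nat.Coprime j p := by
    rw [Nat.coprime_comm, hpp.coprime_iff_not_dvd]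
    rintro ⟨t, rfl⟩
    have h2 : c' ^ (p ^ (s - 2)) = 1 := by
      rw [← hj, ← pow_mul]
      have h3 : p * t * p ^ (s - 2) = p ^ (s - 1) * t := by
        obtain ⟨u, rfl⟩ : ∃ u, s = u + 2 := ⟨s - 2, by omega⟩
        simp only [Nat.add_sub_cancel, show u + 2 - 1 = u + 1 by omega, pow_succ]
        ring
      rw [h3, pow_mul, hcp, one_pow]
    have h3 := orderOf_dvd_of_pow_eq_one h2
    rw [hc'] at h3
    have h4 := (Nat.pow_dvd_pow_iff_le_right hpp.one_lt).mp h3
    omega
  have hs0 : 1 < p ^ s := Nat.one_lt_pow (by omega) hpp.one_lt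
  obtain ⟨j₂, -, hj₂⟩ := Nat.exists_mul_mod_eq_one_of_coprime (n := j) (k := p ^ s)
    (Nat.Coprime.pow_right s hcop) hs0
  have key : ∀ y : G, y ^ (p ^ s) = 1 → y ^ (j * j₂) = y := by
    intro y hy
    have h2 := Nat.div_add_mod (j * j₂) (p ^ s)
    rw [hj₂] at h2
    rw [← h2, pow_add, pow_mul, hy, one_pow, one_mul, pow_one]
  have hpow : ∀ {x z : G}, x ^ p = z → z ^ (p ^ (s - 1)) = 1 → x ^ (p ^ s) = 1 := by
    intro x z hx hz
    have : p ^ s = p * p ^ (s - 1) := by
      obtain ⟨u, rfl⟩ : ∃ u, s = u + 1 := ⟨s - 1, by omega⟩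
      simp only [Nat.add_sub_cancel, pow_succ]
      ring
    rw [this, pow_mul, hx, hz]
  have hcps : c ^ (p ^ s) = 1 := by
    have : p ^ s = p * p ^ (s - 1) := by
      obtain ⟨u, rfl⟩ : ∃ u, s = u + 1 := ⟨s - 1, by omega⟩
      simp only [Nat.add_sub_cancel, pow_succ]
      ring
    rw [this, mul_comm, pow_mul, hcp, one_pow]
  refine Finset.card_bij' (fun x _ => x ^ j₂) (fun x _ => x ^ j) ?_ ?_ ?_ ?_
  · intro x hx
    simp only [Finset.mem_filter, Finset.mem_univ, true_and] at hx ⊢
    rw [← pow_mul, mul_comm, pow_mul, hx, ← hj, ← pow_mul]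
    exact key c hcps
  · intro x hx
    simp only [Finset.mem_filter, Finset.mem_univ, true_and] at hx ⊢
    rw [← pow_mul, mul_comm, pow_mul, hx, hj]
  · intro x hx
    simp only [Finset.mem_filter, Finset.mem_univ, true_and] at hx
    show (x ^ j₂) ^ j = x
    rw [← pow_mul, mul_comm]
    exact key x (hpow hx hcp')
  · intro x hx
    simp only [Finset.mem_filter, Finset.mem_univ, true_and] at hx
    show (x ^ j) ^ j₂ = x
    rw [← pow_mul]
    exact key x (hpow hx hcp)

/-- **Miller**: in a non-cyclic `p`-group, `p` odd, `p ^ s` divides the number of elements of order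
`p ^ s`, `s ≥ 2`. -/
theorem pow_dvd_card_pgroup [Fintype G] [DecidableEq G] (hG : IsPGroup p G) (hodd : p ≠ 2)
    (hnc : ¬ IsCyclic G) {s : ℕ} (hs : 2 ≤ s) :
    p ^ s ∣ (Finset.univ.filter fun x : G => orderOf x = p ^ s).card := by
  classical
  have hpp : p.Prime := hp.out
  have hmaps : ∀ x ∈ (Finset.univ.filter fun x : G => orderOf x = p ^ s),
      x ^ p ∈ (Finset.univ.filter fun x : G => orderOf x = p ^ (s - 1)) := by
    intro x hx
    simp only [Finset.mem_filter, Finset.mem_univ, true_and] at hx ⊢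
    rw [orderOf_pow, hx, Nat.gcd_eq_right (dvd_pow_self p (by omega))]
    obtain ⟨u, rfl⟩ : ∃ u, s = u + 1 := ⟨s - 1, by omega⟩
    simp [pow_succ, hpp.pos]
  rw [Finset.card_eq_sum_card_fiberwise hmaps]
  have hfib : ∀ c ∈ (Finset.univ.filter fun x : G => orderOf x = p ^ (s - 1)),
      ((Finset.univ.filter fun x : G => orderOf x = p ^ s).filter fun x => x ^ p = c).card =
        (Finset.univ.filter fun x : G => x ^ p = c).card := by
    intro c hc
    simp only [Finset.mem_filter, Finset.mem_univ, true_and] at hc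
    congr 1
    ext x
    simp only [Finset.mem_filter, Finset.mem_univ, true_and]
    refine ⟨fun h => h.2, fun h => ⟨?_, h⟩⟩
    obtain ⟨i, hi⟩ := IsPGroup.iff_orderOf.mp hG x
    rcases Nat.eq_zero_or_pos i with rfl | hi0
    · exfalso
      rw [pow_zero, orderOf_eq_one_iff] at hi
      rw [hi, one_pow] at h
      rw [← h, orderOf_one] at hc
      have : 1 < p ^ (s - 1) := Nat.one_lt_pow (by omega) hpp.one_lt
      omega
    · have h2 : orderOf (x ^ p) = p ^ (i - 1) := by
        rw [orderOf_pow, hi, Nat.gcd_eq_right (dvd_pow_self p (by omega))]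
        obtain ⟨u, rfl⟩ : ∃ u, i = u + 1 := ⟨i - 1, by omega⟩
        simp [pow_succ, hpp.pos]
      rw [h, hc] at h2
      have h3 := Nat.pow_right_injective hpp.two_le h2
      rw [hi]
      congr 1
      omega
  rw [Finset.sum_congr rfl hfib]
  have hF : ∀ c : G, p ^ 2 ∣ (Finset.univ.filter fun x : G => x ^ p = c).card := by
    intro c
    have h1 := sq_dvd_card_pow_eq hG hodd hnc c
    have h2 : Nat.card {x : G | x ^ p = c} = (Finset.univ.filter fun x : G => x ^ p = c).card := by
      rw [Nat.card_eq_fintype_card, Fintype.card_subtype]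
      congr 1
    rwa [h2] at h1
  let F' : G → ℕ := fun c => (Finset.univ.filter fun x : G => x ^ p = c).card / p ^ 2
  have hF' : ∀ c, (Finset.univ.filter fun x : G => x ^ p = c).card = p ^ 2 * F' c := fun c =>
    (Nat.mul_div_cancel' (hF c)).symm
  simp only [hF']
  rw [← Finset.mul_sum]
  have h1 := totient_dvd_sum (d := p ^ (s - 1)) (Finset.univ.filter fun x : G => orderOf x = p ^ (s - 1))
    (fun x hx => (Finset.mem_filter.mp hx).2) (fun x hx y hy => by
      have hx' := (Finset.mem_filter.mp hx).2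
      simp only [Finset.mem_filter, Finset.mem_univ, true_and]
      rw [← Nat.card_zpowers, hy, Nat.card_zpowers, hx']) F' (fun x hx y hy => by
      have hx' := (Finset.mem_filter.mp hx).2
      show _ / _ = _ / _
      rw [card_root_eq hs hx' hy])
  have h2 : p ^ (s - 2) ∣ (p ^ (s - 1)).totient := by
    rw [Nat.totient_prime_pow hpp (by omega)]
    have : s - 1 - 1 = s - 2 := by omega
    rw [this]
    exact dvd_mul_right _ _
  have h3 : p ^ s = p ^ 2 * p ^ (s - 2) := by
    rw [← pow_add]
    congr 1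
    omega
  rw [h3]
  exact mul_dvd_mul_left _ (h2.trans h1)

end PCount

section Out

variable {H : Type*} [Group H] [Finite H] {p : ℕ} [hp : Fact p.Prime]

/-- Elements of order `p ^ s` outside a Sylow subgroup: `p ^ s` divides their number. -/
theorem dvd_card_out [Fintype H] [DecidableEq H] (Q : Sylow p H)
    [DecidablePred fun x : H => x ∈ (Q : Subgroup H)] {s : ℕ} (hs : s ≠ 0) :
    p ^ s ∣ (Finset.univ.filter fun x : H => orderOf x = p ^ s ∧ x ∉ (Q : Subgroup H)).card := by
  classical
  have hpp : p.Prime := hp.out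
  obtain ⟨S, hSdef⟩ : ∃ S : Finset H, S = Finset.univ.filter fun x : H => orderOf x = p ^ s ∧ x ∉ (Q : Subgroup H) :=
    ⟨_, rfl⟩
  rw [← hSdef]
  have hS : ∀ x, x ∈ S ↔ orderOf x = p ^ s ∧ x ∉ (Q : Subgroup H) := by
    intro x
    rw [hSdef]
    simp
  have hS1 : ∀ x ∈ S, orderOf x = p ^ s := fun x hx => ((hS x).mp hx).1
  have hcl : ∀ x ∈ S, ∀ y, zpowers y = zpowers x → y ∈ S := by
    intro x hx y hy
    obtain ⟨h1, h2⟩ := (hS x).mp hx
    refine (hS y).mpr ⟨?_, fun hyQ => h2 ?_⟩
    · rw [← Nat.card_zpowers, hy, Nat.card_zpowers, h1]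
    · have h3 : x ∈ zpowers y := hy ▸ mem_zpowers x
      exact (zpowers_le.mpr hyQ) h3
  rw [card_eq_totient_mul S hS1 hcl]
  -- the conjugation action on the cyclic subgroups
  obtain ⟨T, hT⟩ : ∃ T : Finset (Subgroup H), T = S.image fun x => zpowers x := ⟨_, rfl⟩
  rw [← hT]
  have hTm : ∀ A, A ∈ T ↔ ∃ x ∈ S, zpowers x = A := by
    intro A
    rw [hT]
    simp
  have hmem : ∀ (u : (Q : Subgroup H)) (A : {A // A ∈ T}),
      A.1.map (MulAut.conj (u : H)).toMonoidHom ∈ T := by
    rintro u ⟨A, hA⟩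
    obtain ⟨x, hx, rfl⟩ := (hTm A).mp hA
    refine (hTm _).mpr ⟨(u : H) * x * (u : H)⁻¹, ?_, ?_⟩
    · obtain ⟨h1, h2⟩ := (hS x).mp hx
      refine (hS _).mpr ⟨?_, fun h3 => h2 ?_⟩
      · have := MulEquiv.orderOf_eq (MulAut.conj (u : H)) x
        rw [MulAut.conj_apply] at this
        rw [this, h1]
      · have h4 : (u : H)⁻¹ * ((u : H) * x * (u : H)⁻¹) * (u : H) ∈ (Q : Subgroup H) :=
          mul_mem (mul_mem (inv_mem u.2) h3) u.2
        have h5 : (u : H)⁻¹ * ((u : H) * x * (u : H)⁻¹) * (u : H) = x := by group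
        rwa [h5] at h4
    · rw [MonoidHom.map_zpowers]
      rfl
  letI act : MulAction (Q : Subgroup H) {A // A ∈ T} :=
    { smul := fun u A => ⟨A.1.map (MulAut.conj (u : H)).toMonoidHom, hmem u A⟩
      one_smul := by
        rintro ⟨A, hA⟩
        apply Subtype.ext
        show A.map (MulAut.conj ((1 : (Q : Subgroup H)) : H)).toMonoidHom = A
        ext y
        simp
      mul_smul := by
        rintro u v ⟨A, hA⟩
        apply Subtype.ext
        show A.map (MulAut.conj (((u * v : (Q : Subgroup H))) : H)).toMonoidHom =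
          (A.map (MulAut.conj (v : H)).toMonoidHom).map (MulAut.conj (u : H)).toMonoidHom
        rw [Subgroup.map_map]
        congr 1
        ext y
        simp [MulAut.conj_apply, mul_assoc] }
  have hfix : IsEmpty (MulAction.fixedPoints (Q : Subgroup H) {A // A ∈ T}) := by
    constructor
    rintro ⟨⟨A, hA⟩, hfx⟩
    obtain ⟨x, hx, rfl⟩ := (hTm A).mp hA
    obtain ⟨h1, h2⟩ := (hS x).mp hx
    have hnorm : (Q : Subgroup H) ≤ Subgroup.normalizer ((zpowers x : Subgroup H) : Set H) := by
      intro u hu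
      rw [Subgroup.mem_normalizer_iff]
      have h3 : (zpowers x).map (MulAut.conj u).toMonoidHom = zpowers x :=
        congrArg Subtype.val (hfx ⟨u, hu⟩)
      have h3' : (zpowers x).map (MulAut.conj u⁻¹).toMonoidHom = zpowers x :=
        congrArg Subtype.val (hfx ⟨u, hu⟩⁻¹)
      intro y
      constructor
      · intro hy
        have : u * y * u⁻¹ ∈ (zpowers x).map (MulAut.conj u).toMonoidHom := ⟨y, hy, rfl⟩
        rwa [h3] at this
      · intro hy
        have : u⁻¹ * (u * y * u⁻¹) * u⁻¹⁻¹ ∈ (zpowers x).map (MulAut.conj u⁻¹).toMonoidHom := ⟨_, hy, rfl⟩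
        rw [h3'] at this
        have h5 : u⁻¹ * (u * y * u⁻¹) * u⁻¹⁻¹ = y := by group
        rwa [h5] at this
    have hpx : IsPGroup p (zpowers x) := by
      rw [IsPGroup.iff_card]
      exact ⟨s, by rw [Nat.card_zpowers, h1]⟩
    have hsup := IsPGroup.to_sup_of_normal_right' Q.isPGroup' hpx hnorm
    have h4 := Q.is_maximal' hsup le_sup_left
    apply h2
    rw [← h4]
    exact Subgroup.mem_sup_right (mem_zpowers x)
  have hT1 : p ∣ T.card := by
    have h3 := Q.isPGroup'.card_modEq_card_fixedPoints {A // A ∈ T}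
    have h5 : Nat.card (MulAction.fixedPoints (Q : Subgroup H) {A // A ∈ T}) = 0 := Nat.card_of_isEmpty
    have h4 : Nat.card {A // A ∈ T} = T.card := by
      rw [Nat.card_eq_fintype_card, Fintype.card_coe]
    rw [h4, h5] at h3
    exact (Nat.modEq_zero_iff_dvd).mp h3
  have h2 : p ^ (s - 1) ∣ (p ^ s).totient := by
    rw [Nat.totient_prime_pow hpp (by omega)]
    exact dvd_mul_right _ _
  have h3 : p ^ s = p ^ (s - 1) * p := by
    rw [← pow_succ]
    congr 1
    omega
  have h4 : p ^ (s - 1) * p ∣ (p ^ s).totient * T.card := mul_dvd_mul h2 hT1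
  rwa [← h3] at h4

/-- `φ(p^s)`, hence `p ^ (s - 1)`, divides the number of elements of order `p ^ s`. -/
theorem pow_pred_dvd_card [Fintype H] [DecidableEq H] {s : ℕ} (hs : s ≠ 0) :
    p ^ (s - 1) ∣ (Finset.univ.filter fun x : H => orderOf x = p ^ s).card := by
  classical
  have hpp : p.Prime := hp.out
  rw [card_eq_totient_mul (d := p ^ s) _ (fun x hx => (Finset.mem_filter.mp hx).2) (fun x hx y hy => by
    have hx' := (Finset.mem_filter.mp hx).2
    simp only [Finset.mem_filter, Finset.mem_univ, true_and]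
    rw [← Nat.card_zpowers, hy, Nat.card_zpowers, hx'])]
  refine Dvd.dvd.mul_right ?_ _
  rw [Nat.totient_prime_pow hpp (by omega)]
  exact dvd_mul_right _ _

/-- The count for a group with non-cyclic Sylow `p`-subgroup. -/
theorem pow_dvd_card_of_sylow [Fintype H] [DecidableEq H] (Q : Sylow p H) (hodd : p ≠ 2)
    (hQ : ¬ IsCyclic (Q : Subgroup H)) {s : ℕ} (hs : 2 ≤ s) :
    p ^ s ∣ (Finset.univ.filter fun x : H => orderOf x = p ^ s).card := by
  classical
  have h0 := Finset.card_filter_add_card_filter_not (s := Finset.univ.filter fun x : H => orderOf x = p ^ s)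
    (fun x => x ∈ (Q : Subgroup H))
  rw [← h0]
  refine dvd_add ?_ ?_
  · have h1 := pow_dvd_card_pgroup (G := (Q : Subgroup H)) Q.isPGroup' hodd hQ hs
    have h2 : ((Finset.univ.filter fun x : H => orderOf x = p ^ s).filter fun x => x ∈ (Q : Subgroup H)).card =
        (Finset.univ.filter fun x : (Q : Subgroup H) => orderOf x = p ^ s).card := by
      symm
      refine Finset.card_bij (fun x _ => (x : H)) ?_ ?_ ?_
      · intro x hx
        simp only [Finset.mem_filter, Finset.mem_univ, true_and] at hx ⊢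
        exact ⟨by rw [Subgroup.orderOf_coe, hx], x.2⟩
      · intro x _ y _ h
        exact Subtype.ext h
      · intro y hy
        simp only [Finset.mem_filter, Finset.mem_univ, true_and] at hy
        refine ⟨⟨y, hy.2⟩, ?_, rfl⟩
        simp only [Finset.mem_filter, Finset.mem_univ, true_and]
        rw [Subgroup.orderOf_mk, hy.1]
    rw [h2]
    exact h1
  · have h1 := dvd_card_out Q (s := s) (by omega)
    have h2 : ((Finset.univ.filter fun x : H => orderOf x = p ^ s).filter fun x => ¬ x ∈ (Q : Subgroup H)) =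
        Finset.univ.filter fun x : H => orderOf x = p ^ s ∧ x ∉ (Q : Subgroup H) := by
      ext x
      simp
    rw [h2]
    convert h1 using 2

end Out

end Cfsg.Agent.Lib.PGroup.Miller
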