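import Mathlib
import Cfsg.Prelude.Def_Local
import Cfsg.Agent.Lib.Core.Basic
import Cfsg.Agent.Lib.PGroup.Basic
import Cfsg.Agent.Lib.PGroup.PLength

/-!
# More on the `p`-length

Dropping `O_{p',p}(G)` (`plength_drop`), subadditivity (`plength_of_normal`), `p`-groups.
-/

set_option autoImplicit false

namespace Cfsg.Agent.Lib.PGroup

open Cfsg Subgroup

variable {G : Type*} [Group G] [Finite G] {p : ℕ} [Fact p.Prime]

/-- Dropping the first `p'`- and `p`-factors of the upper `p`-series. -/
theorem plength_drop {k : ℕ} (h : PLengthLE p (k + 1) G) :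
    haveI := uPS_normal (G := G) p 2
    PLengthLE p k (G ⧸ uPS p G 2) := by
  haveI hn2 := uPS_normal (G := G) p 2
  have hsurj := QuotientGroup.mk'_surjective (uPS p G 2)
  have hn := fun i => uPS_normal (G := G) p i
  have hchain := le_uPS_of_chain (p := p) (G := G ⧸ uPS p G 2)
    (fun i => (uPS p G (i + 2)).map (QuotientGroup.mk' (uPS p G 2)))
    (fun i => by
      haveI := hn (i + 2)
      exact Subgroup.Normal.map inferInstance _ hsurj)
    (by
      rw [zero_add, ← le_bot_iff]
      rintro _ ⟨x, hx, rfl⟩
      exact (QuotientGroup.eq_one_iff x).2 hx)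
    (fun i => Subgroup.map_mono (uPS_le_succ (i + 2)))
    (fun i hi => by
      haveI := hn (i + 2)
      have hd := relIndex_map_dvd (QuotientGroup.mk' (uPS p G 2)) hsurj (N := uPS p G (i + 2))
        (D := uPS p G (i + 2 + 1)) (uPS_le_succ _)
      refine Nat.Coprime.coprime_dvd_left hd (uPS_relIndex_even ?_)
      exact Even.add hi (by decide))
    (fun i hi => by
      haveI := hn (i + 2)
      have hd := relIndex_map_dvd (QuotientGroup.mk' (uPS p G 2)) hsurj (N := uPS p G (i + 2))
        (D := uPS p G (i + 2 + 1)) (uPS_le_succ _)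
      obtain ⟨m, hm⟩ := uPS_relIndex_odd (p := p) (G := G) (n := i + 2) (by
        rw [Nat.even_add]
        simpa using hi)
      rw [hm] at hd
      obtain ⟨m', -, hm'⟩ := (Nat.dvd_prime_pow (Fact.out : p.Prime)).1 hd
      exact ⟨m', hm'⟩)
    (2 * k + 1)
  have htop : uPS p G (2 * k + 1 + 2) = ⊤ := h
  simp only [htop, Subgroup.map_top_of_surjective _ hsurj] at hchain
  exact top_le_iff.1 hchain

/-- The chain for subadditivity. -/
theorem plength_of_normal (N : Subgroup G) [hN : N.Normal] {a b : ℕ} (h1 : PLengthLE p a N)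
    (h2 : PLengthLE p b (G ⧸ N)) : PLengthLE p (a + b) G := by
  classical
  have hsurj := QuotientGroup.mk'_surjective N
  have hn1 : ∀ i, ((uPS p N i).map N.subtype).Normal := fun i => by
    haveI := uPS_characteristic (p := p) (G := N) i
    exact map_subtype_normal_of_characteristic N _
  have hn2 : ∀ i, ((uPS p (G ⧸ N) i).comap (QuotientGroup.mk' N)).Normal := fun i => by
    haveI := uPS_normal (G := G ⧸ N) p i
    infer_instance
  obtain ⟨H, hH⟩ : ∃ H : ℕ → Subgroup G, ∀ i, H i = if i ≤ 2 * a then (uPS p N i).map N.subtype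
      else (uPS p (G ⧸ N) (i - 2 * a)).comap (QuotientGroup.mk' N) := ⟨_, fun _ => rfl⟩
  have hlo : ∀ i, i ≤ 2 * a → H i = (uPS p N i).map N.subtype := fun i hi => by
    rw [hH, if_pos hi]
  have hhi : ∀ j, H (2 * a + 1 + j) = (uPS p (G ⧸ N) (j + 1)).comap (QuotientGroup.mk' N) := fun j => by
    rw [hH, if_neg (by omega)]
    congr 2
    omega
  have hNle : N ≤ (uPS p (G ⧸ N) 1).comap (QuotientGroup.mk' N) := by
    intro x hx
    show ((x : G) : G ⧸ N) ∈ uPS p (G ⧸ N) 1
    rw [(QuotientGroup.eq_one_iff x).2 hx]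
    exact one_mem _
  have htop1 : (uPS p N (2 * a + 1)).map N.subtype = N := by
    have : uPS p N (2 * a + 1) = ⊤ := h1
    rw [this, ← MonoidHom.range_eq_map, Subgroup.range_subtype]
  have hloN : (uPS p N (2 * a)).map N.subtype ≤ N := Subgroup.map_subtype_le _
  have hcases : ∀ i, i < 2 * a ∨ i = 2 * a ∨ ∃ j, i = 2 * a + 1 + j := fun i => by
    rcases lt_trichotomy i (2 * a) with h | h | h
    · exact Or.inl h
    · exact Or.inr (Or.inl h)
    · exact Or.inr (Or.inr ⟨i - (2 * a + 1), by omega⟩)
  have hN' : ∀ i, (H i).Normal := fun i => by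
    rw [hH]
    by_cases hi : i ≤ 2 * a
    · rw [if_pos hi]; exact hn1 i
    · rw [if_neg hi]; exact hn2 _
  have hchain := le_uPS_of_chain (p := p) (G := G) H hN'
    (by
      rw [hlo 0 (Nat.zero_le _), uPS_zero, Subgroup.map_bot])
    (fun i => by
      rcases hcases i with hi | rfl | ⟨j, rfl⟩
      · rw [hlo i hi.le, hlo (i + 1) hi]
        exact Subgroup.map_mono (uPS_le_succ i)
      · rw [hlo _ le_rfl, show 2 * a + 1 = 2 * a + 1 + 0 from rfl, hhi 0]
        exact hloN.trans hNle
      · rw [show 2 * a + 1 + j + 1 = 2 * a + 1 + (j + 1) by omega, hhi, hhi]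
        exact Subgroup.comap_mono (uPS_le_succ _))
    (fun i hi => by
      rcases hcases i with hi' | rfl | ⟨j, rfl⟩
      · rw [hlo i hi'.le, hlo (i + 1) hi', Subgroup.relIndex_map_map_of_injective _ _ N.subtype_injective]
        exact uPS_relIndex_even hi
      · rw [hlo _ le_rfl, show 2 * a + 1 = 2 * a + 1 + 0 from rfl, hhi 0,
          ← Subgroup.relIndex_mul_relIndex _ _ _ hloN hNle]
        refine Nat.Coprime.mul_left ?_ ?_
        · have h3 := uPS_relIndex_even (p := p) (G := N) (n := 2 * a) (by simp)
          have : uPS p N (2 * a + 1) = ⊤ := h1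
          rw [this] at h3
          have h4 : ((uPS p N (2 * a)).map N.subtype).relIndex N = (uPS p N (2 * a)).index := by
            show (((uPS p N (2 * a)).map N.subtype).comap N.subtype).index = _
            rw [Subgroup.comap_map_eq_self_of_injective N.subtype_injective]
          rw [h4]
          rwa [Subgroup.relIndex_top_right] at h3
        · have h3 : N.relIndex ((uPS p (G ⧸ N) 1).comap (QuotientGroup.mk' N)) =
              Nat.card (uPS p (G ⧸ N) 1) := by
            rw [← card_map_mk, Subgroup.map_comap_eq_self_of_surjective hsurj]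
          rw [h3, uPS_one]
          exact Cfsg.Agent.Lib.Core.pPrimeCore_coprime p _
      · rw [show 2 * a + 1 + j + 1 = 2 * a + 1 + (j + 1) by omega, hhi, hhi, Subgroup.relIndex_comap,
          Subgroup.map_comap_eq_self_of_surjective hsurj]
        refine uPS_relIndex_even (n := j + 1) ?_
        rcases hi with ⟨c, hc⟩
        exact ⟨c - a, by omega⟩)
    (fun i hi => by
      rcases hcases i with hi' | rfl | ⟨j, rfl⟩
      · rw [hlo i hi'.le, hlo (i + 1) hi', Subgroup.relIndex_map_map_of_injective _ _ N.subtype_injective]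
        exact uPS_relIndex_odd hi
      · exact absurd (by simp) hi
      · rw [show 2 * a + 1 + j + 1 = 2 * a + 1 + (j + 1) by omega, hhi, hhi, Subgroup.relIndex_comap,
          Subgroup.map_comap_eq_self_of_surjective hsurj]
        refine uPS_relIndex_odd (n := j + 1) ?_
        intro hev
        apply hi
        rcases hev with ⟨c, hc⟩
        refine ⟨c + a, by omega⟩)
    (2 * a + 1 + 2 * b)
  rw [hhi, show 2 * b + 1 = 2 * b + 1 from rfl] at hchain
  have h2' : uPS p (G ⧸ N) (2 * b + 1) = ⊤ := h2
  rw [h2', Subgroup.comap_top] at hchain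
  show uPS p G (2 * (a + b) + 1) = ⊤
  rw [show 2 * (a + b) + 1 = 2 * a + 1 + 2 * b by omega]
  exact top_le_iff.1 hchain

/-- A `p`-group has `p`-length at most one. -/
theorem plength_of_isPGroup (h : IsPGroup p G) : PLengthLE p 1 G := by
  classical
  have hchain := le_uPS_of_chain (p := p) (G := G) (fun i => if i ≤ 1 then ⊥ else ⊤)
    (fun i => by
      by_cases hi : i ≤ 1
      · simp only [hi, if_true]; infer_instance
      · simp only [hi, if_false]; infer_instance)
    (by simp)
    (fun i => by
      by_cases hi : i ≤ 1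
      · simp [hi]
      · have : ¬ i + 1 ≤ 1 := by omega
        simp [hi, this])
    (fun i hi => by
      have h1 : i ≠ 1 := by
        rintro rfl
        exact absurd hi (by decide)
      by_cases hi0 : i = 0
      · subst hi0
        simp
      · have h2 : ¬ i ≤ 1 := by omega
        have h3 : ¬ i + 1 ≤ 1 := by omega
        simp [h2, h3])
    (fun i hi => by
      by_cases hi1 : i = 1
      · subst hi1
        have hc : ∃ m, Nat.card G = p ^ m := IsPGroup.iff_card.1 h
        simpa [Subgroup.relIndex_bot_left] using hc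
      · have h0 : i ≠ 0 := by
          rintro rfl
          exact hi (by decide)
        have h2 : ¬ i ≤ 1 := by omega
        have h3 : ¬ i + 1 ≤ 1 := by omega
        exact ⟨0, by simp [h2, h3]⟩)
    3
  simp only [show ¬ (3 ≤ 1) by decide, if_false] at hchain
  exact top_le_iff.1 hchain

end Cfsg.Agent.Lib.PGroup
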