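import Mathlib
import Cfsg.Prelude.Def_LocalEven
import Cfsg.Agent.Lib.Core.Basic
import Cfsg.Agent.Lib.Hall.CoprimeLemmas
import Cfsg.Agent.Lib.PGroup.Sylow
import Cfsg.Agent.Lib.FStar.Factorize

/-!
# Primitive pairs: maximal `p`-locals
-/

set_option autoImplicit false

namespace Cfsg.Agent.Lib.PGroup.PrimPair

open Subgroup Cfsg Cfsg.Agent.Lib.Core Cfsg.Agent.Lib.Hall

variable {G : Type*} [Group G] {p : ℕ}

/-- `L` is `p`-local. -/
def IsLoc (p : ℕ) (L : Subgroup G) : Prop :=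
  ∃ T : Subgroup G, IsPGroup p T ∧ T ≠ ⊥ ∧ L = normalizer (T : Set G)

/-- `M` is a maximal `p`-local. -/
def IsMaxLoc (p : ℕ) (M : Subgroup G) : Prop :=
  IsLoc p M ∧ ∀ L : Subgroup G, IsLoc p L → M ≤ L → L = M

/-- Conjugate of a subgroup. -/
abbrev cj (g : G) (U : Subgroup G) : Subgroup G := U.map (MulAut.conj g).toMonoidHom

theorem mem_cj {g x : G} {U : Subgroup G} : x ∈ cj g U ↔ g⁻¹ * x * g ∈ U := by
  constructor
  · rintro ⟨u, hu, rfl⟩
    have : g⁻¹ * ((MulAut.conj g).toMonoidHom u) * g = u := by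
      show g⁻¹ * (g * u * g⁻¹) * g = u
      group
    rw [this]
    exact hu
  · intro h
    refine ⟨_, h, ?_⟩
    show g * (g⁻¹ * x * g) * g⁻¹ = x
    group

theorem cj_inv_cj (g : G) (U : Subgroup G) : cj g⁻¹ (cj g U) = U := by
  ext x
  rw [mem_cj, mem_cj]
  have : g⁻¹ * (g⁻¹⁻¹ * x * g⁻¹) * g = x := by group
  rw [this]

theorem cj_cj_inv (g : G) (U : Subgroup G) : cj g (cj g⁻¹ U) = U := by
  have := cj_inv_cj g⁻¹ U
  rwa [inv_inv] at this

theorem cj_mono {g : G} {U V : Subgroup G} (h : U ≤ V) : cj g U ≤ cj g V :=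
  Subgroup.map_mono h

theorem isPGroup_cj {g : G} {U : Subgroup G} (h : IsPGroup p U) : IsPGroup p (cj g U) :=
  IsPGroup.map h _

theorem cj_ne_bot {g : G} {U : Subgroup G} (h : U ≠ ⊥) : cj g U ≠ ⊥ := by
  intro h2
  apply h
  have := (Subgroup.map_eq_bot_iff_of_injective _ (MulAut.conj g).injective).mp h2
  exact this

theorem cj_normalizer (g : G) (U : Subgroup G) :
    cj g (normalizer (U : Set G)) = normalizer ((cj g U : Subgroup G) : Set G) := by
  ext x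
  rw [mem_cj, Subgroup.mem_normalizer_iff, Subgroup.mem_normalizer_iff]
  constructor
  · intro h y
    have h1 := h (g⁻¹ * y * g)
    rw [mem_cj, mem_cj]
    have e : g⁻¹ * (x * y * x⁻¹) * g = (g⁻¹ * x * g) * (g⁻¹ * y * g) * (g⁻¹ * x * g)⁻¹ := by group
    rw [e]
    exact h1
  · intro h y
    have h1 := h (g * y * g⁻¹)
    rw [mem_cj, mem_cj] at h1
    have e1 : g⁻¹ * (g * y * g⁻¹) * g = y := by group
    have e2 : g⁻¹ * (x * (g * y * g⁻¹) * x⁻¹) * g = (g⁻¹ * x * g) * y * (g⁻¹ * x * g)⁻¹ := by group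
    rw [e1, e2] at h1
    exact h1

theorem IsLoc.cj {L : Subgroup G} (h : IsLoc p L) (g : G) : IsLoc p (cj g L) := by
  obtain ⟨T, hT, hne, rfl⟩ := h
  exact ⟨PrimPair.cj g T, isPGroup_cj hT, cj_ne_bot hne, cj_normalizer g T⟩

theorem IsMaxLoc.cj {M : Subgroup G} (h : IsMaxLoc p M) (g : G) : IsMaxLoc p (cj g M) := by
  refine ⟨h.1.cj g, fun L hL hle => ?_⟩
  have h1 : PrimPair.cj g⁻¹ L = M := h.2 _ (hL.cj g⁻¹) (by
    have := cj_mono (g := g⁻¹) hle
    rwa [cj_inv_cj] at this)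
  rw [← h1, cj_cj_inv]

theorem exists_maxLoc_ge [Finite G] {L : Subgroup G} (hL : IsLoc p L) :
    ∃ M : Subgroup G, IsMaxLoc p M ∧ L ≤ M := by
  classical
  let C : Set (Subgroup G) := {X | IsLoc p X ∧ L ≤ X}
  obtain ⟨M, hM⟩ := (Set.toFinite C).exists_maximal ⟨L, hL, le_rfl⟩
  refine ⟨M, ⟨hM.1.1, fun X hX hMX => ?_⟩, hM.1.2⟩
  exact le_antisymm (hM.2 ⟨hX, hM.1.2.trans hMX⟩ hMX) hMX

/-- `O_p(M)` as a subgroup of `G`. -/
abbrev Qm (p : ℕ) (M : Subgroup G) : Subgroup G := (pCore p M).map M.subtype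

theorem Qm_le (M : Subgroup G) : Qm p M ≤ M := Subgroup.map_subtype_le _

theorem isPGroup_Qm [Finite G] [Fact p.Prime] (M : Subgroup G) : IsPGroup p (Qm p M) :=
  IsPGroup.map (pCore_isPGroup p M) _

theorem le_normalizer_Qm (M : Subgroup G) : M ≤ normalizer ((Qm p M : Subgroup G) : Set G) := by
  have key : ∀ m ∈ M, ∀ x ∈ Qm p M, m * x * m⁻¹ ∈ Qm p M := by
    rintro m hm _ ⟨x, hx, rfl⟩
    exact ⟨⟨m, hm⟩ * x * (⟨m, hm⟩ : M)⁻¹, (pCore_normal p M).conj_mem x hx _, rfl⟩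
  intro m hm
  rw [Subgroup.mem_normalizer_iff]
  intro x
  refine ⟨key m hm x, fun h => ?_⟩
  have := key m⁻¹ (M.inv_mem hm) _ h
  simpa [mul_assoc] using this

theorem le_Qm_of_normal [Finite G] {M T : Subgroup G} (hTM : T ≤ M)
    (hT : IsPGroup p T) (hn : M ≤ normalizer (T : Set G)) : T ≤ Qm p M := by
  have h1 : (T.subgroupOf M).Normal := by
    constructor
    intro x hx g
    have := (Subgroup.mem_normalizer_iff.mp (hn g.2) x).mp hx
    exact this
  have h2 : IsPGroup p (T.subgroupOf M) :=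
    IsPGroup.of_equiv hT (Subgroup.subgroupOfEquivOfLe hTM).symm
  have h3 := le_pCore h1 h2
  intro t ht
  exact ⟨⟨t, hTM ht⟩, h3 ht, rfl⟩

theorem IsLoc.le_normalizer_T {L : Subgroup G} (h : IsLoc p L) :
    ∃ T : Subgroup G, IsPGroup p T ∧ T ≠ ⊥ ∧ L = normalizer (T : Set G) ∧ T ≤ L := by
  obtain ⟨T, hT, hne, rfl⟩ := h
  exact ⟨T, hT, hne, rfl, Subgroup.le_normalizer⟩

theorem Qm_ne_bot [Finite G] {M : Subgroup G} (hM : IsLoc p M) : Qm p M ≠ ⊥ := by
  obtain ⟨T, hT, hne, rfl, hTM⟩ := hM.le_normalizer_T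
  intro h
  apply hne
  have := le_Qm_of_normal hTM hT le_rfl
  rw [h] at this
  exact le_bot_iff.mp this

theorem normalizer_eq_of_pgroup {M U : Subgroup G} (hM : IsMaxLoc p M) (hU : IsPGroup p U)
    (hne : U ≠ ⊥) (h : M ≤ normalizer (U : Set G)) : normalizer (U : Set G) = M :=
  hM.2 _ ⟨U, hU, hne, rfl⟩ h

theorem normalizer_self_le [Finite G] [Fact p.Prime] {M : Subgroup G} (hM : IsMaxLoc p M) :
    normalizer (M : Set G) ≤ M := by
  have h1 : normalizer ((Qm p M : Subgroup G) : Set G) = M :=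
    normalizer_eq_of_pgroup hM (isPGroup_Qm M) (Qm_ne_bot hM.1) (le_normalizer_Qm M)
  have h2 := normalizer_le_normalizer_map_of_characteristic M (pCore p M)
  rwa [h1] at h2

theorem loc_ne_top [Finite G] [Fact p.Prime] (hO : pCore p G = ⊥) {L : Subgroup G}
    (hL : IsLoc p L) : L ≠ ⊤ := by
  obtain ⟨T, hT, hne, rfl⟩ := hL
  intro h
  apply hne
  have hn : T.Normal := by
    constructor
    intro x hx g
    have hg : g ∈ normalizer (T : Set G) := by rw [h]; exact mem_top g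
    exact (Subgroup.mem_normalizer_iff.mp hg x).mp hx
  have := le_pCore hn hT
  rw [hO] at this
  exact le_bot_iff.mp this

/-- Non-trivial normal subgroups of a maximal `p`-local have the same normalizer. -/
theorem normalizer_le_of_normal [Finite G] [Fact p.Prime] {M A : Subgroup G} (hM : IsMaxLoc p M)
    (hchar : centralizer (pCore p ↥M : Set ↥M) ≤ pCore p ↥M)
    (hne : A ≠ ⊥) (hAM : A ≤ M) (hn : M ≤ normalizer (A : Set G)) :
    normalizer (A : Set G) ≤ M := by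
  let U : Subgroup G := (pCore p A).map A.subtype
  have hU : IsPGroup p U := IsPGroup.map (pCore_isPGroup p A) _
  have hNU : normalizer (A : Set G) ≤ normalizer (U : Set G) :=
    normalizer_le_normalizer_map_of_characteristic A (pCore p A)
  have hinf : A ⊓ Qm p M ≠ ⊥ := by
    intro h
    apply hne
    rw [eq_bot_iff]
    intro a ha
    have hcomm : ∀ q ∈ Qm p M, q * a = a * q := by
      intro q hq
      have h1 : a * q * a⁻¹ * q⁻¹ ∈ A ⊓ Qm p M := by
        refine Subgroup.mem_inf.mpr ⟨?_, ?_⟩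
        · have e : a * q * a⁻¹ * q⁻¹ = a * (q * a⁻¹ * q⁻¹) := by group
          rw [e]
          refine A.mul_mem ha ?_
          exact (Subgroup.mem_normalizer_iff.mp (hn (Qm_le M hq)) _).mp (A.inv_mem ha)
        · refine (Qm p M).mul_mem ?_ ((Qm p M).inv_mem hq)
          exact (Subgroup.mem_normalizer_iff.mp (le_normalizer_Qm M (hAM ha)) _).mp hq
      rw [h] at h1
      have h2 := (Subgroup.mem_bot).mp h1
      have h3 : a * q = q * a := by
        have h4 : a * q * a⁻¹ = q := by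
          calc a * q * a⁻¹ = a * q * a⁻¹ * q⁻¹ * q := by group
            _ = q := by rw [h2, one_mul]
        calc a * q = a * q * a⁻¹ * a := by group
          _ = q * a := by rw [h4]
      exact h3.symm
    have hmem : (⟨a, hAM ha⟩ : M) ∈ centralizer (pCore p ↥M : Set ↥M) := by
      rw [Subgroup.mem_centralizer_iff]
      intro q hq
      apply Subtype.ext
      exact hcomm _ ⟨q, hq, rfl⟩
    have h5 := hchar hmem
    have h6 : a ∈ A ⊓ Qm p M := Subgroup.mem_inf.mpr ⟨ha, ⟨_, h5, rfl⟩⟩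
    rwa [h] at h6
  have hUne : U ≠ ⊥ := by
    intro h
    apply hinf
    rw [eq_bot_iff]
    intro x hx
    obtain ⟨hxA, hxQ⟩ := Subgroup.mem_inf.mp hx
    have hle : (A ⊓ Qm p M).subgroupOf A ≤ pCore p A := by
      apply le_pCore
      · constructor
        intro y hy g
        have hy' := Subgroup.mem_inf.mp (Subgroup.mem_subgroupOf.mp hy)
        refine Subgroup.mem_subgroupOf.mpr (Subgroup.mem_inf.mpr ⟨?_, ?_⟩)
        · exact A.mul_mem (A.mul_mem g.2 hy'.1) (A.inv_mem g.2)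
        · exact (Subgroup.mem_normalizer_iff.mp (le_normalizer_Qm M (hAM g.2)) _).mp hy'.2
      · refine IsPGroup.of_equiv ((isPGroup_Qm (p := p) M).to_le inf_le_right)
          (Subgroup.subgroupOfEquivOfLe (inf_le_left : A ⊓ Qm p M ≤ A)).symm
    have h1 : x ∈ U := ⟨⟨x, hxA⟩, hle (Subgroup.mem_subgroupOf.mpr hx), rfl⟩
    rwa [h] at h1
  have h2 : normalizer (U : Set G) = M := normalizer_eq_of_pgroup hM hU hUne (hn.trans hNU)
  rw [← h2]
  exact hNU

/-- **Existence of the pair.** -/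
theorem exists_pair [Finite G] [Fact p.Prime]
    (h : ∃ M₁ M₂ : Subgroup G, IsMaxLoc p M₁ ∧ IsMaxLoc p M₂ ∧ M₁ ≠ M₂ ∧
      p ∣ Nat.card ↥(M₁ ⊓ M₂)) :
    ∃ M₁ M₂ : Subgroup G, IsMaxLoc p M₁ ∧ IsMaxLoc p M₂ ∧ M₁ ≠ M₂ ∧ Qm p M₁ ≤ M₂ ∧ Qm p M₂ ≤ M₁ := by
  classical
  let C : Set (Subgroup G) := {D | IsPGroup p D ∧ D ≠ ⊥ ∧ ∃ M₁ M₂ : Subgroup G,
    IsMaxLoc p M₁ ∧ IsMaxLoc p M₂ ∧ M₁ ≠ M₂ ∧ D ≤ M₁ ⊓ M₂}
  have hCne : C.Nonempty := by
    obtain ⟨M₁, M₂, h1, h2, h3, h4⟩ := h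
    obtain ⟨x, hx⟩ := exists_prime_orderOf_dvd_card' (G := ↥(M₁ ⊓ M₂)) p h4
    have hxp : (x : G) ^ p = 1 := by
      have := congrArg Subtype.val (hx ▸ pow_orderOf_eq_one x)
      simpa using this
    refine ⟨zpowers (x : G), Cfsg.Agent.Lib.FStar.zpowers_isPGroup hxp, ?_, M₁, M₂, h1, h2, h3, ?_⟩
    · intro h5
      have h6 : (x : G) = 1 := Subgroup.zpowers_eq_bot.mp h5
      have h7 : x = 1 := Subtype.ext h6
      rw [h7, orderOf_one] at hx
      exact (Fact.out : p.Prime).one_lt.ne hx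
    · rw [Subgroup.zpowers_le]
      exact x.2
  obtain ⟨D, hD⟩ := (Set.toFinite C).exists_maximal hCne
  obtain ⟨hDp, hDne, M₁, M₂, hM₁, hM₂, hne, hDM⟩ := hD.1
  have hDM₁ : D ≤ M₁ := hDM.trans inf_le_left
  have hDM₂ : D ≤ M₂ := hDM.trans inf_le_right
  -- the maximal local containing `N(D)`
  obtain ⟨M₃, hM₃, hNM₃⟩ := exists_maxLoc_ge (p := p) (L := normalizer (D : Set G))
    ⟨D, hDp, hDne, rfl⟩
  -- `D` is a maximal `p`-subgroup of `M`
  let S : Subgroup G → Prop := fun M => ∀ D' : Subgroup G, D' ≤ M → IsPGroup p D' → D ≤ D' → D' ≤ D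
  have key : ∀ M : Subgroup G, IsMaxLoc p M → D ≤ M → S M ∨ M = M₃ := by
    intro M hM hDM
    by_contra hcon
    push Not at hcon
    obtain ⟨hS, hMne⟩ := hcon
    simp only [S] at hS
    push Not at hS
    obtain ⟨D', hD'M, hD'p, hDD', hnot⟩ := hS
    have hlt : D < D' := lt_of_le_not_ge hDD' hnot
    obtain ⟨y, hyD', hyD, hyN⟩ := Cfsg.Agent.Lib.PGroup.exists_mem_normalizer_of_lt hD'p hlt
    let D'' : Subgroup G := D' ⊓ normalizer (D : Set G)
    have hD''C : D'' ∈ C := by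
      refine ⟨hD'p.to_le inf_le_left, ?_, M, M₃, hM, hM₃, hMne, ?_⟩
      · intro h
        have h1 : y ∈ D'' := Subgroup.mem_inf.mpr ⟨hyD', hyN⟩
        rw [h] at h1
        rw [(Subgroup.mem_bot).mp h1] at hyD
        exact hyD D.one_mem
      · exact le_inf (inf_le_left.trans hD'M) (inf_le_right.trans hNM₃)
    have hle : D ≤ D'' := le_inf hDD' Subgroup.le_normalizer
    have := hD.2 hD''C hle
    exact hyD (this (Subgroup.mem_inf.mpr ⟨hyD', hyN⟩))
  -- producing the pair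
  have hfinal : ∀ N₁ N₂ : Subgroup G, IsMaxLoc p N₁ → IsMaxLoc p N₂ → N₁ ≠ N₂ → D ≤ N₁ → D ≤ N₂ →
      S N₁ → S N₂ → ∃ M₁ M₂ : Subgroup G, IsMaxLoc p M₁ ∧ IsMaxLoc p M₂ ∧ M₁ ≠ M₂ ∧ Qm p M₁ ≤ M₂ ∧
        Qm p M₂ ≤ M₁ := by
    intro N₁ N₂ h1 h2 h3 h4 h5 h6 h7
    have hQ : ∀ N : Subgroup G, D ≤ N → S N → Qm p N ≤ D := by
      intro N hDN hS
      have hn : D ≤ normalizer ((Qm p N : Subgroup G) : Set G) := hDN.trans (le_normalizer_Qm N)
      have hsup : IsPGroup p ((Qm p N ⊔ D : Subgroup G)) :=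
        (isPGroup_Qm N).to_sup_of_normal_left' hDp hn
      have h8 := hS _ (sup_le (Qm_le N) hDN) hsup le_sup_right
      exact le_sup_left.trans h8
    exact ⟨N₁, N₂, h1, h2, h3, (hQ N₁ h4 h6).trans h5, (hQ N₂ h5 h7).trans h4⟩
  have hmain : ∀ N₁ N₂ : Subgroup G, IsMaxLoc p N₁ → IsMaxLoc p N₂ → N₁ ≠ N₂ → D ≤ N₁ → D ≤ N₂ →
      S N₁ → ∃ M₁ M₂ : Subgroup G, IsMaxLoc p M₁ ∧ IsMaxLoc p M₂ ∧ M₁ ≠ M₂ ∧ Qm p M₁ ≤ M₂ ∧
        Qm p M₂ ≤ M₁ := by
    intro N₁ N₂ h1 h2 h3 h4 h5 h6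
    by_cases h7 : S N₂
    · exact hfinal N₁ N₂ h1 h2 h3 h4 h5 h6 h7
    simp only [S] at h7
    push Not at h7
    obtain ⟨D', hD'M, hD'p, hDD', hnot⟩ := h7
    have hlt : D < D' := lt_of_le_not_ge hDD' hnot
    obtain ⟨y, hyD', hyD, hyN⟩ := Cfsg.Agent.Lib.PGroup.exists_mem_normalizer_of_lt hD'p hlt
    -- `y ∉ N₁`
    have hyN₁ : y ∉ N₁ := by
      intro hy
      have hle : (D ⊔ zpowers y : Subgroup G) ≤ D' :=
        sup_le hDD' ((Subgroup.zpowers_le).mpr hyD')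
      have h8 := h6 _ (sup_le h4 ((Subgroup.zpowers_le).mpr hy)) (hD'p.to_le hle) le_sup_left
      exact hyD (h8 (Subgroup.mem_sup_right (Subgroup.mem_zpowers y)))
    have hcjD : ∀ g ∈ normalizer (D : Set G), cj g D = D := by
      intro g hg
      ext x
      rw [mem_cj]
      have := (Subgroup.mem_normalizer_iff.mp (Subgroup.inv_mem _ hg) x)
      rw [inv_inv] at this
      exact this.symm
    have hcjD' : cj y⁻¹ D = D := hcjD _ (Subgroup.inv_mem _ hyN)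
    have hcjD2 : cj y D = D := hcjD _ hyN
    refine hfinal N₁ (cj y N₁) h1 (h1.cj y) ?_ h4 ?_ h6 ?_
    · intro h8
      apply hyN₁
      apply normalizer_self_le h1
      rw [Subgroup.mem_normalizer_iff]
      intro x
      constructor
      · intro hx
        have h9 : y * x * y⁻¹ ∈ cj y N₁ := by
          rw [mem_cj]
          have : y⁻¹ * (y * x * y⁻¹) * y = x := by group
          rwa [this]
        rwa [← h8] at h9
      · intro hx
        have h9 : y * x * y⁻¹ ∈ cj y N₁ := by rwa [← h8]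
        rw [mem_cj] at h9
        have : y⁻¹ * (y * x * y⁻¹) * y = x := by group
        rwa [this] at h9
    · have := cj_mono (g := y) h4
      rwa [hcjD2] at this
    · intro E hE hEp hDE
      have h9 : cj y⁻¹ E ≤ N₁ := by
        have := cj_mono (g := y⁻¹) hE
        rwa [cj_inv_cj] at this
      have h10 : D ≤ cj y⁻¹ E := by
        have := cj_mono (g := y⁻¹) hDE
        rwa [hcjD'] at this
      have h11 := h6 _ h9 (isPGroup_cj hEp) h10
      have h12 := cj_mono (g := y) h11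
      rwa [cj_cj_inv, hcjD2] at h12
  rcases key M₁ hM₁ hDM₁ with h1 | h1
  · exact hmain M₁ M₂ hM₁ hM₂ hne hDM₁ hDM₂ h1
  rcases key M₂ hM₂ hDM₂ with h2 | h2
  · exact hmain M₂ M₁ hM₂ hM₁ hne.symm hDM₂ hDM₁ h2
  · exact absurd (h1.trans h2.symm) hne

end Cfsg.Agent.Lib.PGroup.PrimPair
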