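import Mathlib

/-!
# Rank of finite abelian `p`-groups via `Ω₁`, nilpotent endomorphisms
-/

set_option autoImplicit false

namespace Cfsg.Agent.Lib.PGroup

universe u

/-- A nilpotent endomorphism `N` of a finite group `A` with `N^k = 1` satisfies
`|A| ≤ |ker N|^k`. -/
theorem card_le_card_ker_pow_of_iterate {A : Type u} [Group A] [Finite A] (N : A →* A) (k : ℕ)
    (hN : ∀ x, N^[k] x = 1) : Nat.card A ≤ (Nat.card N.ker) ^ k := by
  classical
  induction k generalizing A with
  | zero =>
    have hsub : Subsingleton A := ⟨fun a b => by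
      have h1 := hN a
      have h2 := hN b
      simp only [Function.iterate_zero, id_eq] at h1 h2
      rw [h1, h2]⟩
    simp
  | succ k ih =>
    -- restrict `N` to its range
    let R := N.range
    let N' : R →* R := (N.comp R.subtype).codRestrict R (fun x => ⟨x.1, rfl⟩)
    have hN' : ∀ x : R, N'^[k] x = 1 := by
      have hval : ∀ (j : ℕ) (x : R), ((N'^[j] x : R) : A) = N^[j] x := by
        intro j
        induction j with
        | zero => intro x; rfl
        | succ j ihj =>
          intro x
          rw [Function.iterate_succ_apply', Function.iterate_succ_apply', ← ihj]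
          rfl
      rintro ⟨x, y, rfl⟩
      apply Subtype.ext
      rw [hval]
      show N^[k] (N y) = 1
      rw [← Function.iterate_succ_apply]
      exact hN y
    have h1 := ih N' hN'
    have hkerle : Nat.card N'.ker ≤ Nat.card N.ker := by
      refine Nat.card_le_card_of_injective (fun x : N'.ker => (⟨(x.1 : A), ?_⟩ : N.ker)) ?_
      · have hx : N' x.1 = 1 := x.2
        have := congrArg Subtype.val hx
        exact this
      · intro x y hxy
        have h := congrArg (fun z : N.ker => (z : A)) hxy
        exact Subtype.ext (Subtype.ext h)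
    have h2 : Nat.card A = Nat.card N.ker * Nat.card R := by
      have e1 := Subgroup.card_mul_index N.ker
      rw [Subgroup.index_ker] at e1
      exact e1.symm
    rw [h2, pow_succ, mul_comm]
    refine Nat.mul_le_mul_right _ (h1.trans (Nat.pow_le_pow_left hkerle k))

/-- A finite abelian `p`-group can be generated by `d` elements where `p ^ d ≤ |Ω₁|`. -/
theorem exists_generating_finset {V : Type*} [CommGroup V] [Finite V] {p : ℕ} [hp : Fact p.Prime]
    (hV : IsPGroup p V) :
    ∃ S : Finset V, Subgroup.closure (S : Set V) = ⊤ ∧ p ^ S.card ≤ Nat.card {v : V // v ^ p = 1} := by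
  classical
  obtain ⟨ι, _, m, hm, ⟨e⟩⟩ := CommGroup.equiv_prod_multiplicative_zmod_of_finite V
  -- basis elements
  let b : ι → V := fun i => e.symm (Pi.mulSingle i (Multiplicative.ofAdd (1 : ZMod (m i))))
  have hmne : ∀ i, NeZero (m i) := fun i => ⟨(by have := hm i; omega)⟩
  have hsingle : ∀ (i : ι) (a : ZMod (m i)),
      (Pi.mulSingle i (Multiplicative.ofAdd a) : (i : ι) → Multiplicative (ZMod (m i))) =
        (Pi.mulSingle i (Multiplicative.ofAdd (1 : ZMod (m i)))) ^ a.val := by
    intro i a
    rw [← Pi.mulSingle_pow, ← ofAdd_nsmul]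
    congr 2
    simp
  have hclosure : Subgroup.closure ((Finset.univ.image b : Finset V) : Set V) = ⊤ := by
    rw [eq_top_iff]
    intro x _
    have hx : x = ∏ i, e.symm (Pi.mulSingle i (e x i)) := by
      rw [← map_prod, Finset.univ_prod_mulSingle, MulEquiv.symm_apply_apply]
    rw [hx]
    refine Subgroup.prod_mem _ (fun i _ => ?_)
    have h1 : e.symm (Pi.mulSingle i (e x i)) = (b i) ^ (Multiplicative.toAdd (e x i)).val := by
      show _ = (e.symm _) ^ _
      rw [← map_pow, ← hsingle]
      rfl
    rw [h1]
    refine pow_mem (Subgroup.subset_closure ?_) _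
    simp
  refine ⟨Finset.univ.image b, hclosure, ?_⟩
  -- `m i` is divisible by `p`
  have hdvd : ∀ i, p ∣ m i := by
    intro i
    have h1 : orderOf (b i) = m i := by
      have e1 : orderOf (b i) = orderOf (Pi.mulSingle i (Multiplicative.ofAdd (1 : ZMod (m i))) :
          (i : ι) → Multiplicative (ZMod (m i))) := MulEquiv.orderOf_eq e.symm _
      rw [e1, orderOf_eq_iff (by have := hm i; omega)]
      constructor
      · rw [← Pi.mulSingle_pow, ← ofAdd_nsmul]
        simp
      · intro j hj hj0 hj1
        have h2 := congrFun hj1 i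
        rw [Pi.pow_apply, Pi.mulSingle_eq_same, ← ofAdd_nsmul] at h2
        have h3 : (j : ZMod (m i)) = 0 := by
          have := congrArg Multiplicative.toAdd h2
          simpa using this
        rw [ZMod.natCast_eq_zero_iff] at h3
        exact absurd (Nat.le_of_dvd hj0 h3) (by omega)
    obtain ⟨k, hk⟩ := hV (b i)
    have h2 : orderOf (b i) ∣ p ^ k := orderOf_dvd_of_pow_eq_one hk
    rw [h1] at h2
    obtain ⟨j, _, hj⟩ := (Nat.dvd_prime_pow hp.out).mp h2
    rw [hj]
    rcases j with _ | j
    · exfalso
      have := hm i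
      rw [hj] at this
      simp at this
    · rw [pow_succ]
      exact Dvd.intro_left _ rfl
  -- an injection `(ι → Fin p) → Ω₁`
  let w : (ι → Fin p) → V := fun c => e.symm (fun i =>
    Multiplicative.ofAdd ((((c i : ℕ) * (m i / p) : ℕ) : ZMod (m i))))
  have hwΩ : ∀ c, (w c) ^ p = 1 := by
    intro c
    apply e.injective
    rw [map_pow, map_one, MulEquiv.apply_symm_apply]
    funext i
    rw [Pi.pow_apply, ← ofAdd_nsmul]
    show Multiplicative.ofAdd _ = 1
    rw [ofAdd_eq_one]
    rw [nsmul_eq_mul, ← Nat.cast_mul, ZMod.natCast_eq_zero_iff]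
    refine ⟨c i, ?_⟩
    have := Nat.div_mul_cancel (hdvd i)
    calc p * ((c i : ℕ) * (m i / p)) = (m i / p * p) * (c i : ℕ) := by ring
      _ = m i * (c i : ℕ) := by rw [this]
  have hwinj : Function.Injective (fun c => (⟨w c, hwΩ c⟩ : {v : V // v ^ p = 1})) := by
    intro c c' hcc
    have h1 : w c = w c' := congrArg Subtype.val hcc
    have h2 := e.symm.injective h1
    funext i
    have h3 := congrFun h2 i
    have h4 : (((c i : ℕ) * (m i / p) : ℕ) : ZMod (m i)) = (((c' i : ℕ) * (m i / p) : ℕ) : ZMod (m i)) :=
      Multiplicative.ofAdd.injective h3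
    rw [ZMod.natCast_eq_natCast_iff'] at h4
    have hq : 0 < m i / p := Nat.div_pos (Nat.le_of_dvd (by have := hm i; omega) (hdvd i)) hp.out.pos
    have hbound : ∀ x : Fin p, (x : ℕ) * (m i / p) < m i := by
      intro x
      have hx := x.2
      calc (x : ℕ) * (m i / p) < p * (m i / p) := Nat.mul_lt_mul_of_pos_right hx hq
        _ = m i := Nat.mul_div_cancel' (hdvd i)
    rw [Nat.mod_eq_of_lt (hbound _), Nat.mod_eq_of_lt (hbound _)] at h4
    exact Fin.ext (Nat.eq_of_mul_eq_mul_right hq h4)
  have hcard : Nat.card (ι → Fin p) ≤ Nat.card {v : V // v ^ p = 1} :=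
    Nat.card_le_card_of_injective _ hwinj
  have hcard2 : Nat.card (ι → Fin p) = p ^ Fintype.card ι := by
    simp [Nat.card_eq_fintype_card]
  rw [hcard2] at hcard
  refine le_trans (Nat.pow_le_pow_right hp.out.pos ?_) hcard
  exact Finset.card_image_le.trans (by simp)

end Cfsg.Agent.Lib.PGroup
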