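import Mathlib
import Cfsg.Agent.Lib.Hall.CoprimeLemmas

/-!
# Thompson's strengthening of the `P × Q` lemma for odd primes
-/

set_option autoImplicit false

namespace Cfsg.Agent.Lib.PGroup.ThompsonPQ

open Subgroup
open Cfsg.Agent.Lib.Hall

section SS

variable {Γ : Type*} [Group Γ]

/-- The product `x₁ ⋯ xₙ xₙ ⋯ x₁`. -/
def SS (l : List Γ) : Γ := l.prod * l.reverse.prod

theorem SS_cons (x : Γ) (l : List Γ) : SS (x :: l) = x * SS l * x := by
  simp [SS, mul_assoc]

theorem SS_perm (hc : ∀ a b c : Γ, (a * b * a⁻¹ * b⁻¹) * c = c * (a * b * a⁻¹ * b⁻¹))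
    {l l' : List Γ} (h : l.Perm l') : SS l = SS l' := by
  induction h with
  | nil => rfl
  | cons x _ ih => rw [SS_cons, SS_cons, ih]
  | swap x y l =>
    rw [SS_cons, SS_cons, SS_cons, SS_cons]
    set A := SS l
    have hy : y * x = (y * x * y⁻¹ * x⁻¹) * (x * y) := by group
    have h2 := hc y x A
    calc y * (x * A * x) * y = (y * x) * A * (x * y) := by group
      _ = (y * x * y⁻¹ * x⁻¹) * ((x * y) * A * (x * y)) := by
          conv_lhs => rw [hy]
          group
      _ = (x * y) * (y * x * y⁻¹ * x⁻¹) * A * (x * y) := by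
          have h3 := hc y x (x * y)
          rw [← h3]
          group
      _ = (x * y) * A * ((y * x * y⁻¹ * x⁻¹) * (x * y)) := by
          rw [mul_assoc (x * y), h2]
          group
      _ = x * (y * A * y) * x := by
          rw [← hy]
          group
  | trans _ _ ih1 ih2 => exact ih1.trans ih2

theorem SS_map {Γ' : Type*} [Group Γ'] (f : Γ →* Γ') (l : List Γ) :
    f (SS l) = SS (l.map f) := by
  simp [SS, map_list_prod, List.map_reverse]

theorem prod_map_mul_central (z : Γ) (hz : ∀ a, a * z = z * a) (l : List Γ) :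
    (l.map (· * z)).prod = l.prod * z ^ l.length := by
  induction l with
  | nil => simp
  | cons x l ih =>
    simp only [List.map_cons, List.prod_cons, List.length_cons, ih, pow_succ']
    rw [mul_assoc x z, ← mul_assoc z l.prod, ← hz l.prod]
    simp only [mul_assoc]

theorem SS_mul_central (z : Γ) (hz : ∀ a, a * z = z * a) (l : List Γ) :
    SS (l.map (· * z)) = SS l * z ^ (2 * l.length) := by
  unfold SS
  rw [← List.map_reverse, prod_map_mul_central z hz, prod_map_mul_central z hz, List.length_reverse,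
    two_mul, pow_add]
  have h : ∀ a : Γ, a * z ^ l.length = z ^ l.length * a := by
    intro a
    have : Commute a z := hz a
    exact (this.pow_right _).eq
  rw [mul_assoc l.prod, ← mul_assoc (z ^ l.length), ← h]
  simp only [mul_assoc]

variable {T : Type*} [Fintype T]

/-- `SS` of the enumeration of a finite family. -/
noncomputable def ST (g : T → Γ) : Γ := SS ((Finset.univ : Finset T).toList.map g)

theorem ST_comp_equiv (hc : ∀ a b c : Γ, (a * b * a⁻¹ * b⁻¹) * c = c * (a * b * a⁻¹ * b⁻¹))
    (π : Equiv.Perm T) (g : T → Γ) : ST (fun t => g (π t)) = ST g := by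
  unfold ST
  have h : ((Finset.univ : Finset T).toList.map π).Perm (Finset.univ : Finset T).toList := by
    rw [List.perm_ext_iff_of_nodup ((Finset.nodup_toList _).map π.injective) (Finset.nodup_toList _)]
    intro a
    simp only [List.mem_map, Finset.mem_toList, Finset.mem_univ, true_and, iff_true]
    exact ⟨π.symm a, π.apply_symm_apply a⟩
  have h2 := h.map g
  rw [List.map_map] at h2
  exact SS_perm hc h2

theorem ST_map (f : Γ →* Γ) (g : T → Γ) : f (ST g) = ST (fun t => f (g t)) := by
  unfold ST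
  rw [SS_map, List.map_map]
  rfl

theorem ST_mul_central (z : Γ) (hz : ∀ a, a * z = z * a) (g : T → Γ) :
    ST (fun t => g t * z) = ST g * z ^ (2 * Fintype.card T) := by
  unfold ST
  have h := SS_mul_central z hz ((Finset.univ : Finset T).toList.map g)
  rw [List.map_map, List.length_map, Finset.length_toList] at h
  exact h

end SS

variable {X : Type*} [Group X]

theorem mem_normalizer_centralizer {Q : Subgroup X} {σ : X} (hσ : σ ∈ normalizer (Q : Set X)) :
    σ ∈ normalizer (centralizer (Q : Set X) : Set X) := by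
  rw [Subgroup.mem_normalizer_iff]
  have key : ∀ g ∈ normalizer (Q : Set X), ∀ w ∈ centralizer (Q : Set X),
      g * w * g⁻¹ ∈ centralizer (Q : Set X) := by
    intro g hg w hw
    rw [Subgroup.mem_centralizer_iff]
    intro h hh
    have h1 : g⁻¹ * h * g ∈ Q := by
      have := (Subgroup.mem_normalizer_iff.mp (Subgroup.inv_mem _ hg) h).mp hh
      simpa using this
    have h2 := Subgroup.mem_centralizer_iff.mp hw _ h1
    calc h * (g * w * g⁻¹) = g * ((g⁻¹ * h * g) * w) * g⁻¹ := by group
      _ = g * (w * (g⁻¹ * h * g)) * g⁻¹ := by rw [h2]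
      _ = g * w * g⁻¹ * h := by group
  intro w
  refine ⟨key σ hσ w, fun h => ?_⟩
  have := key σ⁻¹ (Subgroup.inv_mem _ hσ) _ h
  simpa [mul_assoc] using this

/-- The contradiction step: `P`-central factor of `G` modulo `C_G(Q)`. -/
theorem step_false [Finite X] {p : ℕ} [Fact p.Prime] (hp : p ≠ 2)
    (P Q G : Subgroup X) (hQ : (Nat.card Q).Coprime p) (hPQ : P ≤ normalizer (Q : Set X))
    (hG : IsPGroup p G) (hPG : P ≤ normalizer (G : Set X)) (hQG : Q ≤ normalizer (G : Set X))
    (hC : G ⊓ centralizer (P : Set X) ≤ centralizer (Q : Set X))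
    (hclass : ∀ a ∈ G, ∀ b ∈ G, a * b * a⁻¹ * b⁻¹ ∈ centralizer (Q : Set X))
    (hDc : ∀ z ∈ G, z ∈ centralizer (Q : Set X) → ∀ a ∈ G, a * z = z * a)
    (x : X) (hxG : x ∈ G) (hxD : x ∉ centralizer (Q : Set X))
    (hx : ∀ σ ∈ P, σ * x * σ⁻¹ * x⁻¹ ∈ centralizer (Q : Set X)) : False := by
  classical
  haveI : Fintype Q := Fintype.ofFinite _
  let c : Q → (G ≃* G) := fun t => normalizerAut G (hQG t.2)
  let α : P → (G ≃* G) := fun σ => normalizerAut G (hPG σ.2)
  have hc' : ∀ a b d : G, (a * b * a⁻¹ * b⁻¹) * d = d * (a * b * a⁻¹ * b⁻¹) := by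
    intro a b d
    apply Subtype.ext
    exact (hDc _ (G.mul_mem (G.mul_mem (G.mul_mem a.2 b.2) (G.inv_mem a.2)) (G.inv_mem b.2))
      (hclass a a.2 b b.2) d d.2).symm
  -- the map `S`
  let S : G → G := fun y => ST (fun t => c t y)
  -- `Q` fixes the values of `S`
  have hS_fix : ∀ (u : Q) (y : G), c u (S y) = S y := by
    intro u y
    have h1 : c u (S y) = ST (fun t => c u (c t y)) :=
      ST_map (c u).toMonoidHom (fun t => c t y)
    rw [h1]
    have h2 : (fun t : Q => c u (c t y)) = (fun t : Q => (fun s : Q => c s y) (Equiv.mulLeft u t)) := by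
      funext t
      apply Subtype.ext
      show (u : X) * ((t : X) * (y : X) * (t : X)⁻¹) * (u : X)⁻¹
        = ((u : X) * (t : X)) * (y : X) * ((u : X) * (t : X))⁻¹
      group
    rw [h2]
    exact ST_comp_equiv hc' (Equiv.mulLeft u) (fun s : Q => c s y)
  have hS_D : ∀ y : G, ((S y : G) : X) ∈ centralizer (Q : Set X) := by
    intro y
    rw [Subgroup.mem_centralizer_iff]
    intro h hh
    have h1 := congrArg (Subtype.val) (hS_fix ⟨h, hh⟩ y)
    have h2 : h * ((S y : G) : X) * h⁻¹ = ((S y : G) : X) := h1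
    calc h * ((S y : G) : X) = (h * ((S y : G) : X) * h⁻¹) * h := by group
      _ = ((S y : G) : X) * h := by rw [h2]
  -- multiplicativity on the central part
  have hcfix : ∀ (t : Q) (z : G), (z : X) ∈ centralizer (Q : Set X) → c t z = z := by
    intro t z hz
    apply Subtype.ext
    show (t : X) * (z : X) * (t : X)⁻¹ = z
    have h1 : (t : X) * (z : X) = (z : X) * (t : X) := Subgroup.mem_centralizer_iff.mp hz t t.2
    rw [h1]
    group
  have hz_central : ∀ z : G, (z : X) ∈ centralizer (Q : Set X) → ∀ a : G, a * z = z * a := by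
    intro z hz a
    apply Subtype.ext
    exact hDc z z.2 hz a a.2
  have hS_mul : ∀ y z : G, (z : X) ∈ centralizer (Q : Set X) →
      S (y * z) = S y * z ^ (2 * Fintype.card Q) := by
    intro y z hz
    have h1 : (fun t : Q => c t (y * z)) = (fun t : Q => c t y * z) := by
      funext t
      rw [map_mul, hcfix t z hz]
    show ST (fun t : Q => c t (y * z)) = _
    rw [h1]
    exact ST_mul_central z (hz_central z hz) (fun t => c t y)
  -- compatibility with `P`
  have hS_α : ∀ (σ : P) (y : G), α σ (S y) = S (α σ y) := by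
    intro σ y
    have h1 : α σ (S y) = ST (fun t => α σ (c t y)) :=
      ST_map (α σ).toMonoidHom (fun t => c t y)
    rw [h1]
    let π : Q ≃* Q := normalizerAut Q (hPQ σ.2)
    have h2 : (fun t : Q => α σ (c t y))
        = (fun t : Q => (fun s : Q => c s (α σ y)) (π.toEquiv t)) := by
      funext t
      apply Subtype.ext
      show (σ : X) * ((t : X) * (y : X) * (t : X)⁻¹) * (σ : X)⁻¹
        = ((σ : X) * (t : X) * (σ : X)⁻¹) * ((σ : X) * (y : X) * (σ : X)⁻¹)
          * ((σ : X) * (t : X) * (σ : X)⁻¹)⁻¹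
      group
    rw [h2]
    exact ST_comp_equiv hc' π.toEquiv (fun s : Q => c s (α σ y))
  -- arithmetic
  set m := Fintype.card Q with hm
  have hmcard : m = Nat.card Q := (Nat.card_eq_fintype_card).symm
  have h2m : (2 * m).Coprime p := by
    refine Nat.Coprime.mul_left ?_ (hmcard ▸ hQ)
    exact (Nat.coprime_primes Nat.prime_two (Fact.out)).2 (Ne.symm hp)
  have hcardG : (Nat.card G).Coprime (2 * m) := by
    obtain ⟨k, hk⟩ := IsPGroup.iff_card.mp hG
    rw [hk]
    exact (Nat.Coprime.pow_left k h2m.symm)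
  have hinj : ∀ f : G, f ^ (2 * m) = 1 → f = 1 := by
    intro f hf
    apply (powCoprime hcardG).injective
    rw [powCoprime_apply, powCoprime_apply, hf, one_pow]
  -- the subgroup `D`
  let D : Subgroup G := (centralizer (Q : Set X)).comap G.subtype
  have hD : ∀ z : G, z ∈ D ↔ (z : X) ∈ centralizer (Q : Set X) := fun z => Iff.rfl
  have hcardD : (Nat.card D).Coprime (2 * m) :=
    Nat.Coprime.coprime_dvd_left (Subgroup.card_subgroup_dvd_card D) hcardG
  -- correction of `x`
  let x' : G := ⟨x, hxG⟩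
  have hSinv : (S x')⁻¹ ∈ D := D.inv_mem (hS_D x')
  obtain ⟨z₀, hz₀⟩ := (powCoprime hcardD).surjective ⟨(S x')⁻¹, hSinv⟩
  rw [powCoprime_apply] at hz₀
  have hz₀' : ((z₀ : D) : G) ^ (2 * m) = (S x')⁻¹ := by
    have := congrArg (Subtype.val) hz₀
    simpa using this
  let y₀ : G := x' * (z₀ : G)
  have hz₀D : (((z₀ : D) : G) : X) ∈ centralizer (Q : Set X) := z₀.2
  have hSy₀ : S y₀ = 1 := by
    show S (x' * (z₀ : G)) = 1
    rw [hS_mul x' _ hz₀D, hz₀', mul_inv_cancel]
  -- `y₀` is centralized by `P`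
  have hy₀P : ∀ σ ∈ P, (σ : X) * (y₀ : X) * σ⁻¹ = y₀ := by
    intro σ hσ
    let σ' : P := ⟨σ, hσ⟩
    -- the element `f = y₀⁻¹ (σ y₀ σ⁻¹)`
    let f : G := y₀⁻¹ * α σ' y₀
    have hfD : (f : X) ∈ centralizer (Q : Set X) := by
      -- `σ` normalizes `C(Q)`
      have hn : σ ∈ normalizer (centralizer (Q : Set X) : Set X) := mem_normalizer_centralizer (hPQ hσ)
      -- rewrite `f`
      have h1 : (f : X) = ((z₀ : G) : X)⁻¹ * x⁻¹ * ((σ * x * σ⁻¹ * x⁻¹) * x)
          * (σ * ((z₀ : G) : X) * σ⁻¹) := by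
        show ((x * ((z₀ : G) : X)))⁻¹ * (σ * (x * ((z₀ : G) : X)) * σ⁻¹) = _
        group
      have h3 : (σ * ((z₀ : G) : X) * σ⁻¹) ∈ centralizer (Q : Set X) :=
        (Subgroup.mem_normalizer_iff.mp hn _).mp hz₀D
      have h4 := hx σ hσ
      -- `σ x σ⁻¹ x⁻¹` is central in `G`
      have h5 : (σ * x * σ⁻¹ * x⁻¹) ∈ G := by
        refine G.mul_mem ?_ (G.inv_mem hxG)
        exact (Subgroup.mem_normalizer_iff.mp (hPG hσ) x).mp hxG
      have h6 := hDc _ h5 h4 x hxG
      have h7 : (f : X) = ((z₀ : G) : X)⁻¹ * (σ * x * σ⁻¹ * x⁻¹)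
          * (σ * ((z₀ : G) : X) * σ⁻¹) := by
        rw [h1, ← h6]
        group
      rw [h7]
      exact Subgroup.mul_mem _ (Subgroup.mul_mem _ (Subgroup.inv_mem _ hz₀D) h4) h3
    have hf1 : f ^ (2 * m) = 1 := by
      have h1 : α σ' y₀ = y₀ * f := by
        show α σ' y₀ = y₀ * (y₀⁻¹ * α σ' y₀)
        group
      have h2 : S (α σ' y₀) = 1 := by
        rw [← hS_α, hSy₀, map_one]
      rw [h1, hS_mul y₀ f hfD, hSy₀, one_mul] at h2
      exact h2
    have hf2 : f = 1 := hinj f hf1
    have h3 : α σ' y₀ = y₀ := by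
      have h1 : α σ' y₀ = y₀ * f := by
        show α σ' y₀ = y₀ * (y₀⁻¹ * α σ' y₀)
        group
      rw [h1, hf2, mul_one]
    exact congrArg Subtype.val h3
  have hy₀C : (y₀ : X) ∈ centralizer (Q : Set X) := by
    apply hC
    refine Subgroup.mem_inf.mpr ⟨y₀.2, ?_⟩
    rw [Subgroup.mem_centralizer_iff]
    intro σ hσ
    have h1 := hy₀P σ hσ
    calc σ * (y₀ : X) = (σ * (y₀ : X) * σ⁻¹) * σ := by group
      _ = (y₀ : X) * σ := by rw [h1]
  apply hxD
  have h1 : x = (y₀ : X) * ((z₀ : G) : X)⁻¹ := by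
    show x = (x * ((z₀ : G) : X)) * ((z₀ : G) : X)⁻¹
    group
  rw [h1]
  exact Subgroup.mul_mem _ hy₀C (Subgroup.inv_mem _ hz₀D)

theorem commutator_lt_of_isPGroup {p : ℕ} [Fact p.Prime] [Finite X] {G : Subgroup X}
    (hG : IsPGroup p G) (hne : G ≠ ⊥) : ⁅G, G⁆ < G := by
  haveI : Group.IsNilpotent G := hG.isNilpotent
  haveI : Group.IsSolvable G := inferInstance
  haveI : Nontrivial G := (Subgroup.nontrivial_iff_ne_bot G).mpr hne
  have h := Group.IsSolvable.commutator_lt_top_of_nontrivial (G := G)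
  have h2 : ⁅G, G⁆ = (commutator G).map G.subtype := by
    rw [_root_.commutator_def, Subgroup.map_commutator, ← MonoidHom.range_eq_map, Subgroup.range_subtype]
  rw [h2]
  have h3 : G = (⊤ : Subgroup G).map G.subtype := by
    rw [← MonoidHom.range_eq_map, Subgroup.range_subtype]
  conv_rhs => rw [h3]
  exact (Subgroup.map_lt_map_iff_of_injective G.subtype_injective).mpr h

/-- **Thompson's `P × Q` lemma for odd `p`.** -/
theorem thompson_pq [Finite X] {p : ℕ} [Fact p.Prime] (hp : p ≠ 2) (P Q : Subgroup X)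
    (hP : IsPGroup p P) (hQ : (Nat.card Q).Coprime p) (hPQ : P ≤ normalizer (Q : Set X))
    (G : Subgroup X)
    (hG : IsPGroup p G) (hPG : P ≤ normalizer (G : Set X)) (hQG : Q ≤ normalizer (G : Set X))
    (hC : G ⊓ centralizer (P : Set X) ≤ centralizer (Q : Set X)) :
    Q ≤ centralizer (G : Set X) := by
  induction G using WellFoundedLT.induction with
  | ind G ih =>
    by_cases hbot : G = ⊥
    · subst hbot
      intro q _
      rw [Subgroup.mem_centralizer_iff]
      intro g hg
      have : g = 1 := by simpa using hg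
      rw [this]
      group
    have key : ∀ G' : Subgroup X, G' < G → P ≤ normalizer (G' : Set X) →
        Q ≤ normalizer (G' : Set X) → Q ≤ centralizer (G' : Set X) := by
      intro G' hlt h1 h2
      exact ih G' hlt (hG.to_le hlt.le) h1 h2 (le_trans (inf_le_inf_right _ hlt.le) hC)
    -- (0) `[G,Q] = G`
    have hcop : (Nat.card Q).Coprime (Nat.card G) := by
      obtain ⟨k, hk⟩ := IsPGroup.iff_card.mp hG
      rw [hk]
      exact Nat.Coprime.pow_right k hQ
    have hsolv : Group.IsSolvable Q ∨ Group.IsSolvable G := by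
      right
      haveI : Group.IsNilpotent G := hG.isNilpotent
      infer_instance
    have hG1le : ⁅G, Q⁆ ≤ G := commutator_le_of_normalizes hQG
    have hG1P : P ≤ normalizer ((⁅G, Q⁆ : Subgroup X) : Set X) := fun σ hσ =>
      le_normalizer_commutator_of_normalizes (hPG hσ) (hPQ hσ)
    have hG1Q : Q ≤ normalizer ((⁅G, Q⁆ : Subgroup X) : Set X) :=
      le_normalizer_commutator_right hQG
    have hcc := commutator_commutator_eq Q G hQG hcop hsolv
    by_cases hG1 : ⁅G, Q⁆ = G
    swap
    · have h1 := key _ (lt_of_le_of_ne hG1le hG1) hG1P hG1Q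
      have h2 : ⁅⁅G, Q⁆, Q⁆ = ⊥ := by
        rw [Subgroup.commutator_eq_bot_iff_le_centralizer]
        intro g hg
        rw [Subgroup.mem_centralizer_iff]
        intro q hq
        exact (Subgroup.mem_centralizer_iff.mp (h1 hq) g hg).symm
      rw [hcc] at h2
      rw [Subgroup.commutator_eq_bot_iff_le_centralizer] at h2
      intro q hq
      rw [Subgroup.mem_centralizer_iff]
      intro g hg
      exact (Subgroup.mem_centralizer_iff.mp (h2 hg) q hq).symm
    -- (1) the commutator subgroup
    have hGG := commutator_lt_of_isPGroup hG hbot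
    have hGG_P : P ≤ normalizer ((⁅G, G⁆ : Subgroup X) : Set X) := fun σ hσ =>
      le_normalizer_commutator_of_normalizes (hPG hσ) (hPG hσ)
    have hGG_Q : Q ≤ normalizer ((⁅G, G⁆ : Subgroup X) : Set X) := fun σ hσ =>
      le_normalizer_commutator_of_normalizes (hQG hσ) (hQG hσ)
    have hGGC := key _ hGG hGG_P hGG_Q
    have hGGC' : ∀ g ∈ (⁅G, G⁆ : Subgroup X), g ∈ centralizer (Q : Set X) := by
      intro g hg
      rw [Subgroup.mem_centralizer_iff]
      intro q hq
      exact (Subgroup.mem_centralizer_iff.mp (hGGC hq) g hg).symm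
    -- (2) `D` is central in `G`
    let D : Subgroup X := G ⊓ centralizer (Q : Set X)
    have h3 : ⁅⁅G, Q⁆, D⁆ = ⊥ := by
      apply Subgroup.commutator_commutator_eq_bot_of_rotate
      · have : ⁅Q, D⁆ = ⊥ := by
          rw [Subgroup.commutator_eq_bot_iff_le_centralizer]
          intro q hq
          rw [Subgroup.mem_centralizer_iff]
          intro d hd
          exact (Subgroup.mem_centralizer_iff.mp (Subgroup.mem_inf.mp hd).2 q hq).symm
        rw [this]
        exact Subgroup.commutator_bot_left _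
      · have : ⁅D, G⁆ ≤ centralizer (Q : Set X) := by
          intro g hg
          refine hGGC' g ?_
          exact Subgroup.commutator_mono inf_le_left le_rfl hg
        rw [Subgroup.commutator_eq_bot_iff_le_centralizer]
        intro g hg
        rw [Subgroup.mem_centralizer_iff]
        intro q hq
        exact (Subgroup.mem_centralizer_iff.mp (this hg) q hq)
    rw [hG1] at h3
    have hDc : ∀ z ∈ G, z ∈ centralizer (Q : Set X) → ∀ a ∈ G, a * z = z * a := by
      intro z hz hz' a ha
      have h4 : a ∈ centralizer (D : Set X) :=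
        (Subgroup.commutator_eq_bot_iff_le_centralizer.mp h3) ha
      exact (Subgroup.mem_centralizer_iff.mp h4 z (Subgroup.mem_inf.mpr ⟨hz, hz'⟩)).symm
    have hclass : ∀ a ∈ G, ∀ b ∈ G, a * b * a⁻¹ * b⁻¹ ∈ centralizer (Q : Set X) := by
      intro a ha b hb
      exact hGGC' _ (Subgroup.commutator_mem_commutator ha hb)
    -- (4)
    by_cases hDG : D = G
    · intro q hq
      rw [Subgroup.mem_centralizer_iff]
      intro g hg
      rw [← hDG] at hg
      exact (Subgroup.mem_centralizer_iff.mp (Subgroup.mem_inf.mp hg).2 q hq).symm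
    exfalso
    have hDlt : D < G := lt_of_le_of_ne inf_le_left hDG
    have hGD : G ≤ normalizer (D : Set X) := by
      intro g hg
      apply mem_normalizer_of_mem_centralizer
      rw [Subgroup.mem_centralizer_iff]
      intro d hd
      exact (hDc d (Subgroup.mem_inf.mp hd).1 (Subgroup.mem_inf.mp hd).2 g hg).symm
    have hPD : P ≤ normalizer (D : Set X) := by
      intro σ hσ
      have h1 := mem_normalizer_centralizer (hPQ hσ)
      rw [Subgroup.mem_normalizer_iff] at h1 ⊢
      intro w
      have h2 := (Subgroup.mem_normalizer_iff.mp (hPG hσ)) w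
      constructor
      · intro hw
        exact Subgroup.mem_inf.mpr ⟨h2.mp (Subgroup.mem_inf.mp hw).1, (h1 w).mp (Subgroup.mem_inf.mp hw).2⟩
      · intro hw
        exact Subgroup.mem_inf.mpr ⟨h2.mpr (Subgroup.mem_inf.mp hw).1, (h1 w).mpr (Subgroup.mem_inf.mp hw).2⟩
    obtain ⟨d, hdG, hdD, hd⟩ := exists_central_step hG hP hDlt hGD hPD hPG
    have hdC : d ∉ centralizer (Q : Set X) := fun h => hdD (Subgroup.mem_inf.mpr ⟨hdG, h⟩)
    exact step_false hp P Q G hQ hPQ hG hPG hQG hC hclass hDc d hdG hdC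
      (fun σ hσ => (Subgroup.mem_inf.mp (hd σ hσ)).2)

end Cfsg.Agent.Lib.PGroup.ThompsonPQ
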