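import Mathlib
import Cfsg.Prelude.Def_LocalEven
import Cfsg.Agent.Lib.Core.Basic
import Cfsg.Agent.Lib.Hall.CoprimeLemmas
import Cfsg.Agent.Lib.PGroup.ThompsonPQ
import Cfsg.Agent.Lib.Amalgam.Involves
import Cfsg.Agent.Lib.FStar.Basic
import Cfsg.Agent.S0444

/-!
# Offenders on elementary abelian `2`-groups in `S₃`-free groups
-/

set_option autoImplicit false

namespace Cfsg.Agent.Lib.PGroup.S3Free

open Subgroup Cfsg Cfsg.Agent.Lib.Core Cfsg.Agent.Lib.Hall

variable {X : Type*} [Group X]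

/-- Elementary abelian `2`-group, unpacked. -/
def EA (V : Subgroup X) : Prop := (∀ u ∈ V, ∀ v ∈ V, u * v = v * u) ∧ ∀ v ∈ V, v * v = 1

/-- The fixed points of `t` on `V`. -/
abbrev Fx (V : Subgroup X) (t : X) : Subgroup X := V ⊓ centralizer ({t} : Set X)

theorem mem_Fx {V : Subgroup X} {t v : X} : v ∈ Fx V t ↔ v ∈ V ∧ t * v = v * t := by
  rw [Subgroup.mem_inf, Subgroup.mem_centralizer_iff]
  constructor
  · rintro ⟨h1, h2⟩
    exact ⟨h1, h2 t rfl⟩
  · rintro ⟨h1, h2⟩
    refine ⟨h1, fun h hh => ?_⟩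
    rw [Set.mem_singleton_iff] at hh
    rw [hh]
    exact h2

theorem conj_mem_of_normalizer {V : Subgroup X} {g v : X} (hg : g ∈ normalizer (V : Set X))
    (hv : v ∈ V) : g * v * g⁻¹ ∈ V := (Subgroup.mem_normalizer_iff.mp hg v).mp hv

theorem EA.of_le {V U : Subgroup X} (hV : EA V) (h : U ≤ V) : EA U :=
  ⟨fun u hu v hv => hV.1 u (h hu) v (h hv), fun v hv => hV.2 v (h hv)⟩

theorem EA.isPGroup [Finite X] {V : Subgroup X} (hV : EA V) : IsPGroup 2 V := by
  intro v
  refine ⟨1, ?_⟩
  apply Subtype.ext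
  have := hV.2 v v.2
  simpa [pow_two] using this

/-- An odd-order element lies in the cyclic group generated by its square. -/
theorem mem_of_sq_mem {C : Subgroup X} {x : X} (hodd : Odd (orderOf x)) (h : x * x ∈ C) : x ∈ C := by
  obtain ⟨k, hk⟩ := hodd
  have h1 : x = (x * x) ^ (k + 1) := by
    rw [← pow_two, ← pow_mul]
    have : 2 * (k + 1) = orderOf x + 1 := by omega
    rw [this, pow_succ, pow_orderOf_eq_one, one_mul]
  rw [h1]
  exact C.pow_mem h _

theorem not_centralize_fixed [Finite X] {V : Subgroup X} (hV : EA V) {t x : X}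
    (ht : t ∈ normalizer (V : Set X)) (ht2 : t * t = 1) (hx : x ∈ normalizer (V : Set X))
    (htx : t * x = x * t) (hodd : Odd (orderOf x)) (hxC : x ∉ centralizer (V : Set X)) :
    x ∉ centralizer ((Fx V t : Subgroup X) : Set X) := by
  intro hc
  apply hxC
  apply mem_of_sq_mem hodd
  rw [Subgroup.mem_centralizer_iff]
  intro v hv
  have htinv : t⁻¹ = t := inv_eq_of_mul_eq_one_left ht2
  have hxfix : ∀ w, w ∈ V → t * w = w * t → x * w = w * x := by
    intro w hw hwt
    exact (Subgroup.mem_centralizer_iff.mp hc w (mem_Fx.mpr ⟨hw, hwt⟩)).symm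
  set τv := t * v * t⁻¹ with hτv
  have hτvV : τv ∈ V := conj_mem_of_normalizer ht hv
  set ξv := x * v * x⁻¹ with hξv
  have hξvV : ξv ∈ V := conj_mem_of_normalizer hx hv
  set ξτv := x * τv * x⁻¹ with hξτv
  have hξτvV : ξτv ∈ V := conj_mem_of_normalizer hx hτvV
  -- `w = v τ(v)` is fixed by `t`
  have hw1 : t * (v * τv) = (v * τv) * t := by
    have h1 : t * τv * t⁻¹ = v := by
      rw [hτv, htinv]
      calc t * (t * v * t) * t = (t * t) * v * (t * t) := by group
        _ = v := by rw [ht2]; group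
    have h2 : t * (v * τv) * t⁻¹ = τv * v := by
      calc t * (v * τv) * t⁻¹ = (t * v * t⁻¹) * (t * τv * t⁻¹) := by group
        _ = τv * v := by rw [h1]
    have h3 := hV.1 τv hτvV v hv
    calc t * (v * τv) = (t * (v * τv) * t⁻¹) * t := by group
      _ = (τv * v) * t := by rw [h2]
      _ = (v * τv) * t := by rw [h3]
  have hw2 := hxfix _ (V.mul_mem hv hτvV) hw1
  -- so `ξ(v) ξτ(v) = v τ(v)`
  have hw3 : ξv * ξτv = v * τv := by
    calc ξv * ξτv = x * (v * τv) * x⁻¹ := by rw [hξv, hξτv]; group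
      _ = v * τv := by rw [hw2]; group
  -- `u = ξ(v) v` is fixed by `t`
  have htξ : t * ξv * t⁻¹ = ξτv := by
    rw [hξv, hξτv, hτv]
    have htx' : t * x⁻¹ = x⁻¹ * t := by
      calc t * x⁻¹ = x⁻¹ * (x * t) * x⁻¹ := by group
        _ = x⁻¹ * (t * x) * x⁻¹ := by rw [htx]
        _ = x⁻¹ * t := by group
    calc t * (x * v * x⁻¹) * t⁻¹ = (t * x) * v * (x⁻¹ * t⁻¹) := by group
      _ = (x * t) * v * (t⁻¹ * x⁻¹) := by
          have : x⁻¹ * t⁻¹ = t⁻¹ * x⁻¹ := by
            rw [htinv, htx']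
          rw [htx, this]
      _ = x * (t * v * t⁻¹) * x⁻¹ := by group
  have hu1 : t * (ξv * v) = (ξv * v) * t := by
    have h2 : t * (ξv * v) * t⁻¹ = ξτv * τv := by
      calc t * (ξv * v) * t⁻¹ = (t * ξv * t⁻¹) * (t * v * t⁻¹) := by group
        _ = ξτv * τv := by rw [htξ]
    have h3 : ξτv * τv = ξv * v := by
      -- from `ξv ξτv = v τv` and exponent two
      have e1 : ξτv = ξv * (v * τv) := by
        rw [← hw3, ← mul_assoc, hV.2 ξv hξvV, one_mul]
      rw [e1]
      have e2 : ξv * (v * τv) * τv = ξv * v * (τv * τv) := by group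
      rw [e2, hV.2 τv hτvV, mul_one]
    calc t * (ξv * v) = (t * (ξv * v) * t⁻¹) * t := by group
      _ = (ξτv * τv) * t := by rw [h2]
      _ = (ξv * v) * t := by rw [h3]
  have hu2 := hxfix _ (V.mul_mem hξvV hv) hu1
  -- `ξ²(v) ξ(v) = ξ(v) v`
  have hu3 : (x * ξv * x⁻¹) * ξv = ξv * v := by
    calc (x * ξv * x⁻¹) * ξv = x * (ξv * v) * x⁻¹ := by rw [hξv]; group
      _ = ξv * v := by rw [hu2]; group
  have hx2V : x * ξv * x⁻¹ ∈ V := conj_mem_of_normalizer hx hξvV
  have hu4 : x * ξv * x⁻¹ = v := by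
    have h5 := hV.1 ξv hξvV v hv
    rw [h5] at hu3
    exact mul_right_cancel hu3
  rw [hξv] at hu4
  calc v * (x * x) = x * (x * v * x⁻¹) * x⁻¹ * (x * x) := by rw [hu4]
    _ = (x * x) * v := by group

/-- The orbit estimate. -/
theorem prime_le_relIndex [Finite X] {V : Subgroup X} (hV : EA V) {x v : X}
    (hx : x ∈ normalizer (V : Set X)) (hv : v ∈ V) (hnc : x * v ≠ v * x)
    (hr : (orderOf x).Prime) (hr2 : orderOf x ≠ 2) :
    orderOf x ≤ (Fx V x).relIndex V := by
  classical
  set r := orderOf x with hrdef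
  haveI : NeZero r := ⟨hr.ne_zero⟩
  have hxpow : ∀ n : ℕ, x ^ n ∈ normalizer (V : Set X) := fun n => Subgroup.pow_mem _ hx n
  let vv : ℕ → ↥V := fun n => ⟨x ^ n * v * (x ^ n)⁻¹, conj_mem_of_normalizer (hxpow n) hv⟩
  -- key: no two orbit elements in the same coset
  have key : ∀ i j : ℕ, i < j → j < r →
      ((vv i : ↥V) : X)⁻¹ * ((vv j : ↥V) : X) ∉ centralizer ({x} : Set X) := by
    intro i j hij hjr hc
    set c := ((vv i : ↥V) : X)⁻¹ * ((vv j : ↥V) : X) with hcdef
    have hcV : c ∈ V := V.mul_mem (V.inv_mem (vv i).2) (vv j).2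
    have hcx : x * c = c * x := by
      have := Subgroup.mem_centralizer_iff.mp hc x rfl
      exact this
    have hcxp : ∀ n : ℕ, x ^ n * c = c * x ^ n := by
      intro n
      have : Commute x c := hcx
      exact (this.pow_left n).eq
    obtain ⟨m, rfl⟩ := Nat.exists_eq_add_of_lt hij
    set w := x ^ (m + 1) with hw
    have hwc : w * c = c * w := hcxp _
    -- `w v w⁻¹ = v c`
    have h1 : w * v * w⁻¹ = v * c := by
      have h2 : x ^ (i + m + 1) = x ^ i * w := by
        rw [hw, ← pow_add]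
        congr 1
      have h3 : (x ^ i)⁻¹ * c * x ^ i = c := by
        have := hcxp i
        calc (x ^ i)⁻¹ * c * x ^ i = (x ^ i)⁻¹ * (c * x ^ i) := by group
          _ = (x ^ i)⁻¹ * (x ^ i * c) := by rw [this]
          _ = c := by group
      have h4 : c = (x ^ i * v * (x ^ i)⁻¹)⁻¹ * (x ^ i * (w * v * w⁻¹) * (x ^ i)⁻¹) := by
        rw [hcdef]
        show (x ^ i * v * (x ^ i)⁻¹)⁻¹ * (x ^ (i + m + 1) * v * (x ^ (i + m + 1))⁻¹) = _
        rw [h2]
        group
      have h5 : (x ^ i)⁻¹ * c * x ^ i = v⁻¹ * (w * v * w⁻¹) := by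
        conv_lhs => rw [h4]
        group
      rw [h3] at h5
      rw [h5]
      group
    -- `w² v w⁻² = v`
    have hc2 : c * c = 1 := hV.2 c hcV
    have h2 : (w * w) * v = v * (w * w) := by
      have h3 : w * (v * c) * w⁻¹ = (v * c) * c := by
        calc w * (v * c) * w⁻¹ = (w * v * w⁻¹) * (w * c * w⁻¹) := by group
          _ = (v * c) * (w * c * w⁻¹) := by rw [h1]
          _ = (v * c) * c := by
            have : w * c * w⁻¹ = c := by
              rw [hwc]
              group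
            rw [this]
      have h4 : (w * w) * v * (w * w)⁻¹ = v := by
        calc (w * w) * v * (w * w)⁻¹ = w * (w * v * w⁻¹) * w⁻¹ := by group
          _ = (v * c) * c := by rw [h1, h3]
          _ = v := by rw [mul_assoc, hc2, mul_one]
      calc (w * w) * v = ((w * w) * v * (w * w)⁻¹) * (w * w) := by group
        _ = v * (w * w) := by rw [h4]
    -- `x` is a power of `w²`
    have hcop : (2 * (m + 1)).Coprime r := by
      have h3 : Nat.Coprime 2 r := (Nat.coprime_primes Nat.prime_two hr).mpr (Ne.symm hr2)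
      have h4 : Nat.Coprime (m + 1) r := by
        apply Nat.Coprime.symm
        apply (Nat.Prime.coprime_iff_not_dvd hr).mpr
        intro hd
        have := Nat.le_of_dvd (Nat.succ_pos m) hd
        omega
      exact Nat.Coprime.mul_left h3 h4
    have hr1 : 1 < r := hr.one_lt
    obtain ⟨u, -, hu⟩ := Nat.exists_mul_mod_eq_one_of_coprime hcop hr1
    have h5 : x = (w * w) ^ u := by
      have h6 : (w * w) = x ^ (2 * (m + 1)) := by
        rw [hw, ← pow_add]
        congr 1
        omega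
      rw [h6, ← pow_mul, ← pow_mod_orderOf x (2 * (m + 1) * u), ← hrdef, hu, pow_one]
    apply hnc
    have h6 : Commute (w * w) v := h2
    rw [h5]
    exact (h6.pow_left u).eq
  -- counting
  let f : Fin r → ↥V ⧸ ((Fx V x).subgroupOf V) := fun i => QuotientGroup.mk (vv i)
  have hf : Function.Injective f := by
    intro i j hij
    have h1 : (vv i)⁻¹ * vv j ∈ (Fx V x).subgroupOf V := QuotientGroup.eq.mp hij
    have h2 : ((vv i : ↥V) : X)⁻¹ * ((vv j : ↥V) : X) ∈ centralizer ({x} : Set X) :=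
      (Subgroup.mem_inf.mp (Subgroup.mem_subgroupOf.mp h1)).2
    apply Fin.ext
    by_contra hne
    rcases Nat.lt_or_gt_of_ne hne with hlt | hlt
    · exact key _ _ hlt j.2 h2
    · apply key _ _ hlt i.2
      have := Subgroup.inv_mem _ h2
      simpa using this
  have h3 := Nat.card_le_card_of_injective f hf
  rw [Nat.card_fin] at h3
  exact h3

theorem four_le [Finite X] {V : Subgroup X} (hV : EA V) {t x : X}
    (ht : t ∈ normalizer (V : Set X)) (ht2 : t * t = 1) (hx : x ∈ normalizer (V : Set X))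
    (hinv : t * x * t⁻¹ = x⁻¹) (hxC : x ∉ centralizer (V : Set X))
    (hr : (orderOf x).Prime) (h5 : 5 ≤ orderOf x) : 4 ≤ (Fx V t).relIndex V := by
  classical
  have htinv : t⁻¹ = t := inv_eq_of_mul_eq_one_left ht2
  -- the conjugate involution
  set t' := x * t * x⁻¹ with ht'
  have hcjV : V.map (MulAut.conj x).toMonoidHom = V := by
    ext y
    constructor
    · rintro ⟨y', hy', rfl⟩
      exact conj_mem_of_normalizer hx hy'
    · intro hy
      refine ⟨x⁻¹ * y * x, ?_, ?_⟩
      · have := conj_mem_of_normalizer (Subgroup.inv_mem _ hx) hy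
        simpa using this
      · show x * (x⁻¹ * y * x) * x⁻¹ = y
        group
  have hcjU : (Fx V t).map (MulAut.conj x).toMonoidHom = Fx V t' := by
    ext y
    rw [mem_Fx]
    constructor
    · rintro ⟨y', hy', rfl⟩
      obtain ⟨h1, h2⟩ := mem_Fx.mp hy'
      refine ⟨conj_mem_of_normalizer hx h1, ?_⟩
      show x * t * x⁻¹ * (x * y' * x⁻¹) = (x * y' * x⁻¹) * (x * t * x⁻¹)
      calc x * t * x⁻¹ * (x * y' * x⁻¹) = x * (t * y') * x⁻¹ := by group
        _ = x * (y' * t) * x⁻¹ := by rw [h2]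
        _ = _ := by group
    · rintro ⟨h1, h2⟩
      refine ⟨x⁻¹ * y * x, mem_Fx.mpr ⟨?_, ?_⟩, ?_⟩
      · have := conj_mem_of_normalizer (Subgroup.inv_mem _ hx) h1
        simpa using this
      · have h3 : x * t * x⁻¹ * y = y * (x * t * x⁻¹) := h2
        calc t * (x⁻¹ * y * x) = x⁻¹ * (x * t * x⁻¹ * y) * x := by group
          _ = x⁻¹ * (y * (x * t * x⁻¹)) * x := by rw [h3]
          _ = _ := by group
      · show x * (x⁻¹ * y * x) * x⁻¹ = y
        group
  have hk' : (Fx V t').relIndex V = (Fx V t).relIndex V := by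
    have := Subgroup.relIndex_map_map_of_injective (f := (MulAut.conj x).toMonoidHom) (Fx V t) V
      (MulAut.conj x).injective
    rwa [hcjU, hcjV] at this
  set k := (Fx V t).relIndex V with hk
  by_contra hlt
  push Not at hlt
  -- `k` is a power of two
  obtain ⟨n, hn⟩ := IsPGroup.iff_card.mp hV.isPGroup
  have hkd : k ∣ 2 ^ n := by
    rw [← hn]
    exact Subgroup.relIndex_dvd_card _ _
  have hk0 : 0 < k := Nat.pos_of_dvd_of_pos hkd (by positivity)
  have hk3 : k ≠ 3 := by
    intro h3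
    rw [h3] at hkd
    have := (Nat.Prime.dvd_of_dvd_pow Nat.prime_three hkd)
    omega
  have hk2 : k ≤ 2 := by omega
  -- `W = U ∩ U'` is centralized by `x`
  have hle : Fx V t ⊓ Fx V t' ≤ Fx V x := by
    intro w hw
    obtain ⟨hw1, hw2⟩ := Subgroup.mem_inf.mp hw
    obtain ⟨h1, h2⟩ := mem_Fx.mp hw1
    obtain ⟨_, h3⟩ := mem_Fx.mp hw2
    refine mem_Fx.mpr ⟨h1, ?_⟩
    -- `t t' = x⁻²`
    have h4 : t * t' = (x * x)⁻¹ := by
      have h6 : t * x = x⁻¹ * t := by
        calc t * x = (t * x * t⁻¹) * t := by group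
          _ = x⁻¹ * t := by rw [hinv]
      have h7 : t * x⁻¹ = x * t := by
        have : t * x⁻¹ * t⁻¹ = x := by
          have h8 : t * x⁻¹ * t⁻¹ = (t * x * t⁻¹)⁻¹ := by group
          rw [h8, hinv, inv_inv]
        calc t * x⁻¹ = (t * x⁻¹ * t⁻¹) * t := by group
          _ = x * t := by rw [this]
      rw [ht']
      calc t * (x * t * x⁻¹) = (t * x) * (t * x⁻¹) := by group
        _ = (x⁻¹ * t) * (x * t) := by rw [h6, h7]
        _ = x⁻¹ * (t * x) * t := by group
        _ = x⁻¹ * (x⁻¹ * t) * t := by rw [h6]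
        _ = x⁻¹ * x⁻¹ * (t * t) := by group
        _ = (x * x)⁻¹ := by rw [ht2]; group
    have hodd : Odd (orderOf x) := hr.odd_of_ne_two (by omega)
    have h8 : (x * x)⁻¹ ∈ centralizer ({w} : Set X) := by
      rw [← h4]
      apply Subgroup.mul_mem
      · rw [Subgroup.mem_centralizer_iff]
        intro y hy
        rw [Set.mem_singleton_iff] at hy
        rw [hy]
        exact h2.symm
      · rw [Subgroup.mem_centralizer_iff]
        intro y hy
        rw [Set.mem_singleton_iff] at hy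
        rw [hy]
        exact h3.symm
    have h9 : x * x ∈ centralizer ({w} : Set X) := by
      have := Subgroup.inv_mem _ h8
      rwa [inv_inv] at this
    have h10 := mem_of_sq_mem hodd h9
    have := Subgroup.mem_centralizer_iff.mp h10 w rfl
    exact this.symm
  -- index estimates
  have hd1 : (Fx V x).relIndex V ∣ (Fx V t ⊓ Fx V t').relIndex V :=
    Subgroup.relIndex_dvd_of_le_left V hle
  have hne : (Fx V t ⊓ Fx V t').relIndex V ≠ 0 := by
    intro h0
    have := Subgroup.relIndex_inf_le (H := Fx V t) (K := Fx V t') (L := V)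
    have h3 : (Fx V t ⊓ Fx V t').relIndex V ∣ Nat.card V := Subgroup.relIndex_dvd_card _ _
    rw [h0] at h3
    have h4 : Nat.card V ≠ 0 := Nat.card_pos.ne'
    exact h4 (zero_dvd_iff.mp h3)
  have h6 : (Fx V x).relIndex V ≤ k * k := by
    calc (Fx V x).relIndex V ≤ (Fx V t ⊓ Fx V t').relIndex V :=
          Nat.le_of_dvd (Nat.pos_of_ne_zero hne) hd1
      _ ≤ (Fx V t).relIndex V * (Fx V t').relIndex V := Subgroup.relIndex_inf_le
      _ = k * k := by rw [hk']
  -- the orbit
  have hv : ∃ v ∈ V, x * v ≠ v * x := by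
    by_contra hcon
    push Not at hcon
    apply hxC
    rw [Subgroup.mem_centralizer_iff]
    intro v hv
    exact (hcon v hv).symm
  obtain ⟨v, hvV, hvx⟩ := hv
  have h7 := prime_le_relIndex hV hx hvV hvx hr (by omega)
  have h8 : k * k ≤ 4 := by nlinarith
  omega

/-- The chain estimate. -/
theorem chain [Finite X] [DecidableEq X] (t : X → X) (S : Finset X)
    (hrel : ∀ x ∈ S, t x * t x = 1 ∧ t x * x * (t x)⁻¹ = x⁻¹ ∧ (orderOf x).Prime ∧ 5 ≤ orderOf x)
    (hcomm : ∀ x ∈ S, ∀ y ∈ S, y ≠ x → t x * y = y * t x)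
    (htt : ∀ x ∈ S, ∀ y ∈ S, t x * t y = t y * t x) :
    ∀ V : Subgroup X, EA V → (∀ x ∈ S, t x ∈ normalizer (V : Set X) ∧ x ∈ normalizer (V : Set X) ∧
      x ∉ centralizer (V : Set X)) →
      4 ^ S.card ≤ (V ⊓ ⨅ x ∈ S, centralizer ({t x} : Set X)).relIndex V := by
  induction S using Finset.induction_on with
  | empty =>
    intro V _ _
    simp [Subgroup.relIndex_self]
  | insert a S' ha ih =>
    intro V hV hn
    have ha' : a ∈ insert a S' := Finset.mem_insert_self a S'
    have hS' : ∀ x ∈ S', x ∈ insert a S' := fun x hx => Finset.mem_insert_of_mem hx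
    obtain ⟨ha1, ha2, ha3, ha4⟩ := hrel a ha'
    obtain ⟨hta, hxa, hnca⟩ := hn a ha'
    have hnorm : ∀ g ∈ normalizer (V : Set X), t a * g = g * t a →
        g ∈ normalizer ((Fx V (t a) : Subgroup X) : Set X) := by
      intro g hg hc
      apply mem_normalizer_of_conj_le
      intro v hv
      obtain ⟨h1, h2⟩ := mem_Fx.mp hv
      refine mem_Fx.mpr ⟨conj_mem_of_normalizer hg h1, ?_⟩
      have hc' : t a * g⁻¹ = g⁻¹ * t a := by
        calc t a * g⁻¹ = g⁻¹ * (g * t a) * g⁻¹ := by group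
          _ = g⁻¹ * (t a * g) * g⁻¹ := by rw [hc]
          _ = g⁻¹ * t a := by group
      calc t a * (g * v * g⁻¹) = (t a * g) * v * g⁻¹ := by group
        _ = g * t a * v * g⁻¹ := by rw [hc]
        _ = g * (t a * v) * g⁻¹ := by group
        _ = g * (v * t a) * g⁻¹ := by rw [h2]
        _ = g * v * (t a * g⁻¹) := by group
        _ = g * v * (g⁻¹ * t a) := by rw [hc']
        _ = _ := by group
    have hIH := ih (fun x hx => hrel x (hS' x hx))
      (fun x hx y hy => hcomm x (hS' x hx) y (hS' y hy))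
      (fun x hx y hy => htt x (hS' x hx) y (hS' y hy)) (Fx V (t a)) (hV.of_le inf_le_left) (by
        intro x hx
        have hxa' : x ≠ a := fun h => ha (h ▸ hx)
        obtain ⟨h1, h2, h3⟩ := hn x (hS' x hx)
        obtain ⟨h4, h5, h6, h7⟩ := hrel x (hS' x hx)
        have hax : t a * x = x * t a := hcomm a ha' x (hS' x hx) hxa'
        refine ⟨hnorm _ h1 (htt a ha' x (hS' x hx)), hnorm _ h2 hax, ?_⟩
        exact not_centralize_fixed hV hta ha1 h2 hax (h6.odd_of_ne_two (by omega)) h3)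
    have h4 := four_le hV hta ha1 hxa ha2 hnca ha3 ha4
    have heq : (V ⊓ ⨅ x ∈ insert a S', centralizer ({t x} : Set X)) =
        Fx V (t a) ⊓ ⨅ x ∈ S', centralizer ({t x} : Set X) := by
      rw [Finset.iInf_insert, inf_assoc]
    rw [heq, Finset.card_insert_of_notMem ha, pow_succ]
    have h5 := Subgroup.relIndex_mul_relIndex
      (Fx V (t a) ⊓ ⨅ x ∈ S', centralizer ({t x} : Set X)) (Fx V (t a)) V inf_le_left inf_le_left
    rw [← h5]
    exact Nat.mul_le_mul hIH h4

/-- The abstract offender estimate. -/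
theorem card_sq_le [Finite X] {A V : Subgroup X} (hA : EA A) (hV : EA V)
    (hAV : A ≤ normalizer (V : Set X)) (XX : Set X)
    (hXX : ∀ x ∈ XX, (orderOf x).Prime ∧ 5 ≤ orderOf x ∧ x ∈ normalizer (V : Set X) ∧
      x ∉ centralizer (V : Set X) ∧ ∀ b ∈ A, b * x * b⁻¹ = x ∨ b * x * b⁻¹ = x⁻¹)
    (hsep : ∀ a ∈ A, a ≠ 1 → ∃ x ∈ XX, a * x * a⁻¹ ≠ x) :
    Nat.card A ^ 2 ≤ (V ⊓ centralizer (A : Set X)).relIndex V := by
  classical
  haveI : Fintype X := Fintype.ofFinite X
  -- minimal separating finite subset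
  let Sep : Finset X → Prop := fun S => (∀ x ∈ S, x ∈ XX) ∧
    ∀ a ∈ A, a ≠ 1 → ∃ x ∈ S, a * x * a⁻¹ ≠ x
  have hne : {S : Finset X | Sep S}.Nonempty := by
    refine ⟨(Set.toFinite XX).toFinset, ?_⟩
    refine ⟨fun x hx => (Set.Finite.mem_toFinset _).mp hx, ?_⟩
    intro a ha ha1
    obtain ⟨x, hx, hxa⟩ := hsep a ha ha1
    exact ⟨x, (Set.Finite.mem_toFinset _).mpr hx, hxa⟩
  obtain ⟨S, hS⟩ := (Set.toFinite {S : Finset X | Sep S}).exists_minimal hne
  obtain ⟨hS1, hS2⟩ := hS.1
  -- dual elements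
  have hdual : ∀ x ∈ S, ∃ t ∈ A, t ≠ 1 ∧ ∀ y ∈ S, y ≠ x → t * y * t⁻¹ = y := by
    intro x hx
    by_contra hcon
    push Not at hcon
    have h1 : Sep (S.erase x) := by
      refine ⟨fun y hy => hS1 y (Finset.mem_of_mem_erase hy), ?_⟩
      intro a ha ha1
      obtain ⟨y, hy, hyx, hya⟩ := hcon a ha ha1
      exact ⟨y, Finset.mem_erase.mpr ⟨hyx, hy⟩, hya⟩
    have h2 := hS.2 h1 (Finset.erase_subset x S)
    exact (Finset.mem_erase.mp (h2 hx)).1 rfl
  choose! t ht1 ht2 ht3 using hdual
  -- eigen relations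
  have hrel : ∀ x ∈ S, t x * t x = 1 ∧ t x * x * (t x)⁻¹ = x⁻¹ ∧ (orderOf x).Prime ∧ 5 ≤ orderOf x := by
    intro x hx
    obtain ⟨h1, h2, _, _, h5⟩ := hXX x (hS1 x hx)
    refine ⟨hA.2 _ (ht1 x hx), ?_, h1, h2⟩
    rcases h5 (t x) (ht1 x hx) with h6 | h6
    · exfalso
      obtain ⟨y, hy, hya⟩ := hS2 (t x) (ht1 x hx) (ht2 x hx)
      by_cases hyx : y = x
      · rw [hyx] at hya
        exact hya h6
      · exact hya (ht3 x hx y hy hyx)
    · exact h6
  have hcomm : ∀ x ∈ S, ∀ y ∈ S, y ≠ x → t x * y = y * t x := by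
    intro x hx y hy hyx
    have h1 := ht3 x hx y hy hyx
    calc t x * y = (t x * y * (t x)⁻¹) * t x := by group
      _ = y * t x := by rw [h1]
  have htt : ∀ x ∈ S, ∀ y ∈ S, t x * t y = t y * t x := fun x hx y hy =>
    hA.1 _ (ht1 x hx) _ (ht1 y hy)
  have hchain := chain t S hrel hcomm htt V hV (fun x hx => by
    obtain ⟨_, _, h3, h4, _⟩ := hXX x (hS1 x hx)
    exact ⟨hAV (ht1 x hx), h3, h4⟩)
  -- `|A| ≤ 2^|S|`
  have hcardA : Nat.card A ≤ 2 ^ S.card := by
    let χ : A → (S → Bool) := fun a x => decide ((a : X) * (x : X) * (a : X)⁻¹ = x)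
    have hχ : Function.Injective χ := by
      intro a a' h
      by_contra hne
      have hne' : (a : X) ≠ a' := fun h => hne (Subtype.ext h)
      have h1 : (a' : X)⁻¹ * a ∈ A := A.mul_mem (A.inv_mem a'.2) a.2
      have h2 : (a' : X)⁻¹ * a ≠ 1 := by
        intro h3
        apply hne'
        calc (a : X) = a' * ((a' : X)⁻¹ * a) := by group
          _ = a' := by rw [h3, mul_one]
      obtain ⟨x, hx, hxa⟩ := hS2 _ h1 h2
      apply hxa
      have h3 := congrFun h ⟨x, hx⟩
      simp only [χ, decide_eq_decide] at h3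
      obtain ⟨_, _, _, _, h5⟩ := hXX x (hS1 x hx)
      have h4 : (a : X) * x * (a : X)⁻¹ = (a' : X) * x * (a' : X)⁻¹ := by
        rcases h5 a a.2 with h6 | h6
        · rw [h6, h3.mp h6]
        · rcases h5 a' a'.2 with h7 | h7
          · exact absurd (h3.mpr h7) (by
              intro h8
              rw [h8] at h6
              have hodd := (hXX x (hS1 x hx)).1.odd_of_ne_two
                (by have := (hXX x (hS1 x hx)).2.1; omega)
              have h9 : x * x = 1 := by
                have h10 : x * x⁻¹ = 1 := mul_inv_cancel x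
                rwa [← h6] at h10
              have h10 : orderOf x ∣ 2 := orderOf_dvd_of_pow_eq_one (by rw [pow_two, h9])
              have h11 := Nat.le_of_dvd (by norm_num) h10
              have := (hXX x (hS1 x hx)).2.1
              omega)
          · rw [h6, h7]
      calc (a' : X)⁻¹ * a * x * ((a' : X)⁻¹ * a)⁻¹
          = (a' : X)⁻¹ * ((a : X) * x * (a : X)⁻¹) * a' := by group
        _ = (a' : X)⁻¹ * ((a' : X) * x * (a' : X)⁻¹) * a' := by rw [h4]
        _ = x := by group
    have h1 := Nat.card_le_card_of_injective χ hχ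
    simpa [Nat.card_fun, Nat.card_eq_fintype_card] using h1
  -- conclusion
  have hle : V ⊓ centralizer (A : Set X) ≤ V ⊓ ⨅ x ∈ S, centralizer ({t x} : Set X) := by
    refine inf_le_inf_left V (le_iInf₂ fun x hx => ?_)
    intro c hc
    rw [Subgroup.mem_centralizer_iff] at hc ⊢
    intro h hh
    rw [Set.mem_singleton_iff] at hh
    rw [hh]
    exact hc _ (ht1 x hx)
  have hdvd := Subgroup.relIndex_dvd_of_le_left V hle
  have hpos : 0 < (V ⊓ centralizer (A : Set X)).relIndex V := by
    apply Nat.pos_of_ne_zero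
    intro h0
    have h3 : (V ⊓ centralizer (A : Set X)).relIndex V ∣ Nat.card V := Subgroup.relIndex_dvd_card _ _
    rw [h0] at h3
    have h4 : Nat.card V ≠ 0 := Nat.card_pos.ne'
    exact h4 (zero_dvd_iff.mp h3)
  calc Nat.card A ^ 2 ≤ (2 ^ S.card) ^ 2 := Nat.pow_le_pow_left hcardA 2
    _ = 4 ^ S.card := by
        rw [← pow_mul, mul_comm, pow_mul]
        norm_num
    _ ≤ _ := hchain
    _ ≤ _ := Nat.le_of_dvd hpos hdvd


/-- The eigen-element. -/
theorem exists_eigen [Finite X] {A K : Subgroup X} (hA : EA A) (hK : Odd (Nat.card K))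
    (hAK : A ≤ normalizer (K : Set X)) {a : X} (ha : a ∈ A)
    (hnc : a ∉ centralizer (K : Set X)) :
    ∃ x ∈ K, (orderOf x).Prime ∧ orderOf x ≠ 2 ∧ a * x * a⁻¹ = x⁻¹ ∧
      ∀ b ∈ A, b * x * b⁻¹ = x ∨ b * x * b⁻¹ = x⁻¹ := by
  classical
  let Cand : Set (Subgroup X) := {R | R ≤ K ∧ A ≤ normalizer (R : Set X) ∧
    a ∉ centralizer (R : Set X)}
  obtain ⟨R, hR⟩ := (Set.toFinite Cand).exists_minimal ⟨K, le_rfl, hAK, hnc⟩
  obtain ⟨hRK, hAR, haR⟩ := hR.1
  have hmin : ∀ R₁ : Subgroup X, R₁ ≤ R → A ≤ normalizer (R₁ : Set X) →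
      a ∉ centralizer (R₁ : Set X) → R₁ = R := fun R₁ h1 h2 h3 =>
    le_antisymm h1 (hR.2 ⟨h1.trans hRK, h2, h3⟩ h1)
  have hApg : IsPGroup 2 A := hA.isPGroup
  have hRodd : Odd (Nat.card R) := Odd.of_dvd_nat hK (Subgroup.card_dvd_of_le hRK)
  have hcop2 : Nat.Coprime 2 (Nat.card R) := Nat.coprime_two_left.mpr hRodd
  obtain ⟨kA, hkA⟩ := IsPGroup.iff_card.mp hApg
  have hcop : (Nat.card A).Coprime (Nat.card R) := by
    rw [hkA]
    exact Nat.Coprime.pow_left _ hcop2
  have hsol : Group.IsSolvable A ∨ Group.IsSolvable R := by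
    left
    haveI : Group.IsNilpotent A := hApg.isNilpotent
    infer_instance
  have hRne : R ≠ ⊥ := by
    intro h
    apply haR
    rw [Subgroup.mem_centralizer_iff]
    intro g hg
    rw [h] at hg
    have : g = 1 := by simpa using hg
    rw [this, mul_one, one_mul]
  -- `R` is a group of prime power order
  have hex : ∃ r : ℕ, r.Prime ∧ IsPGroup r R := by
    let T : Subgroup R := (centralizer ({a} : Set X)).subgroupOf R
    have hT : T ≠ ⊤ := by
      intro h
      apply haR
      rw [Subgroup.mem_centralizer_iff]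
      intro g hg
      have h1 : (⟨g, hg⟩ : R) ∈ T := by
        rw [h]
        exact Subgroup.mem_top _
      have h2 : g ∈ centralizer ({a} : Set X) := h1
      exact (Subgroup.mem_centralizer_iff.mp h2 a rfl).symm
    have hindex : T.index ≠ 1 := by
      intro h
      exact hT (Subgroup.index_eq_one.mp h)
    obtain ⟨r, hr, hrd⟩ := Nat.exists_prime_and_dvd hindex
    haveI : Fact r.Prime := ⟨hr⟩
    obtain ⟨P, hP⟩ := exists_invariant_sylow A R hAR hcop hsol r
    have hPnot : ¬ (P : Subgroup R) ≤ T := by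
      intro h
      have h1 : T.index ∣ (P : Subgroup R).index := Subgroup.index_dvd_of_le h
      exact P.not_dvd_index (hrd.trans h1)
    have hPa : a ∉ centralizer (((P : Subgroup R).map R.subtype : Subgroup X) : Set X) := by
      intro h
      apply hPnot
      intro y hy
      have h1 := Subgroup.mem_centralizer_iff.mp h (y : X) ⟨y, hy, rfl⟩
      show (y : X) ∈ centralizer ({a} : Set X)
      rw [Subgroup.mem_centralizer_iff]
      intro t ht
      rw [Set.mem_singleton_iff] at ht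
      rw [ht]
      exact h1.symm
    have h2 := hmin _ (Subgroup.map_subtype_le _) hP hPa
    refine ⟨r, hr, ?_⟩
    rw [← h2]
    exact IsPGroup.map P.isPGroup' _
  obtain ⟨r, hr, hRp⟩ := hex
  haveI : Fact r.Prime := ⟨hr⟩
  -- the prime is odd
  obtain ⟨kR, hkR⟩ := IsPGroup.iff_card.mp hRp
  have hkR0 : kR ≠ 0 := by
    intro h0
    rw [h0, pow_zero] at hkR
    exact hRne (Subgroup.eq_bot_of_card_eq R hkR)
  have hr2 : r ≠ 2 := by
    intro h2
    rw [hkR, h2] at hRodd
    exact (Nat.not_even_iff_odd.mpr hRodd) ((even_two).pow_of_ne_zero hkR0)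
  -- the cyclic group generated by `a`
  let Za : Subgroup X := zpowers a
  have hZaR : Za ≤ normalizer (R : Set X) := (Subgroup.zpowers_le).mpr (hAR ha)
  have hZaA : ∀ b ∈ A, b ∈ normalizer (Za : Set X) := by
    intro b hb
    apply mem_normalizer_of_mem_centralizer
    rw [Subgroup.mem_centralizer_iff]
    intro z hz
    have h1 : Za ≤ centralizer ({b} : Set X) := by
      refine (Subgroup.zpowers_le).mpr ?_
      rw [Subgroup.mem_centralizer_iff]
      intro t ht
      rw [Set.mem_singleton_iff] at ht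
      rw [ht]
      exact hA.1 b hb a ha
    have h2 := Subgroup.mem_centralizer_iff.mp (h1 hz) b rfl
    exact h2.symm
  have hZaA' : Za ≤ A := (Subgroup.zpowers_le).mpr ha
  have hcopZ : (Nat.card Za).Coprime (Nat.card R) :=
    Nat.Coprime.coprime_dvd_left (Subgroup.card_dvd_of_le hZaA') hcop
  have hsolZ : Group.IsSolvable Za ∨ Group.IsSolvable R := by
    right
    haveI : Group.IsNilpotent R := hRp.isNilpotent
    infer_instance
  have hleC : ∀ {U : Subgroup X}, a ∈ centralizer (U : Set X) → ⁅U, Za⁆ = ⊥ := by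
    intro U h
    rw [Subgroup.commutator_eq_bot_iff_le_centralizer]
    intro u hu
    rw [Subgroup.mem_centralizer_iff]
    intro z hz
    have h1 : Za ≤ centralizer ({u} : Set X) := by
      refine (Subgroup.zpowers_le).mpr ?_
      rw [Subgroup.mem_centralizer_iff]
      intro t ht
      rw [Set.mem_singleton_iff] at ht
      rw [ht]
      exact (Subgroup.mem_centralizer_iff.mp h u hu)
    have h2 := Subgroup.mem_centralizer_iff.mp (h1 hz) u rfl
    exact h2.symm
  -- (iii) `[R, a] = R`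
  have hRa : ⁅R, Za⁆ = R := by
    apply hmin _ (commutator_le_of_normalizes hZaR)
    · intro b hb
      exact le_normalizer_commutator_of_normalizes (hAR hb) (hZaA b hb)
    · intro h
      have h1 := hleC h
      rw [commutator_commutator_eq Za R hZaR hcopZ hsolZ] at h1
      apply haR
      rw [Subgroup.mem_centralizer_iff]
      intro g hg
      have h2 := (Subgroup.commutator_eq_bot_iff_le_centralizer.mp h1) hg
      exact (Subgroup.mem_centralizer_iff.mp h2 a (Subgroup.mem_zpowers a)).symm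
  -- (iv) the commutator subgroup
  have hlt := Cfsg.Agent.Lib.PGroup.ThompsonPQ.commutator_lt_of_isPGroup hRp hRne
  have hR'a : a ∈ centralizer ((⁅R, R⁆ : Subgroup X) : Set X) := by
    by_contra h
    have := hmin _ hlt.le (fun b hb => le_normalizer_commutator_of_normalizes (hAR hb) (hAR hb)) h
    exact hlt.ne this
  -- `D`
  let D : Subgroup X := R ⊓ centralizer ({a} : Set X)
  have hDR : D ≤ R := inf_le_left
  have hmemD : ∀ {y : X}, y ∈ D ↔ y ∈ R ∧ a * y = y * a := by
    intro y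
    rw [Subgroup.mem_inf, Subgroup.mem_centralizer_iff]
    constructor
    · rintro ⟨h1, h2⟩
      exact ⟨h1, h2 a rfl⟩
    · rintro ⟨h1, h2⟩
      refine ⟨h1, fun h hh => ?_⟩
      rw [Set.mem_singleton_iff] at hh
      rw [hh]
      exact h2
  have hAD : ∀ b ∈ A, ∀ y ∈ D, b * y * b⁻¹ ∈ D := by
    intro b hb y hy
    obtain ⟨h1, h2⟩ := hmemD.mp hy
    refine hmemD.mpr ⟨conj_mem_of_normalizer (hAR hb) h1, ?_⟩
    have hab : a * b = b * a := hA.1 a ha b hb
    have hab' : a * b⁻¹ = b⁻¹ * a := by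
      calc a * b⁻¹ = b⁻¹ * (b * a) * b⁻¹ := by group
        _ = b⁻¹ * (a * b) * b⁻¹ := by rw [hab]
        _ = b⁻¹ * a := by group
    calc a * (b * y * b⁻¹) = (a * b) * y * b⁻¹ := by group
      _ = b * a * y * b⁻¹ := by rw [hab]
      _ = b * (a * y) * b⁻¹ := by group
      _ = b * (y * a) * b⁻¹ := by rw [h2]
      _ = b * y * (a * b⁻¹) := by group
      _ = b * y * (b⁻¹ * a) := by rw [hab']
      _ = _ := by group
  have hR'D : ∀ y ∈ R, ∀ z ∈ R, y * z * y⁻¹ * z⁻¹ ∈ D := by
    intro y hy z hz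
    have h1 : y * z * y⁻¹ * z⁻¹ ∈ (⁅R, R⁆ : Subgroup X) := Subgroup.commutator_mem_commutator hy hz
    refine hmemD.mpr ⟨hlt.le h1, ?_⟩
    exact (Subgroup.mem_centralizer_iff.mp hR'a _ h1).symm
  -- (v) `D` is central in `R`
  have h3 : ⁅⁅R, Za⁆, D⁆ = ⊥ := by
    apply Subgroup.commutator_commutator_eq_bot_of_rotate
    · have h4 : ⁅Za, D⁆ = ⊥ := by
        rw [Subgroup.commutator_comm]
        apply hleC
        rw [Subgroup.mem_centralizer_iff]
        intro d hd
        exact ((hmemD.mp hd).2).symm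
      rw [h4]
      exact Subgroup.commutator_bot_left _
    · have h4 : ⁅D, R⁆ ≤ (⁅R, R⁆ : Subgroup X) := Subgroup.commutator_mono hDR le_rfl
      apply hleC
      rw [Subgroup.mem_centralizer_iff]
      intro g hg
      exact (Subgroup.mem_centralizer_iff.mp hR'a g (h4 hg))
  rw [hRa] at h3
  have hcen : ∀ d ∈ D, ∀ y ∈ R, d * y = y * d := by
    intro d hd y hy
    exact (Cfsg.Agent.Lib.FStar.mul_comm_of_commutator_eq_bot h3 hy hd).symm
  -- (vi) action of `b` modulo `D`
  have hpm : ∀ b ∈ A, ∀ y ∈ R, b * y * b⁻¹ * y⁻¹ ∈ D ∨ b * y * b⁻¹ * y ∈ D := by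
    intro b hb y hy
    have hconj : ∀ z ∈ R, b * z * b⁻¹ ∈ R := fun z hz => conj_mem_of_normalizer (hAR hb) hz
    let Bp : Subgroup X :=
      { carrier := {z | z ∈ R ∧ b * z * b⁻¹ * z⁻¹ ∈ D}
        mul_mem' := by
          rintro z₁ z₂ ⟨h1, h2⟩ ⟨h4, h5⟩
          refine ⟨R.mul_mem h1 h4, ?_⟩
          have h6 := hcen _ h5 _ (hconj z₁ h1)
          have e : b * (z₁ * z₂) * b⁻¹ * (z₁ * z₂)⁻¹
              = (b * z₁ * b⁻¹) * (b * z₂ * b⁻¹ * z₂⁻¹) * z₁⁻¹ := by group
          rw [e, ← h6]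
          have e2 : (b * z₂ * b⁻¹ * z₂⁻¹) * (b * z₁ * b⁻¹) * z₁⁻¹
              = (b * z₂ * b⁻¹ * z₂⁻¹) * (b * z₁ * b⁻¹ * z₁⁻¹) := by group
          rw [e2]
          exact D.mul_mem h5 h2
        one_mem' := by
          refine ⟨R.one_mem, ?_⟩
          have e : b * (1 : X) * b⁻¹ * (1 : X)⁻¹ = 1 := by group
          rw [e]
          exact D.one_mem
        inv_mem' := by
          rintro z ⟨h1, h2⟩
          refine ⟨R.inv_mem h1, ?_⟩
          have h4 := hcen _ h2 _ h1
          have e : b * z⁻¹ * b⁻¹ * z⁻¹⁻¹ = z⁻¹ * (b * z * b⁻¹ * z⁻¹)⁻¹ * z := by group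
          rw [e]
          have h5 := hcen _ (D.inv_mem h2) _ (R.inv_mem h1)
          rw [← h5]
          have e2 : (b * z * b⁻¹ * z⁻¹)⁻¹ * z⁻¹ * z = (b * z * b⁻¹ * z⁻¹)⁻¹ := by group
          rw [e2]
          exact D.inv_mem h2 }
    have hmemB : ∀ {z : X}, z ∈ Bp ↔ z ∈ R ∧ b * z * b⁻¹ * z⁻¹ ∈ D := Iff.rfl
    have hBA : A ≤ normalizer (Bp : Set X) := by
      intro c hc
      apply mem_normalizer_of_conj_le
      intro z hz
      obtain ⟨h1, h2⟩ := hmemB.mp hz
      refine hmemB.mpr ⟨conj_mem_of_normalizer (hAR hc) h1, ?_⟩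
      have h4 := hAD c hc _ h2
      have hbc : b * c = c * b := hA.1 b hb c hc
      have e : b * (c * z * c⁻¹) * b⁻¹ * (c * z * c⁻¹)⁻¹
          = (b * c) * z * (b * c)⁻¹ * (c * z⁻¹ * c⁻¹) := by group
      rw [e, hbc]
      have e2 : (c * b) * z * (c * b)⁻¹ * (c * z⁻¹ * c⁻¹) = c * (b * z * b⁻¹ * z⁻¹) * c⁻¹ := by group
      rw [e2]
      exact h4
    by_cases hBa : a ∈ centralizer (Bp : Set X)
    · right
      have hBD : ∀ z ∈ Bp, z ∈ D := by
        intro z hz
        refine hmemD.mpr ⟨(hmemB.mp hz).1, ?_⟩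
        exact (Subgroup.mem_centralizer_iff.mp hBa z hz).symm
      have hb2 : b * b = 1 := hA.2 b hb
      have hbinv : b⁻¹ = b := inv_eq_of_mul_eq_one_left hb2
      have hby : b * y * b⁻¹ ∈ R := hconj y hy
      set z := y * (b * y * b⁻¹) with hz
      have hzB : z ∈ Bp := by
        refine hmemB.mpr ⟨R.mul_mem hy hby, ?_⟩
        have e : b * z * b⁻¹ * z⁻¹ = (b * y * b⁻¹) * y * (b * y * b⁻¹)⁻¹ * y⁻¹ := by
          rw [hz]
          have e3 : b * (y * (b * y * b⁻¹)) * b⁻¹ = (b * y * b⁻¹) * ((b * b) * y * (b * b)⁻¹) := by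
            group
          rw [e3, hb2]
          group
        rw [e]
        exact hR'D _ hby _ hy
      have hzD := hBD z hzB
      have h5 := hcen z hzD y hy
      have e : b * y * b⁻¹ * y = z := by
        have : y⁻¹ * (z * y) = z := by
          rw [h5]
          group
        rw [← this, hz]
        group
      rw [e]
      exact hzD
    · left
      have h4 := hmin Bp (fun z hz => (hmemB.mp hz).1) hBA hBa
      have h5 : y ∈ Bp := by
        rw [h4]
        exact hy
      exact (hmemB.mp h5).2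
  -- (vii) `R` is abelian
  have hDlt : D < R := by
    refine lt_of_le_of_ne hDR (fun h => haR ?_)
    rw [Subgroup.mem_centralizer_iff]
    intro g hg
    rw [← h] at hg
    exact ((hmemD.mp hg).2).symm
  obtain ⟨y, hyR, hyD⟩ := SetLike.exists_of_lt hDlt
  have hya : a * y ≠ y * a := fun h => hyD (hmemD.mpr ⟨hyR, h⟩)
  let T : Subgroup X := zpowers y ⊔ D
  have hTR : T ≤ R := sup_le ((Subgroup.zpowers_le).mpr hyR) hDR
  have hTa : a ∉ centralizer (T : Set X) := by
    intro h
    apply hya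
    exact (Subgroup.mem_centralizer_iff.mp h y
      (Subgroup.mem_sup_left (Subgroup.mem_zpowers y))).symm
  have hTA : A ≤ normalizer (T : Set X) := by
    intro b hb
    apply mem_normalizer_of_conj_le
    have hle : T ≤ T.comap (MulAut.conj b).toMonoidHom := by
      refine sup_le ((Subgroup.zpowers_le).mpr ?_) ?_
      · show b * y * b⁻¹ ∈ T
        rcases hpm b hb y hyR with h | h
        · have e : b * y * b⁻¹ = (b * y * b⁻¹ * y⁻¹) * y := by group
          rw [e]
          exact T.mul_mem (Subgroup.mem_sup_right h) (Subgroup.mem_sup_left (Subgroup.mem_zpowers y))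
        · have e : b * y * b⁻¹ = (b * y * b⁻¹ * y) * y⁻¹ := by group
          rw [e]
          exact T.mul_mem (Subgroup.mem_sup_right h)
            (T.inv_mem (Subgroup.mem_sup_left (Subgroup.mem_zpowers y)))
      · intro d hd
        exact Subgroup.mem_sup_right (hAD b hb d hd)
    intro t ht
    exact hle ht
  have hTeq : T = R := hmin T hTR hTA hTa
  have hcomy : ∀ v ∈ R, v * y = y * v := by
    intro v hv
    have hle : T ≤ centralizer ({y} : Set X) := by
      refine sup_le ?_ ?_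
      · refine (Subgroup.zpowers_le).mpr ?_
        rw [Subgroup.mem_centralizer_iff]
        intro t ht
        rw [Set.mem_singleton_iff] at ht
        rw [ht]
      · intro d hd
        rw [Subgroup.mem_centralizer_iff]
        intro t ht
        rw [Set.mem_singleton_iff] at ht
        rw [ht]
        exact (hcen d hd y hyR).symm
    rw [← hTeq] at hv
    exact (Subgroup.mem_centralizer_iff.mp (hle hv) y rfl).symm
  have hab : ∀ u ∈ R, ∀ v ∈ R, u * v = v * u := by
    intro u hu v hv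
    have hle : T ≤ centralizer ({v} : Set X) := by
      refine sup_le ?_ ?_
      · refine (Subgroup.zpowers_le).mpr ?_
        rw [Subgroup.mem_centralizer_iff]
        intro t ht
        rw [Set.mem_singleton_iff] at ht
        rw [ht]
        exact hcomy v hv
      · intro d hd
        rw [Subgroup.mem_centralizer_iff]
        intro t ht
        rw [Set.mem_singleton_iff] at ht
        rw [ht]
        exact (hcen d hd v hv).symm
    rw [← hTeq] at hu
    exact (Subgroup.mem_centralizer_iff.mp (hle hu) v rfl).symm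
  -- (viii) the element `x`
  have ha2 : a * a = 1 := hA.2 a ha
  have hainv : a⁻¹ = a := inv_eq_of_mul_eq_one_left ha2
  set u := a * y * a⁻¹ with hu
  have huR : u ∈ R := conj_mem_of_normalizer (hAR ha) hyR
  set x := y * u⁻¹ with hx
  have hxR : x ∈ R := R.mul_mem hyR (R.inv_mem huR)
  have hax : a * x * a⁻¹ = x⁻¹ := by
    have e1 : a * u * a⁻¹ = y := by
      rw [hu, hainv]
      calc a * (a * y * a) * a = (a * a) * y * (a * a) := by group
        _ = y := by rw [ha2]; group
    have e2 : a * x * a⁻¹ = u * (a * u * a⁻¹)⁻¹ := by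
      rw [hx]
      have : a * (y * u⁻¹) * a⁻¹ = (a * y * a⁻¹) * (a * u * a⁻¹)⁻¹ := by group
      rw [this]
    rw [e2, e1, hx]
    group
  have hx1 : x ≠ 1 := by
    intro h
    apply hya
    have h1 : y = u := by
      have := mul_inv_eq_one.mp h
      exact this
    have h2 : a * y * a⁻¹ = y := h1.symm
    calc a * y = (a * y * a⁻¹) * a := by group
      _ = y * a := by rw [h2]
  have hbx : ∀ b ∈ A, b * x * b⁻¹ = x ∨ b * x * b⁻¹ = x⁻¹ := by
    intro b hb
    have hba : b * a = a * b := hA.1 b hb a ha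
    have e0 : b * u * b⁻¹ = a * (b * y * b⁻¹) * a⁻¹ := by
      rw [hu]
      calc b * (a * y * a⁻¹) * b⁻¹ = (b * a) * y * (b * a)⁻¹ := by group
        _ = (a * b) * y * (a * b)⁻¹ := by rw [hba]
        _ = _ := by group
    have e1 : b * x * b⁻¹ = (b * y * b⁻¹) * (a * (b * y * b⁻¹) * a⁻¹)⁻¹ := by
      rw [← e0, hx]
      group
    have hdfix : ∀ d ∈ D, a * d * a⁻¹ = d := by
      intro d hd
      rw [(hmemD.mp hd).2]
      group
    rcases hpm b hb y hyR with h | h
    · left
      set d := b * y * b⁻¹ * y⁻¹ with hd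
      have e2 : b * y * b⁻¹ = d * y := by
        rw [hd]
        group
      have e3 : a * (b * y * b⁻¹) * a⁻¹ = d * u := by
        rw [e2, hu]
        have : a * (d * y) * a⁻¹ = (a * d * a⁻¹) * (a * y * a⁻¹) := by group
        rw [this, hdfix d h]
      rw [e1, e3, e2]
      have h4 := hcen d h x hxR
      calc d * y * (d * u)⁻¹ = d * x * d⁻¹ := by rw [hx]; group
        _ = x * d * d⁻¹ := by rw [h4]
        _ = x := by group
    · right
      set d := b * y * b⁻¹ * y with hd
      have e2 : b * y * b⁻¹ = d * y⁻¹ := by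
        rw [hd]
        group
      have e3 : a * (b * y * b⁻¹) * a⁻¹ = d * u⁻¹ := by
        rw [e2, hu]
        have : a * (d * y⁻¹) * a⁻¹ = (a * d * a⁻¹) * (a * y * a⁻¹)⁻¹ := by group
        rw [this, hdfix d h]
      rw [e1, e3, e2]
      have h4 := hcen d h (y⁻¹ * u) (R.mul_mem (R.inv_mem hyR) huR)
      have h5 := hab y⁻¹ (R.inv_mem hyR) u huR
      calc d * y⁻¹ * (d * u⁻¹)⁻¹ = d * (y⁻¹ * u) * d⁻¹ := by group
        _ = (y⁻¹ * u) * d * d⁻¹ := by rw [h4]
        _ = y⁻¹ * u := by group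
        _ = u * y⁻¹ := h5
        _ = x⁻¹ := by rw [hx]; group
  -- (ix) the power of prime order
  have hordd : orderOf x ∣ r ^ kR := by
    rw [← hkR]
    have := orderOf_dvd_natCard (⟨x, hxR⟩ : R)
    simpa using this
  obtain ⟨j, -, hj⟩ := (Nat.dvd_prime_pow hr).mp hordd
  have hj0 : j ≠ 0 := by
    intro h0
    rw [h0, pow_zero] at hj
    exact hx1 (orderOf_eq_one_iff.mp hj)
  have hrd : r ∣ orderOf x := by
    rw [hj]
    exact dvd_pow_self r hj0
  have hord0 : orderOf x ≠ 0 := by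
    rw [hj]
    exact pow_ne_zero _ hr.ne_zero
  set m := orderOf x / r with hm
  refine ⟨x ^ m, hRK (R.pow_mem hxR m), ?_, ?_, ?_, ?_⟩
  · rw [orderOf_pow_orderOf_div hord0 hrd]
    exact hr
  · rw [orderOf_pow_orderOf_div hord0 hrd]
    exact hr2
  · rw [← conj_pow, hax, inv_pow]
  · intro b hb
    rcases hbx b hb with h | h
    · left
      rw [← conj_pow, h]
    · right
      rw [← conj_pow, h, inv_pow]

/-- `S₃` from an involution inverting an element of order three. -/
theorem involves_S3 {H : Type*} [Group H] {a x : H} (ha : a * a = 1) (ha1 : a ≠ 1)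
    (hx3 : x ^ 3 = 1) (hx1 : x ≠ 1) (hinv : a * x * a⁻¹ = x⁻¹) :
    Involves (Equiv.Perm (Fin 3)) H := by
  classical
  have hainv : a⁻¹ = a := inv_eq_of_mul_eq_one_left ha
  set e := x * a * x⁻¹ with he
  have hee : e * e = 1 := by
    rw [he]
    calc x * a * x⁻¹ * (x * a * x⁻¹) = x * (a * a) * x⁻¹ := by group
      _ = 1 := by rw [ha]; group
  have hde : a * e = x := by
    rw [he]
    have h1 : a * x * a = x⁻¹ := by
      have := hinv
      rwa [hainv] at this
    have h2 : x⁻¹ * x⁻¹ = x := by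
      have h3 : x ^ 3 = x * x * x := by rw [pow_succ, pow_two]
      rw [h3] at hx3
      calc x⁻¹ * x⁻¹ = (x⁻¹ * x⁻¹) * (x * x * x) := by rw [hx3, mul_one]
        _ = x := by group
    calc a * (x * a * x⁻¹) = (a * x * a) * x⁻¹ := by group
      _ = x := by rw [h1, h2]
  have hb : a * e * a = e * a * e := by
    rw [hde]
    have : e * a * e = e * (a * e) := by group
    rw [this, hde, he]
    group
  let f : Equiv.Perm (Fin 3) →* H :=
    MonoidHom.mk' (Cfsg.Agent.S0444.word a e) (Cfsg.Agent.S0444.word_mul a e ha hee hb)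
  have he1 : e ≠ 1 := by
    intro h
    apply ha1
    have h1 : x * a * x⁻¹ = 1 := h
    have h2 : x * a = x := by
      calc x * a = (x * a * x⁻¹) * x := by group
        _ = x := by rw [h1, one_mul]
    exact mul_eq_left.mp h2
  have hne : a ≠ e := by
    intro h
    apply hx1
    rw [← hde, ← h, ha]
  have hinj : Function.Injective f := by
    rw [injective_iff_map_eq_one]
    intro y hy
    have hy' : Cfsg.Agent.S0444.word a e y = 1 := hy
    rcases Cfsg.Agent.S0444.cases6 y with rfl | rfl | rfl | rfl | rfl | rfl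
    · rfl
    · rw [Cfsg.Agent.S0444.word_s] at hy'
      exact absurd hy' ha1
    · rw [Cfsg.Agent.S0444.word_t] at hy'
      exact absurd hy' he1
    · rw [Cfsg.Agent.S0444.word_st] at hy'
      exfalso
      apply hne
      calc a = a * (e * e) := by rw [hee, mul_one]
        _ = (a * e) * e := by group
        _ = e := by rw [hy', one_mul]
    · rw [Cfsg.Agent.S0444.word_ts] at hy'
      exfalso
      apply hne
      calc a = (e * e) * a := by rw [hee, one_mul]
        _ = e * (e * a) := by group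
        _ = e := by rw [hy', mul_one]
    · rw [Cfsg.Agent.S0444.word_sts] at hy'
      exfalso
      apply he1
      calc e = (a * a) * e * (a * a) := by rw [ha, one_mul, mul_one]
        _ = a * (a * e * a) * a := by group
        _ = 1 := by rw [hy', mul_one, ha]
  exact Cfsg.Agent.Lib.Amalgam.involves_of_surjective f.range
    ((MonoidHom.ofInjective hinj).symm.toMonoidHom) (MulEquiv.surjective _)

/-- **The theorem.** -/
theorem main [Finite X] (M V : Subgroup X) (hV : IsElementaryAbelian 2 V)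
    (hMV : M ≤ normalizer (V : Set X)) (hfaith : M ⊓ centralizer (V : Set X) = ⊥)
    (hcon : centralizer (pPrimeCore 2 ↥M : Set ↥M) ≤ pPrimeCore 2 ↥M) (A : Subgroup X)
    (hAM : A ≤ M) (hA : IsElementaryAbelian 2 A)
    (hsmall : (V ⊓ centralizer (A : Set X)).relIndex V < Nat.card A ^ 2) :
    Involves (Equiv.Perm (Fin 3)) ↥M := by
  classical
  by_contra hnot
  have hEA : ∀ U : Subgroup X, IsElementaryAbelian 2 U → EA U := by
    intro U hU
    refine ⟨fun u hu v hv => ?_, fun v hv => ?_⟩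
    · exact congrArg Subtype.val (hU.1.is_comm.comm ⟨u, hu⟩ ⟨v, hv⟩)
    · have := hU.2 v hv
      rwa [pow_two] at this
  have hAE := hEA A hA
  have hVE := hEA V hV
  let K : Subgroup X := (pPrimeCore 2 ↥M).map M.subtype
  have hKM : K ≤ M := Subgroup.map_subtype_le _
  have hMK : M ≤ normalizer (K : Set X) := by
    have key : ∀ m ∈ M, ∀ x ∈ K, m * x * m⁻¹ ∈ K := by
      rintro m hm _ ⟨x, hx, rfl⟩
      exact ⟨⟨m, hm⟩ * x * (⟨m, hm⟩ : M)⁻¹, (pPrimeCore_normal 2 ↥M).conj_mem x hx _, rfl⟩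
    intro m hm
    exact mem_normalizer_of_conj_le (key m hm)
  have hKcop : (Nat.card K).Coprime 2 := by
    have h1 : Nat.card K = Nat.card (pPrimeCore 2 ↥M) :=
      (Nat.card_congr ((pPrimeCore 2 ↥M).equivMapOfInjective M.subtype
        M.subtype_injective).toEquiv).symm
    rw [h1]
    exact pPrimeCore_coprime 2 ↥M
  have hKodd : Odd (Nat.card K) := Nat.Coprime.odd_of_right hKcop
  have hAK : A ≤ normalizer (K : Set X) := hAM.trans hMK
  have hsep0 : ∀ a ∈ A, a ≠ 1 → a ∉ centralizer (K : Set X) := by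
    intro a ha ha1 hc
    have h1 : (⟨a, hAM ha⟩ : M) ∈ centralizer (pPrimeCore 2 ↥M : Set ↥M) := by
      rw [Subgroup.mem_centralizer_iff]
      intro y hy
      apply Subtype.ext
      exact (Subgroup.mem_centralizer_iff.mp hc _ ⟨y, hy, rfl⟩)
    have h2 := hcon h1
    have h3 : a ∈ K := ⟨_, h2, rfl⟩
    have h4 : a ^ Nat.card K = 1 := by
      have := congrArg Subtype.val (pow_card_eq_one' (x := (⟨a, h3⟩ : K)))
      exact this
    have h5 : a ^ 2 = 1 := by
      have := hAE.2 a ha
      rwa [pow_two]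
    have h6 : orderOf a ∣ 1 := by
      have h7 := Nat.dvd_gcd (orderOf_dvd_of_pow_eq_one h4) (orderOf_dvd_of_pow_eq_one h5)
      have : Nat.gcd (Nat.card K) 2 = 1 := hKcop
      rwa [this] at h7
    exact ha1 (orderOf_eq_one_iff.mp (Nat.dvd_one.mp h6))
  let XX : Set X := {x | x ∈ K ∧ (orderOf x).Prime ∧ orderOf x ≠ 2 ∧
    (∃ a ∈ A, a * x * a⁻¹ = x⁻¹) ∧ ∀ b ∈ A, b * x * b⁻¹ = x ∨ b * x * b⁻¹ = x⁻¹}
  have hXX : ∀ x ∈ XX, (orderOf x).Prime ∧ 5 ≤ orderOf x ∧ x ∈ normalizer (V : Set X) ∧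
      x ∉ centralizer (V : Set X) ∧ ∀ b ∈ A, b * x * b⁻¹ = x ∨ b * x * b⁻¹ = x⁻¹ := by
    rintro x ⟨hxK, hp, h2, ⟨a, ha, hax⟩, hb⟩
    have hxM := hKM hxK
    have hx1 : x ≠ 1 := by
      intro h
      rw [h, orderOf_one] at hp
      exact Nat.not_prime_one hp
    refine ⟨hp, ?_, hMV hxM, ?_, hb⟩
    · have h3 : orderOf x ≠ 3 := by
        intro h3
        apply hnot
        have ha1 : a ≠ 1 := by
          intro h
          rw [h] at hax
          simp only [one_mul, inv_one, mul_one] at hax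
          have h4 : x * x = 1 := by
            have h5 : x * x⁻¹ = 1 := mul_inv_cancel x
            rwa [← hax] at h5
          have h6 : orderOf x ∣ 2 := orderOf_dvd_of_pow_eq_one (by rw [pow_two, h4])
          rw [h3] at h6
          omega
        refine involves_S3 (a := (⟨a, hAM ha⟩ : M)) (x := (⟨x, hxM⟩ : M)) ?_ ?_ ?_ ?_ ?_
        · apply Subtype.ext
          exact hAE.2 a ha
        · intro h
          exact ha1 (congrArg Subtype.val h)
        · apply Subtype.ext
          show x ^ 3 = 1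
          rw [← h3]
          exact pow_orderOf_eq_one x
        · intro h
          exact hx1 (congrArg Subtype.val h)
        · apply Subtype.ext
          exact hax
      have h4 := hp.two_le
      by_contra h5
      push Not at h5
      have h6 : orderOf x ≠ 4 := by
        intro h7
        rw [h7] at hp
        exact absurd hp (by norm_num)
      omega
    · intro hc
      have h3 : x ∈ M ⊓ centralizer (V : Set X) := Subgroup.mem_inf.mpr ⟨hxM, hc⟩
      rw [hfaith] at h3
      exact hx1 ((Subgroup.mem_bot).mp h3)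
  have hsep : ∀ a ∈ A, a ≠ 1 → ∃ x ∈ XX, a * x * a⁻¹ ≠ x := by
    intro a ha ha1
    obtain ⟨x, hxK, hp, h2, hax, hb⟩ := exists_eigen hAE hKodd hAK ha (hsep0 a ha ha1)
    refine ⟨x, ⟨hxK, hp, h2, ⟨a, ha, hax⟩, hb⟩, ?_⟩
    intro h
    rw [hax] at h
    have h4 : x * x = 1 := by
      have h5 : x * x⁻¹ = 1 := mul_inv_cancel x
      rwa [h] at h5
    have h6 : orderOf x ∣ 2 := orderOf_dvd_of_pow_eq_one (by rw [pow_two, h4])
    have h7 := (Nat.prime_dvd_prime_iff_eq hp Nat.prime_two).mp h6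
    exact h2 h7
  have := card_sq_le hAE hVE (hAM.trans hMV) XX hXX hsep
  omega


end Cfsg.Agent.Lib.PGroup.S3Free
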