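import Mathlib
import Cfsg.Agent.Lib.Transfer.Tate
import Cfsg.Agent.Lib.Transfer.Comp
import Cfsg.Agent.Lib.Core.Basic
import Cfsg.Agent.Lib.Core.Frattini
import Cfsg.Agent.Lib.PGroup.Basic

/-!
# Normalizers of subgroups between `P'` and `Φ(P)`
-/

set_option autoImplicit false

namespace Cfsg.Agent.Lib.PGroup.TateNorm

open Cfsg Subgroup
open Cfsg.Agent.Lib.Core Cfsg.Agent.Lib.Transfer
open scoped commutatorElement

universe u

variable {H : Type u} [Group H] [Finite H] {p : ℕ} [hp : Fact p.Prime]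

/-- The core statement. -/
theorem core (P : Sylow p H) (Q : Subgroup H) [hQn : Q.Normal] (hQP : Q ≤ P)
    (hcomm : ∀ x ∈ (P : Subgroup H), ∀ y ∈ (P : Subgroup H), ⁅x, y⁆ ∈ Q)
    (hΦ : Q ≤ (frattini (P : Subgroup H)).map (P : Subgroup H).subtype)
    (hloc : ∀ x ∈ normalizer ((P : Subgroup H) : Set H), ∃ y ∈ (P : Subgroup H), ∃ k : H,
      (∀ t ∈ (P : Subgroup H), k * t = t * k) ∧ x = y * k) :
    HasNormalPComplement p H := by
  classical
  let π : H →* H ⧸ Q := QuotientGroup.mk' Q
  have hπ : Function.Surjective π := QuotientGroup.mk'_surjective Q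
  have hker : π.ker = Q := QuotientGroup.ker_mk' Q
  let Pb : Sylow p (H ⧸ Q) := P.mapSurjective hπ
  have hPb : (Pb : Subgroup (H ⧸ Q)) = (P : Subgroup H).map π := Sylow.coe_mapSurjective hπ P
  have hmem : ∀ h : H, π h ∈ (Pb : Subgroup (H ⧸ Q)) ↔ h ∈ (P : Subgroup H) := by
    intro h
    rw [hPb]
    constructor
    · rintro ⟨t, ht, hth⟩
      have h1 : t⁻¹ * h ∈ Q := by
        rw [← hker, MonoidHom.mem_ker, map_mul, map_inv, ← hth, inv_mul_cancel]
      have h2 : h = t * (t⁻¹ * h) := by group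
      rw [h2]
      exact mul_mem ht (hQP h1)
    · intro hh
      exact ⟨h, hh, rfl⟩
  have hnormal : normalizer ((Pb : Subgroup (H ⧸ Q)) : Set (H ⧸ Q)) ≤
      centralizer ((Pb : Subgroup (H ⧸ Q)) : Set (H ⧸ Q)) := by
    intro xb hxb
    obtain ⟨x, rfl⟩ := hπ xb
    have hxN : x ∈ normalizer ((P : Subgroup H) : Set H) := by
      rw [mem_normalizer_iff]
      intro h
      rw [← hmem h, ← hmem (x * h * x⁻¹), map_mul, map_mul, map_inv]
      exact mem_normalizer_iff.mp hxb (π h)
    obtain ⟨y, hy, k, hk, rfl⟩ := hloc x hxN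
    rw [mem_centralizer_iff]
    intro tb htb
    obtain ⟨t, rfl⟩ := hπ tb
    have ht : t ∈ (P : Subgroup H) := (hmem t).mp htb
    have h1 : ⁅t, y⁆ ∈ Q := hcomm t ht y hy
    have h3 : π ⁅t, y⁆ = 1 := by
      rw [← MonoidHom.mem_ker, hker]
      exact h1
    rw [commutatorElement_def, map_mul, map_mul, map_mul, map_inv, map_inv] at h3
    have h4 : π t * π y = π y * π t := by
      have h5 : π t * π y * (π t)⁻¹ * (π y)⁻¹ * (π y * π t) = π t * π y := by group
      rw [h3, one_mul] at h5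
      exact h5.symm
    have h6 : π k * π t = π t * π k := by
      rw [← map_mul, ← map_mul, hk t ht]
    rw [map_mul]
    calc π t * (π y * π k) = (π t * π y) * π k := by group
      _ = π y * π t * π k := by rw [h4]
      _ = π y * (π t * π k) := by group
      _ = π y * (π k * π t) := by rw [h6]
      _ = π y * π k * π t := by group
  have hcompl := MonoidHom.ker_transferSylow_isComplement' Pb hnormal
  set Lb : Subgroup (H ⧸ Q) := (MonoidHom.transferSylow Pb hnormal).ker with hLb
  let L : Subgroup H := Lb.comap π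
  haveI hLn : L.Normal := inferInstanceAs (Lb.comap π).Normal
  have hLP : L ⊓ (P : Subgroup H) ≤ Q := by
    intro x hx
    obtain ⟨h1, h2⟩ := Subgroup.mem_inf.mp hx
    have h3 : π x ∈ Lb ⊓ (Pb : Subgroup (H ⧸ Q)) := Subgroup.mem_inf.mpr ⟨h1, (hmem x).mpr h2⟩
    have h4 := hcompl.disjoint.le_bot h3
    rw [← hker, MonoidHom.mem_ker]
    exact h4
  have hT : HasNormalPComplement p L := tate P L (hLP.trans hΦ)
  obtain ⟨S, C, hCn, hC⟩ := hT
  -- the characteristic `p'`-part of `L`
  let C₀ : Subgroup H := (pPrimeCore p L).map L.subtype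
  haveI hC₀n : C₀.Normal := Cfsg.Agent.Lib.PGroup.map_subtype_normal_of_characteristic L _
  have hC₀card : Nat.card C₀ = Nat.card (pPrimeCore p L) :=
    (Nat.card_congr ((pPrimeCore p L).equivMapOfInjective L.subtype L.subtype_injective).toEquiv).symm
  have hcop : (Nat.card C₀).Coprime p := by
    rw [hC₀card]
    exact pPrimeCore_coprime p L
  have hCle : C ≤ pPrimeCore p L := le_pPrimeCore hCn (complement_card_coprime hC)
  have hidx1 : ∃ a, (pPrimeCore p L).index = p ^ a := by
    obtain ⟨k, hk⟩ := IsPGroup.iff_card.mp S.isPGroup'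
    have h1 : (pPrimeCore p L).index ∣ C.index := Subgroup.index_dvd_of_le hCle
    rw [hC.symm.index_eq_card, hk] at h1
    obtain ⟨a, _, ha⟩ := (Nat.dvd_prime_pow hp.out).mp h1
    exact ⟨a, ha⟩
  have hidx2 : ∃ b, L.index = p ^ b := by
    obtain ⟨k, hk⟩ := IsPGroup.iff_card.mp Pb.isPGroup'
    refine ⟨k, ?_⟩
    rw [← hk, ← hcompl.symm.index_eq_card]
    exact Subgroup.index_comap_of_surjective Lb hπ
  have hidx : ∃ c, C₀.index = p ^ c := by
    obtain ⟨a, ha⟩ := hidx1
    obtain ⟨b, hb⟩ := hidx2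
    refine ⟨a + b, ?_⟩
    have hle : C₀ ≤ L := Subgroup.map_subtype_le _
    rw [← Subgroup.relIndex_mul_index hle, hb, pow_add, ← ha]
    congr 1
    show (C₀.subgroupOf L).index = _
    have : C₀.subgroupOf L = pPrimeCore p L :=
      Subgroup.comap_map_eq_self_of_injective L.subtype_injective _
    rw [this]
  obtain ⟨c, hc⟩ := hidx
  exact hasNormalPComplement_of_normal C₀ hcop (IsPGroup.iff_card.mpr ⟨c, hc⟩)

/-- The statement. -/
theorem main {G : Type u} [Group G] [Finite G] (P : Sylow p G)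
    (hN : HasNormalPComplement p ↥(normalizer ((P : Subgroup G) : Set G))) (Q : Subgroup G)
    (h1 : (commutator ↥(P : Subgroup G)).map (P : Subgroup G).subtype ≤ Q)
    (h2 : Q ≤ (frattini ↥(P : Subgroup G)).map (P : Subgroup G).subtype) :
    HasNormalPComplement p ↥(normalizer (Q : Set G)) := by
  classical
  have hQP : Q ≤ P := h2.trans (Subgroup.map_subtype_le _)
  have hcomm : ∀ x ∈ (P : Subgroup G), ∀ y ∈ (P : Subgroup G), ⁅x, y⁆ ∈ Q := by
    intro x hx y hy
    apply h1
    refine ⟨⁅(⟨x, hx⟩ : (P : Subgroup G)), (⟨y, hy⟩ : (P : Subgroup G))⁆,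
      Subgroup.commutator_mem_commutator trivial trivial, rfl⟩
  have hPH : (P : Subgroup G) ≤ normalizer (Q : Set G) := by
    intro x hx
    rw [mem_normalizer_iff]
    intro t
    constructor
    · intro ht
      have e : x * t * x⁻¹ = ⁅x, t⁆ * t := by
        rw [commutatorElement_def]
        group
      rw [e]
      exact mul_mem (hcomm x hx t (hQP ht)) ht
    · intro ht
      have e : t = ⁅x⁻¹, x * t * x⁻¹⁆ * (x * t * x⁻¹) := by
        rw [commutatorElement_def]
        group
      rw [e]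
      exact mul_mem (hcomm _ (inv_mem hx) _ (hQP ht)) ht
  set H := normalizer (Q : Set G) with hH
  let PH : Sylow p H := P.subtype hPH
  have hPHc : (PH : Subgroup H) = (P : Subgroup G).subgroupOf H := rfl
  let QH : Subgroup H := Q.subgroupOf H
  haveI hQHn : QH.Normal := Subgroup.normal_in_normalizer
  refine core PH QH (fun x hx => hQP hx) ?_ ?_ ?_
  · intro x hx y hy
    exact hcomm x hx y hy
  · intro t ht
    obtain ⟨f, hf, hft⟩ := h2 ht
    let e : (P : Subgroup G) →* (PH : Subgroup H) :=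
      (Subgroup.subgroupOfEquivOfLe hPH).symm.toMonoidHom
    have he : Function.Surjective e := (Subgroup.subgroupOfEquivOfLe hPH).symm.surjective
    have h3 : e f ∈ frattini (PH : Subgroup H) :=
      Cfsg.Agent.Lib.Core.map_frattini_le_of_surjective e he ⟨f, hf, rfl⟩
    refine ⟨e f, h3, ?_⟩
    apply Subtype.ext
    exact hft
  · intro x hx
    -- `x` normalizes `P`
    have hxN : (x : G) ∈ normalizer ((P : Subgroup G) : Set G) := by
      rw [mem_normalizer_iff]
      intro t
      constructor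
      · intro ht
        have h3 := (mem_normalizer_iff.mp hx ⟨t, hPH ht⟩).mp ht
        exact h3
      · intro ht
        have hx' : x⁻¹ ∈ normalizer ((PH : Subgroup H) : Set H) := inv_mem hx
        have h3 := (mem_normalizer_iff.mp hx' ⟨_, hPH ht⟩).mp ht
        have e : (x : G)⁻¹ * ((x : G) * t * (x : G)⁻¹) * (x : G)⁻¹⁻¹ = t := by group
        have h4 : (x : G)⁻¹ * ((x : G) * t * (x : G)⁻¹) * (x : G)⁻¹⁻¹ ∈ (P : Subgroup G) := h3
        rwa [e] at h4
    let N₀ := normalizer ((P : Subgroup G) : Set G)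
    let P₀ : Sylow p N₀ := P.subtype Subgroup.le_normalizer
    obtain ⟨K, hKn, hKc⟩ := complement_exists_for hN P₀
    haveI hP₀n : (P₀ : Subgroup N₀).Normal := Subgroup.normal_in_normalizer
    obtain ⟨⟨k, y⟩, hky⟩ := hKc.2 (⟨x, hxN⟩ : N₀)
    have hky' : (k : N₀) * (y : N₀) = ⟨x, hxN⟩ := hky
    have hy₀ : ((y : N₀) : G) ∈ (P : Subgroup G) := y.2
    refine ⟨⟨((y : N₀) : G), hPH hy₀⟩, hy₀, (⟨((y : N₀) : G), hPH hy₀⟩ : H)⁻¹ * x, ?_, ?_⟩
    · intro t ht
      have ht' : ((t : H) : G) ∈ (P : Subgroup G) := ht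
      let k' : N₀ := (y : N₀)⁻¹ * (k : N₀) * (y : N₀)
      have hk' : k' ∈ K := by
        have := hKn.conj_mem _ k.2 (y : N₀)⁻¹
        simpa [k'] using this
      have hcm := Subgroup.commute_of_normal_of_disjoint K (P₀ : Subgroup N₀) hKn hP₀n hKc.disjoint
        k' ⟨t, Subgroup.le_normalizer ht'⟩ hk' ht'
      have h5 : (k' : G) = ((y : N₀) : G)⁻¹ * x := by
        have h6 := congrArg Subtype.val hky'
        have h7 : ((k : N₀) : G) * ((y : N₀) : G) = x := h6
        show ((y : N₀) : G)⁻¹ * ((k : N₀) : G) * ((y : N₀) : G) = _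
        rw [mul_assoc, h7]
      apply Subtype.ext
      have h8 := congrArg Subtype.val hcm.eq
      have h9 : (k' : G) * t = t * (k' : G) := h8
      rw [h5] at h9
      exact h9
    · group

end Cfsg.Agent.Lib.PGroup.TateNorm
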