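import Mathlib
import Cfsg.Agent.Lib.PGroup.ThreeInvQ
import Cfsg.Agent.Lib.Transfer.Critical2

/-!
# The automorphism group of a `2`-group with exactly three involutions is solvable
-/

set_option autoImplicit false

namespace Cfsg.Agent.Lib.PGroup.ThreeInv

open Subgroup
open scoped commutatorElement

section Tools

variable {G : Type*} [Group G]

/-- Restriction to a characteristic subgroup. -/
def resAut (K : Subgroup G) [hK : K.Characteristic] : MulAut G →* MulAut K where
  toFun σ :=
    { toFun := fun x => ⟨σ x, characteristic_iff_le_comap.1 hK σ x.2⟩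
      invFun := fun x => ⟨σ⁻¹ x, characteristic_iff_le_comap.1 hK σ⁻¹ x.2⟩
      left_inv := fun x => Subtype.ext (MulAut.inv_apply_self G σ x.1)
      right_inv := fun x => Subtype.ext (MulAut.apply_inv_self G σ x.1)
      map_mul' := fun x y => Subtype.ext (map_mul σ x.1 y.1) }
  map_one' := by ext x; rfl
  map_mul' := by intro a c; ext x; rfl

theorem resAut_coe (K : Subgroup G) [K.Characteristic] (σ : MulAut G) (x : K) :
    ((resAut K σ x : K) : G) = σ x := rfl

/-- The action on the quotient by a characteristic subgroup. -/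
def quotAut (N : Subgroup G) [hN : N.Characteristic] : MulAut G →* MulAut (G ⧸ N) where
  toFun σ := QuotientGroup.congr N N σ (characteristic_iff_map_eq.1 hN σ)
  map_one' := by
    ext x
    induction x using QuotientGroup.induction_on with
    | H s => rfl
  map_mul' a c := by
    ext x
    induction x using QuotientGroup.induction_on with
    | H s => rfl

theorem quotAut_mk (N : Subgroup G) [N.Characteristic] (σ : MulAut G) (x : G) :
    quotAut N σ (x : G ⧸ N) = ((σ x : G) : G ⧸ N) := rfl

/-- A finite group all of whose elements of odd order are trivial is a `2`-group. -/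
theorem isPGroup_two_of_odd {E : Type*} [Group E] [Finite E]
    (h : ∀ g : E, Nat.Coprime (orderOf g) 2 → g = 1) : IsPGroup 2 E := by
  intro g
  have h0 : orderOf g ≠ 0 := (orderOf_pos g).ne'
  obtain ⟨a, m, hm, hg⟩ := Nat.exists_eq_two_pow_mul_odd h0
  refine ⟨a, h _ ?_⟩
  have : orderOf (g ^ 2 ^ a) = m := by
    rw [orderOf_pow' g (by positivity), hg, Nat.gcd_eq_right (Dvd.intro _ rfl)]
    exact Nat.mul_div_cancel_left _ (by positivity)
  rw [this]
  exact (Nat.coprime_two_left.2 hm).symm

theorem isSolvable_of_isPGroup_two {E : Type*} [Group E] [Finite E] (h : IsPGroup 2 E) :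
    Group.IsSolvable E := by
  haveI := h.isNilpotent
  infer_instance

/-- Passing to a characteristic subgroup on which the odd automorphisms act faithfully. -/
theorem solvable_of_res [Finite G] (K : Subgroup G) [K.Characteristic]
    (hK : ∀ a : MulAut G, Nat.Coprime (orderOf a) 2 → (∀ x ∈ K, a x = x) → a = 1)
    (hS : Group.IsSolvable (MulAut K)) : Group.IsSolvable (MulAut G) := by
  have hker : IsPGroup 2 (resAut K).ker := by
    apply isPGroup_two_of_odd
    intro g hg
    apply Subtype.ext
    apply hK g.1 (by rwa [Subgroup.orderOf_coe])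
    intro x hx
    have h1 : resAut K g.1 = 1 := g.2
    have h2 := congrArg (fun σ : MulAut K => ((σ ⟨x, hx⟩ : K) : G)) h1
    exact h2
  haveI := isSolvable_of_isPGroup_two hker
  exact Group.isSolvable_of_ker_le_range ((resAut K).ker.subtype) (resAut K)
    (fun x hx => ⟨⟨x, hx⟩, rfl⟩)

end Tools

section ExpTwo

theorem comm_of_exp_two {V : Type*} [Group V] (hV : ∀ v : V, v ^ 2 = 1) (a c : V) : a * c = c * a := by
  have h1 : ∀ x : V, x * x = 1 := fun x => by rw [← pow_two]; exact hV x
  calc a * c = (a * c) * ((c * a) * (c * a)) := by rw [h1, mul_one]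
    _ = a * (c * c) * a * (c * a) := by simp only [mul_assoc]
    _ = c * a := by rw [h1 c, mul_one, h1 a, one_mul]

/-- `QData.solvable` for groups of exponent two given only as groups. -/
theorem solvable_of_groups {V W : Type*} [gV : Group V] [gW : Group W] [Finite V] [Finite W]
    (q : V → W) (b : V → V → W) (hV : ∀ v : V, v ^ 2 = 1) (hW : ∀ w : W, w ^ 2 = 1)
    (hb1 : ∀ u v w, b (u * v) w = b u w * b v w) (hb2 : ∀ u v w, b u (v * w) = b u v * b u w)
    (hq : ∀ u v, q (u * v) = q u * q v * b u v) (hZ : ∀ v, q v = 1 → v = 1)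
    (hcard : Nat.card W = 4) : Group.IsSolvable (isomGroup q) := by
  letI cV : CommGroup V := { gV with mul_comm := comm_of_exp_two hV }
  letI cW : CommGroup W := { gW with mul_comm := comm_of_exp_two hW }
  have hd : QData q b := ⟨hV, hW, hb1, hb2, hq, hZ, hcard⟩
  exact hd.solvable

end ExpTwo

section Main

variable (C : Type*) [Group C]

/-- The squares of the center. -/
def sqZ : Subgroup (center C) where
  carrier := {z | ∃ y : center C, y ^ 2 = z}
  one_mem' := ⟨1, one_pow 2⟩
  mul_mem' := by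
    rintro _ _ ⟨a, rfl⟩ ⟨c, rfl⟩
    refine ⟨a * c, ?_⟩
    have hc : Commute a c := Subtype.ext (mem_center_iff.1 c.2 a.1)
    exact hc.mul_pow 2
  inv_mem' := by
    rintro _ ⟨a, rfl⟩
    exact ⟨a⁻¹, inv_pow a 2⟩

instance sqZ_char : (sqZ C).Characteristic :=
  characteristic_iff_le_comap.2 (fun σ _ ⟨y, hy⟩ => ⟨σ y, by rw [← map_pow, hy]; rfl⟩)

/-- The hypotheses on a critical subgroup. -/
structure CData : Prop where
  hcl : ∀ x y : C, ⁅x, y⁆ ∈ center C
  hsq : ∀ x : C, x ^ 2 ∈ center C
  hinv : ∀ x : C, x ^ 2 = 1 → x ∈ center C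
  h4 : Nat.card {x : C // x ^ 2 = 1} = 4

variable {C}

/-- The square, mod the squares of the center. -/
noncomputable def qQ (h : CData C) (v : C ⧸ center C) : center C ⧸ sqZ C :=
  ((⟨(Quotient.out v) ^ 2, h.hsq _⟩ : center C) : center C ⧸ sqZ C)

/-- The commutator, mod the squares of the center. -/
noncomputable def bQ (h : CData C) (u v : C ⧸ center C) : center C ⧸ sqZ C :=
  ((⟨⁅Quotient.out v, Quotient.out u⁆, h.hcl _ _⟩ : center C) : center C ⧸ sqZ C)

theorem out_eq_mul (x : C) : ∃ c ∈ center C, Quotient.out (x : C ⧸ center C) = x * c := by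
  have := QuotientGroup.out_eq' (x : C ⧸ center C)
  have h2 := QuotientGroup.eq.mp this.symm
  exact ⟨_, h2, by group⟩

theorem CData.sq_mul_central {c : C} (hc : c ∈ center C) (x : C) : (x * c) ^ 2 = x ^ 2 * c ^ 2 := by
  have : Commute x c := (mem_center_iff.1 hc x)
  exact this.mul_pow 2

theorem qQ_mk (h : CData C) (x : C) :
    qQ h (x : C ⧸ center C) = ((⟨x ^ 2, h.hsq x⟩ : center C) : center C ⧸ sqZ C) := by
  obtain ⟨c, hc, he⟩ := out_eq_mul x
  unfold qQ
  apply QuotientGroup.eq.mpr
  refine ⟨(⟨c, hc⟩ : center C)⁻¹, ?_⟩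
  apply Subtype.ext
  show (c⁻¹) ^ 2 = ((Quotient.out (x : C ⧸ center C)) ^ 2)⁻¹ * x ^ 2
  rw [he, CData.sq_mul_central hc, mul_inv_rev, inv_pow]
  have hc2 : (c ^ 2)⁻¹ ∈ center C := (center C).inv_mem ((center C).pow_mem hc 2)
  rw [mul_assoc]
  simp

theorem comm_mul_central_left {c : C} (hc : c ∈ center C) (x y : C) : ⁅x * c, y⁆ = ⁅x, y⁆ := by
  rw [commutatorElement_def, commutatorElement_def]
  have h1 : ∀ g : C, c * g = g * c := fun g => (mem_center_iff.1 hc g).symm
  calc x * c * y * (x * c)⁻¹ * y⁻¹ = x * (c * y) * (c⁻¹ * x⁻¹) * y⁻¹ := by group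
    _ = x * y * (c * c⁻¹) * x⁻¹ * y⁻¹ := by rw [h1 y]; group
    _ = _ := by group

theorem comm_mul_central_right {c : C} (hc : c ∈ center C) (x y : C) : ⁅x, y * c⁆ = ⁅x, y⁆ := by
  rw [← commutatorElement_inv, comm_mul_central_left hc, commutatorElement_inv]

theorem bQ_mk (h : CData C) (x y : C) :
    bQ h (x : C ⧸ center C) (y : C ⧸ center C) =
      ((⟨⁅y, x⁆, h.hcl y x⟩ : center C) : center C ⧸ sqZ C) := by
  obtain ⟨c, hc, he⟩ := out_eq_mul x
  obtain ⟨d, hd, he'⟩ := out_eq_mul y
  unfold bQ
  congr 1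
  apply Subtype.ext
  show ⁅Quotient.out (y : C ⧸ center C), Quotient.out (x : C ⧸ center C)⁆ = ⁅y, x⁆
  rw [he, he', comm_mul_central_left hd, comm_mul_central_right hc]

theorem CData.comm_mul_left (h : CData C) (x y z : C) : ⁅x * y, z⁆ = ⁅x, z⁆ * ⁅y, z⁆ := by
  have hc : ∀ g, ⁅y, z⁆ * g = g * ⁅y, z⁆ := fun g => (mem_center_iff.1 (h.hcl y z) g).symm
  have hc2 : ∀ g, ⁅x, z⁆ * g = g * ⁅x, z⁆ := fun g => (mem_center_iff.1 (h.hcl x z) g).symm
  rw [commutatorElement_def, commutatorElement_def, commutatorElement_def] at *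
  calc x * y * z * (x * y)⁻¹ * z⁻¹ = x * (y * z * y⁻¹ * z⁻¹) * (z * x⁻¹ * z⁻¹) := by group
    _ = (y * z * y⁻¹ * z⁻¹) * x * (z * x⁻¹ * z⁻¹) := by rw [← hc x]
    _ = (y * z * y⁻¹ * z⁻¹) * (x * z * x⁻¹ * z⁻¹) := by group
    _ = _ := by rw [hc]

theorem CData.comm_mul_right (h : CData C) (x y z : C) : ⁅x, y * z⁆ = ⁅x, y⁆ * ⁅x, z⁆ := by
  have hc : ∀ g, ⁅x, z⁆ * g = g * ⁅x, z⁆ := fun g => (mem_center_iff.1 (h.hcl x z) g).symm
  rw [commutatorElement_def, commutatorElement_def, commutatorElement_def] at *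
  calc x * (y * z) * x⁻¹ * (y * z)⁻¹ = (x * y * x⁻¹ * y⁻¹) * (y * (x * z * x⁻¹ * z⁻¹)) * y⁻¹ := by group
    _ = (x * y * x⁻¹ * y⁻¹) * ((x * z * x⁻¹ * z⁻¹) * y) * y⁻¹ := by rw [hc y]
    _ = _ := by group

theorem CData.sq_mul (h : CData C) (x y : C) : (x * y) ^ 2 = x ^ 2 * y ^ 2 * ⁅y, x⁆ := by
  have hc : ∀ g, ⁅y, x⁆ * g = g * ⁅y, x⁆ := fun g => (mem_center_iff.1 (h.hcl y x) g).symm
  have hyx : y * x = ⁅y, x⁆ * x * y := by
    rw [commutatorElement_def]; group
  generalize ⁅y, x⁆ = c at *
  calc (x * y) ^ 2 = x * (y * x) * y := by rw [pow_two]; group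
    _ = (x * c) * x * y * y := by rw [hyx]; group
    _ = c * x * x * y * y := by rw [hc x]
    _ = c * (x * x * y * y) := by group
    _ = (x * x * y * y) * c := by rw [hc]
    _ = _ := by rw [pow_two, pow_two]; group

/-- `|Z / Z²| = 4`. -/
theorem CData.card_W [Finite C] (h : CData C) : Nat.card (center C ⧸ sqZ C) = 4 := by
  classical
  let f : center C →* center C :=
    { toFun := fun z => z ^ 2
      map_one' := one_pow 2
      map_mul' := fun a c => by
        have hc : Commute a c := Subtype.ext (mem_center_iff.1 c.2 a.1)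
        exact hc.mul_pow 2 }
  have hrange : f.range = sqZ C := by
    ext z
    exact Iff.rfl
  have h1 : (sqZ C).index = Nat.card f.ker := by
    have h2 := Subgroup.card_mul_index f.ker
    have h3 := Subgroup.card_mul_index f.range
    rw [Subgroup.index_ker] at h2
    rw [hrange] at h3
    have h4 : Nat.card f.range = Nat.card (sqZ C) := by rw [hrange]
    rw [h4] at h2
    have hpos : 0 < Nat.card (sqZ C) := Nat.card_pos
    rw [← h2] at h3
    have := Nat.eq_of_mul_eq_mul_left hpos (h3.trans (mul_comm _ _))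
    exact this
  have h5 : Nat.card f.ker = Nat.card {x : C // x ^ 2 = 1} := by
    refine Nat.card_congr
      { toFun := fun z => ⟨z.1.1, congrArg Subtype.val z.2⟩
        invFun := fun x => ⟨⟨x.1, h.hinv x.1 x.2⟩, Subtype.ext x.2⟩
        left_inv := fun z => rfl
        right_inv := fun x => rfl }
  rw [Subgroup.index] at h1
  rw [h1, h5, h.h4]

theorem CData.qdata_solvable [Finite C] (h : CData C) : Group.IsSolvable (isomGroup (qQ h)) := by
  apply solvable_of_groups (qQ h) (bQ h)
  · intro v
    obtain ⟨x, rfl⟩ := QuotientGroup.mk_surjective v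
    exact (QuotientGroup.eq_one_iff (x ^ 2)).mpr (h.hsq x)
  · intro w
    obtain ⟨z, rfl⟩ := QuotientGroup.mk_surjective w
    exact (QuotientGroup.eq_one_iff (z ^ 2)).mpr ⟨z, rfl⟩
  · intro u v w
    obtain ⟨x, rfl⟩ := QuotientGroup.mk_surjective u
    obtain ⟨y, rfl⟩ := QuotientGroup.mk_surjective v
    obtain ⟨z, rfl⟩ := QuotientGroup.mk_surjective w
    rw [← QuotientGroup.mk_mul, bQ_mk, bQ_mk, bQ_mk, ← QuotientGroup.mk_mul]
    congr 1
    exact Subtype.ext (h.comm_mul_right z x y)
  · intro u v w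
    obtain ⟨x, rfl⟩ := QuotientGroup.mk_surjective u
    obtain ⟨y, rfl⟩ := QuotientGroup.mk_surjective v
    obtain ⟨z, rfl⟩ := QuotientGroup.mk_surjective w
    rw [← QuotientGroup.mk_mul, bQ_mk, bQ_mk, bQ_mk, ← QuotientGroup.mk_mul]
    congr 1
    exact Subtype.ext (h.comm_mul_left y z x)
  · intro u v
    obtain ⟨x, rfl⟩ := QuotientGroup.mk_surjective u
    obtain ⟨y, rfl⟩ := QuotientGroup.mk_surjective v
    rw [← QuotientGroup.mk_mul, qQ_mk, qQ_mk, qQ_mk, bQ_mk, ← QuotientGroup.mk_mul,
      ← QuotientGroup.mk_mul]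
    congr 1
    exact Subtype.ext (h.sq_mul x y)
  · intro v hv
    obtain ⟨x, rfl⟩ := QuotientGroup.mk_surjective v
    rw [qQ_mk] at hv
    obtain ⟨y, hy⟩ := (QuotientGroup.eq_one_iff _).mp hv
    have hy' : y.1 ^ 2 = x ^ 2 := congrArg Subtype.val hy
    apply (QuotientGroup.eq_one_iff x).mpr
    have hcen : x * y.1⁻¹ ∈ center C := by
      apply h.hinv
      have hc : Commute x y.1⁻¹ := (mem_center_iff.1 ((center C).inv_mem y.2) x)
      rw [hc.mul_pow, inv_pow, hy', mul_inv_cancel]
    have := (center C).mul_mem hcen y.2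
    rwa [inv_mul_cancel_right] at this
  · exact h.card_W

/-- An odd automorphism trivial on `C / Z` and `Z / Z²` is trivial. -/
theorem eq_one_of_odd [Finite C] (hP : IsPGroup 2 C) (τ : MulAut C) (hτ : Nat.Coprime (orderOf τ) 2)
    (ha : ∀ x : C, x⁻¹ * τ x ∈ center C)
    (hb : ∀ z ∈ center C, ∃ y ∈ center C, τ z = z * y ^ 2) : τ = 1 := by
  obtain ⟨N, hN⟩ := IsPGroup.iff_card.1 hP
  have hexp : ∀ y : C, y ^ 2 ^ N = 1 := fun y => by rw [← hN]; exact pow_card_eq_one'
  have key : ∀ i k : ℕ, i + k = N → ∀ y ∈ center C, τ (y ^ 2 ^ k) = y ^ 2 ^ k := by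
    intro i
    induction i with
    | zero =>
      intro k hk y _
      have : k = N := by omega
      rw [this, hexp, map_one]
    | succ i ih =>
      intro k hk y hy
      have hy' : y ^ 2 ^ k ∈ center C := (center C).pow_mem hy _
      obtain ⟨w, hw, hwe⟩ := hb y hy
      apply Cfsg.Agent.Lib.Transfer.fix_of_step hP τ hτ
      have hcomm : Commute y (w ^ 2) := (mem_center_iff.1 ((center C).pow_mem hw 2) y)
      have e : (y ^ 2 ^ k)⁻¹ * τ (y ^ 2 ^ k) = w ^ 2 ^ (k + 1) := by
        rw [map_pow, hwe, hcomm.mul_pow, ← mul_assoc, inv_mul_cancel, one_mul, ← pow_mul,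
          pow_succ', mul_comm 2 (2 ^ k), ]
      rw [e]
      exact ih (k + 1) (by omega) w hw
  have hZ : ∀ y ∈ center C, τ y = y := by
    intro y hy
    have := key N 0 (by omega) y hy
    simpa using this
  ext x
  rw [MulAut.one_apply]
  exact Cfsg.Agent.Lib.Transfer.fix_of_step hP τ hτ x (hZ _ (ha x))

theorem isSolvable_mulAut_of_card_four {W : Type*} [Group W] [Finite W] (h : Nat.card W = 4) :
    Group.IsSolvable (MulAut W) := by
  have hinj : Function.Injective (MulAut.toPerm W) := by
    intro a c e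
    ext x
    exact congrArg (fun σ : Equiv.Perm W => σ x) e
  haveI : Group.IsSolvable (Equiv.Perm W) :=
    Cfsg.Agent.Lib.Char.isSolvable_of_card 2 3 3 1 Nat.prime_two (by norm_num) (by
      rw [Nat.card_perm, h]; rfl)
  exact Group.isSolvable_of_isSolvable_injective hinj

/-- The main theorem for critical groups. -/
theorem CData.solvable_aut [Finite C] (hP : IsPGroup 2 C) (h : CData C) :
    Group.IsSolvable (MulAut C) := by
  classical
  let f₁ : MulAut C →* MulAut (center C ⧸ sqZ C) := (quotAut (sqZ C)).comp (resAut (center C))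
  have hf₁ : ∀ (σ : MulAut C) (z : center C), f₁ σ (z : center C ⧸ sqZ C) =
      ((resAut (center C) σ z : center C) : center C ⧸ sqZ C) := fun _ _ => rfl
  let D := f₁.ker
  have hD : ∀ σ : D, ∀ v, qQ h ((quotAut (center C)).comp D.subtype σ v) = qQ h v := by
    intro σ v
    obtain ⟨x, rfl⟩ := QuotientGroup.mk_surjective v
    have e1 : (quotAut (center C)).comp D.subtype σ (x : C ⧸ center C) = ((σ.1 x : C) : C ⧸ center C) := rfl
    rw [e1, qQ_mk, qQ_mk]
    have h1 : f₁ σ.1 = 1 := σ.2
    have h2 := congrArg (fun τ : MulAut (center C ⧸ sqZ C) =>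
      τ ((⟨x ^ 2, h.hsq x⟩ : center C) : center C ⧸ sqZ C)) h1
    simp only [hf₁] at h2
    have h3 : resAut (center C) σ.1 ⟨x ^ 2, h.hsq x⟩ = ⟨σ.1 x ^ 2, h.hsq _⟩ :=
      Subtype.ext (map_pow σ.1 x 2)
    rw [h3] at h2
    exact h2
  let f₂ : D →* isomGroup (qQ h) :=
    MonoidHom.codRestrict ((quotAut (center C)).comp D.subtype) _ hD
  haveI : Group.IsSolvable (isomGroup (qQ h)) := h.qdata_solvable
  have hker : IsPGroup 2 f₂.ker := by
    apply isPGroup_two_of_odd
    intro g hg
    have hg1 : f₂ g.1 = 1 := g.2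
    have hg2 : quotAut (center C) g.1.1 = 1 := congrArg Subtype.val hg1
    have hg3 : f₁ g.1.1 = 1 := g.1.2
    apply Subtype.ext
    apply Subtype.ext
    apply eq_one_of_odd hP g.1.1
    · rwa [Subgroup.orderOf_coe, Subgroup.orderOf_coe]
    · intro x
      have := congrArg (fun τ : MulAut (C ⧸ center C) => τ (x : C ⧸ center C)) hg2
      have h2 : ((g.1.1 x : C) : C ⧸ center C) = (x : C ⧸ center C) := this
      exact QuotientGroup.eq.mp h2.symm
    · intro z hz
      have := congrArg (fun τ : MulAut (center C ⧸ sqZ C) =>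
        τ ((⟨z, hz⟩ : center C) : center C ⧸ sqZ C)) hg3
      simp only [hf₁] at this
      have h2 := QuotientGroup.eq.mp this.symm
      obtain ⟨y, hy⟩ := h2
      refine ⟨y.1, y.2, ?_⟩
      have h3 : y.1 ^ 2 = z⁻¹ * g.1.1 z := congrArg Subtype.val hy
      rw [h3]
      group
  haveI := isSolvable_of_isPGroup_two hker
  haveI hDS : Group.IsSolvable D := Group.isSolvable_of_ker_le_range (f₂.ker.subtype) f₂
    (fun x hx => ⟨⟨x, hx⟩, rfl⟩)
  haveI : Group.IsSolvable (MulAut (center C ⧸ sqZ C)) := isSolvable_mulAut_of_card_four h.card_W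
  exact Group.isSolvable_of_ker_le_range D.subtype f₁ (fun x hx => ⟨⟨x, hx⟩, rfl⟩)

/-- Groups with four solutions of `x² = 1`, all central. -/
theorem solvable_aut_of_central {P : Type*} [Group P] [Finite P] (hP : IsPGroup 2 P)
    (hinv : ∀ x : P, x ^ 2 = 1 → x ∈ center P) (h4 : Nat.card {x : P // x ^ 2 = 1} = 4) :
    Group.IsSolvable (MulAut P) := by
  obtain ⟨K, hch, h1, h2, h3⟩ := Cfsg.Agent.Lib.Transfer.exists_critical hP
  haveI : K.Normal := inferInstance
  apply solvable_of_res K
  · intro a ha hfix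
    exact Cfsg.Agent.Lib.Transfer.eq_one_of_fix_normal hP a ha K h3 hfix
  · have hcen : ∀ x : P, x ^ 2 = 1 → x ∈ K := by
      intro x hx
      apply h3
      rw [Subgroup.mem_centralizer_iff]
      intro y _
      exact (mem_center_iff.1 (hinv x hx) y)
    have hKP : IsPGroup 2 K := hP.to_subgroup K
    apply CData.solvable_aut hKP
    refine ⟨?_, ?_, ?_, ?_⟩
    · intro x y
      rw [mem_center_iff]
      intro g
      apply Subtype.ext
      exact (Subgroup.mem_centralizer_iff.1 (h2 x.1 y.1 y.2).2 g.1 g.2)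
    · intro x
      rw [mem_center_iff]
      intro g
      apply Subtype.ext
      exact (Subgroup.mem_centralizer_iff.1 (h1 x.1 x.2).2 g.1 g.2)
    · intro x hx
      rw [mem_center_iff]
      intro g
      apply Subtype.ext
      exact mem_center_iff.1 (hinv x.1 (congrArg Subtype.val hx)) g.1
    · rw [← h4]
      refine Nat.card_congr
        { toFun := fun x => ⟨x.1.1, congrArg Subtype.val x.2⟩
          invFun := fun x => ⟨⟨x.1, hcen x.1 x.2⟩, Subtype.ext x.2⟩
          left_inv := fun x => rfl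
          right_inv := fun x => rfl }

/-- Four solutions of `x² = 1` in a `2`-group commute. -/
theorem comm_of_four {X : Type*} [Group X] [Finite X] (h2 : IsPGroup 2 X)
    (h4 : Nat.card {x : X // x ^ 2 = 1} = 4) {u v : X} (hu : u ^ 2 = 1) (hv : v ^ 2 = 1) :
    u * v = v * u := by
  classical
  haveI := Fintype.ofFinite X
  let A : Finset X := Finset.univ.filter (fun x => x ^ 2 = 1)
  have hA : A.card = 4 := by
    rw [← h4, Nat.card_eq_fintype_card, Fintype.card_subtype]
  have hne : ∃ g : X, g ≠ 1 := by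
    by_contra hcon
    push Not at hcon
    have : A ⊆ {1} := fun g _ => by simp [hcon g]
    have := Finset.card_le_card this
    simp at this
    omega
  haveI : Nontrivial X := by
    obtain ⟨g, hg⟩ := hne
    exact ⟨⟨g, 1, hg⟩⟩
  haveI hnt := h2.center_nontrivial
  have hZ2 : IsPGroup 2 (center X) := h2.to_subgroup _
  have hdvd : 2 ∣ Nat.card (center X) := by
    obtain ⟨k, hk⟩ := IsPGroup.iff_card.1 hZ2
    have h1 : Nat.card (center X) ≠ 1 := Finite.one_lt_card.ne'
    rw [hk] at h1 ⊢
    have : k ≠ 0 := by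
      rintro rfl
      simp at h1
    exact dvd_pow_self 2 this
  obtain ⟨z₀, hz₀⟩ := exists_prime_orderOf_dvd_card' 2 hdvd
  set z : X := z₀.1 with hzdef
  have hzo : orderOf z = 2 := by rw [hzdef, Subgroup.orderOf_coe]; exact hz₀
  have hz2 : z ^ 2 = 1 := by rw [← hzo]; exact pow_orderOf_eq_one z
  have hz1 : z ≠ 1 := by
    intro e
    rw [e, orderOf_one] at hzo
    omega
  have hzc : ∀ g : X, Commute z g := fun g => (mem_center_iff.1 z₀.2 g).symm
  obtain ⟨a, haA, ha⟩ : ∃ a ∈ A, a ∉ ({1, z} : Finset X) := by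
    by_contra hcon
    push Not at hcon
    have h3 := Finset.card_le_card (show A ⊆ {1, z} from hcon)
    have h5 := Finset.card_le_two (a := (1 : X)) (b := z)
    omega
  simp only [Finset.mem_insert, Finset.mem_singleton, not_or] at ha
  have ha2 : a ^ 2 = 1 := (Finset.mem_filter.1 haA).2
  have haz2 : (a * z) ^ 2 = 1 := by
    rw [(hzc a).symm.mul_pow, ha2, hz2, one_mul]
  have hac : ({1, z, a, a * z} : Finset X).card = 4 := by
    rw [Finset.card_insert_of_notMem, Finset.card_insert_of_notMem, Finset.card_insert_of_notMem,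
      Finset.card_singleton]
    · simp only [Finset.mem_singleton]
      intro e
      exact hz1 (by simpa using e.symm)
    · simp only [Finset.mem_insert, Finset.mem_singleton, not_or]
      refine ⟨Ne.symm ha.2, ?_⟩
      intro e
      exact ha.1 (by simpa using e.symm)
    · simp only [Finset.mem_insert, Finset.mem_singleton, not_or]
      refine ⟨Ne.symm hz1, Ne.symm ha.1, ?_⟩
      intro e
      apply ha.2
      have h5 : z * z = 1 := by rw [← pow_two]; exact hz2
      have h6 : a = z⁻¹ := eq_inv_of_mul_eq_one_left e.symm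
      rw [h6]
      exact inv_eq_of_mul_eq_one_left h5
  have hsub : ({1, z, a, a * z} : Finset X) ⊆ A := by
    intro g hg
    simp only [Finset.mem_insert, Finset.mem_singleton] at hg
    simp only [A, Finset.mem_filter, Finset.mem_univ, true_and]
    rcases hg with rfl | rfl | rfl | rfl
    · exact one_pow 2
    · exact hz2
    · exact ha2
    · exact haz2
  have heq : ({1, z, a, a * z} : Finset X) = A := Finset.eq_of_subset_of_card_le hsub (by omega)
  have hmem : ∀ g : X, g ^ 2 = 1 → g = 1 ∨ g = z ∨ g = a ∨ g = a * z := by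
    intro g hg
    have : g ∈ A := by simp only [A, Finset.mem_filter, Finset.mem_univ, true_and]; exact hg
    rw [← heq] at this
    simpa only [Finset.mem_insert, Finset.mem_singleton] using this
  have key : ∀ g : X, g ^ 2 = 1 → Commute g a := by
    intro g hg
    rcases hmem g hg with rfl | rfl | rfl | rfl
    · exact Commute.one_left a
    · exact hzc a
    · exact Commute.refl _
    · exact (Commute.refl a).mul_left (hzc a)
  have : Commute u v := by
    rcases hmem v hv with rfl | rfl | rfl | rfl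
    · exact Commute.one_right u
    · exact (hzc u).symm
    · exact key u hu
    · exact (key u hu).mul_right (hzc u).symm
  exact this

/-- The centralizer of the involutions. -/
def cenInv (X : Type*) [Group X] : Subgroup X := centralizer {x : X | x ^ 2 = 1}

instance cenInv_char (X : Type*) [Group X] : (cenInv X).Characteristic := by
  apply characteristic_iff_le_comap.2
  intro σ x hx
  show σ x ∈ centralizer _
  have hx' := Subgroup.mem_centralizer_iff.1 (show x ∈ centralizer {x : X | x ^ 2 = 1} from hx)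
  rw [Subgroup.mem_centralizer_iff]
  intro s hs
  have h1 : (σ⁻¹ s) ^ 2 = 1 := by
    rw [← map_pow]
    have : s ^ 2 = 1 := hs
    rw [this, map_one]
  have h2 := hx' _ h1
  have h3 := congrArg σ h2
  rw [map_mul, map_mul, MulAut.apply_inv_self] at h3
  exact h3

/-- The main theorem, in terms of `x² = 1`. -/
theorem solvable_aut_of_four {X : Type*} [Group X] [Finite X] (h2 : IsPGroup 2 X)
    (h4 : Nat.card {x : X // x ^ 2 = 1} = 4) : Group.IsSolvable (MulAut X) := by
  have hS : ∀ s : X, s ^ 2 = 1 → s ∈ cenInv X := by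
    intro s hs
    show s ∈ centralizer _
    rw [Subgroup.mem_centralizer_iff]
    intro t ht
    exact comm_of_four h2 h4 ht hs
  apply solvable_of_res (cenInv X)
  · intro a ha hfix
    ext x
    rw [MulAut.one_apply]
    apply Cfsg.Agent.Lib.Transfer.fix_of_step h2 a ha
    apply hfix
    show _ ∈ centralizer _
    rw [Subgroup.mem_centralizer_iff]
    intro s hs
    have hs' : s ^ 2 = 1 := hs
    have h5 : (x * s * x⁻¹) ^ 2 = 1 := by
      rw [conj_pow, hs', mul_one, mul_inv_cancel]
    have h6 : a (x * s * x⁻¹) = x * s * x⁻¹ := hfix _ (hS _ h5)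
    rw [map_mul, map_mul, map_inv, hfix s (hS s hs')] at h6
    calc s * (x⁻¹ * a x) = x⁻¹ * (x * s * x⁻¹) * a x := by group
      _ = x⁻¹ * (a x * s * (a x)⁻¹) * a x := by rw [h6]
      _ = x⁻¹ * a x * s := by group
  · apply solvable_aut_of_central (h2.to_subgroup _)
    · intro x hx
      rw [mem_center_iff]
      intro g
      apply Subtype.ext
      have hx' : x.1 ^ 2 = 1 := congrArg Subtype.val hx
      exact ((Subgroup.mem_centralizer_iff.1 g.2) x.1 hx').symm
    · rw [← h4]
      refine Nat.card_congr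
        { toFun := fun x => ⟨x.1.1, congrArg Subtype.val x.2⟩
          invFun := fun x => ⟨⟨x.1, hS x.1 x.2⟩, Subtype.ext x.2⟩
          left_inv := fun x => rfl
          right_inv := fun x => rfl }

/-- The main theorem. -/
theorem solvable_aut_of_three {X : Type*} [Group X] [Finite X] (h2 : IsPGroup 2 X)
    (h3 : Nat.card {x : X // orderOf x = 2} = 3) : Group.IsSolvable (MulAut X) := by
  classical
  haveI := Fintype.ofFinite X
  apply solvable_aut_of_four h2
  rw [Nat.card_eq_fintype_card, Fintype.card_subtype]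
  rw [Nat.card_eq_fintype_card, Fintype.card_subtype] at h3
  have e : Finset.univ.filter (fun x : X => x ^ 2 = 1)
      = insert 1 (Finset.univ.filter (fun x : X => orderOf x = 2)) := by
    ext x
    simp only [Finset.mem_filter, Finset.mem_univ, true_and, Finset.mem_insert]
    constructor
    · intro hx
      by_cases hx1 : x = 1
      · exact Or.inl hx1
      · exact Or.inr (orderOf_eq_prime hx hx1)
    · rintro (rfl | hx)
      · exact one_pow 2
      · rw [← hx]; exact pow_orderOf_eq_one x
  rw [e, Finset.card_insert_of_notMem (by simp), h3]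

end Main

end Cfsg.Agent.Lib.PGroup.ThreeInv
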