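import Mathlib
import Cfsg.Prelude.Def_Solvable
import Cfsg.Agent.Lib.Coprime.FrobCount
import Cfsg.Agent.Lib.Char.Burnside

/-!
# Odd-order groups with three same-order sizes: counting part
-/

set_option autoImplicit false

namespace Cfsg.Agent.Lib.PGroup.ThreeSizes

universe u

/-- Number of elements of order `m`. -/
noncomputable def nn (G : Type u) [Group G] (m : ℕ) : ℕ := Nat.card {g : G // orderOf g = m}

variable {G : Type u} [Group G] [Finite G]

theorem nn_one : nn G 1 = 1 := by
  unfold nn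
  simp only [orderOf_eq_one_iff]
  exact Nat.card_unique

theorem nn_pos {m : ℕ} (g : G) (hg : orderOf g = m) : 0 < nn G m := by
  unfold nn
  haveI : Nonempty {g : G // orderOf g = m} := ⟨⟨g, hg⟩⟩
  exact Nat.card_pos

theorem card_sol (d : ℕ) (hd : d ≠ 0) :
    Nat.card {x : G // x ^ d = 1} = ∑ e ∈ d.divisors, nn G e := by
  classical
  haveI := Fintype.ofFinite G
  simp only [nn, Nat.card_eq_fintype_card, Fintype.card_subtype]
  rw [Finset.card_eq_sum_card_fiberwise (f := orderOf) (t := d.divisors)]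
  · refine Finset.sum_congr rfl fun e he => ?_
    congr 1
    ext x
    simp only [Finset.mem_filter, Finset.mem_univ, true_and]
    constructor
    · rintro ⟨_, h⟩
      exact h
    · intro h
      refine ⟨?_, h⟩
      rw [← h] at he
      exact orderOf_dvd_iff_pow_eq_one.1 (Nat.dvd_of_mem_divisors he)
  · intro x hx
    simp only [Finset.coe_filter, Finset.mem_univ, true_and, Set.mem_setOf_eq] at hx
    simp only [Finset.mem_coe, Nat.mem_divisors]
    exact ⟨orderOf_dvd_of_pow_eq_one hx, hd⟩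

theorem frob_sum (d : ℕ) (hd : d ≠ 0) (hdG : d ∣ Nat.card G) : d ∣ ∑ e ∈ d.divisors, nn G e := by
  rw [← card_sol d hd]
  exact Cfsg.Agent.Lib.Coprime.frobenius_count d hdG

theorem dvd_one_add {p : ℕ} (hp : p.Prime) (hpG : p ∣ Nat.card G) : p ∣ 1 + nn G p := by
  have h := frob_sum (G := G) p hp.ne_zero hpG
  rw [hp.divisors, Finset.sum_pair hp.one_lt.ne, nn_one] at h
  exact h

theorem dvd_nn_sq {p : ℕ} (hp : p.Prime) (x : G) (hx : orderOf x = p ^ 2) : p ∣ nn G (p ^ 2) := by
  have hd : p ^ 2 ∣ Nat.card G := hx ▸ orderOf_dvd_natCard x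
  have hpG : p ∣ Nat.card G := (dvd_pow_self p two_ne_zero).trans hd
  have h := frob_sum (G := G) (p ^ 2) (pow_ne_zero _ hp.ne_zero) hd
  rw [Nat.sum_divisors_prime_pow hp] at h
  simp only [Finset.sum_range_succ, Finset.sum_range_zero, zero_add, pow_zero, pow_one, nn_one] at h
  have h1 := dvd_one_add (G := G) hp hpG
  have h2 : p ∣ 1 + nn G p + nn G (p ^ 2) := (dvd_pow_self p two_ne_zero).trans h
  exact (Nat.dvd_add_right h1).1 h2

theorem divisors_mul_primes {p q : ℕ} (hp : p.Prime) (hq : q.Prime) :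
    (p * q).divisors = {1, p, q, p * q} := by
  ext e
  simp only [Nat.mem_divisors, Finset.mem_insert, Finset.mem_singleton]
  constructor
  · rintro ⟨he, _⟩
    obtain ⟨a, b, ha, hb, rfl⟩ := exists_dvd_and_dvd_of_dvd_mul he
    rcases (Nat.dvd_prime hp).1 ha with rfl | rfl <;>
      rcases (Nat.dvd_prime hq).1 hb with rfl | rfl <;> simp
  · rintro (rfl | rfl | rfl | rfl)
    · exact ⟨one_dvd _, mul_ne_zero hp.ne_zero hq.ne_zero⟩
    · exact ⟨Dvd.intro _ rfl, mul_ne_zero hp.ne_zero hq.ne_zero⟩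
    · exact ⟨Dvd.intro_left _ rfl, mul_ne_zero hp.ne_zero hq.ne_zero⟩
    · exact ⟨dvd_rfl, mul_ne_zero hp.ne_zero hq.ne_zero⟩

theorem dvd_pq {p q : ℕ} (hp : p.Prime) (hq : q.Prime) (hpq : p ≠ q)
    (hpG : p ∣ Nat.card G) (hqG : q ∣ Nat.card G) :
    p * q ∣ 1 + nn G p + nn G q + nn G (p * q) := by
  have hc : p.Coprime q := (Nat.coprime_primes hp hq).2 hpq
  have hd : p * q ∣ Nat.card G := hc.mul_dvd_of_dvd_of_dvd hpG hqG
  have h := frob_sum (G := G) (p * q) (mul_ne_zero hp.ne_zero hq.ne_zero) hd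
  rw [divisors_mul_primes hp hq] at h
  have h1 : (1 : ℕ) ∉ ({p, q, p * q} : Finset ℕ) := by
    simp only [Finset.mem_insert, Finset.mem_singleton, not_or]
    refine ⟨hp.one_lt.ne, hq.one_lt.ne, ?_⟩
    have := Nat.mul_le_mul hp.two_le hq.two_le
    omega
  have h2 : p ∉ ({q, p * q} : Finset ℕ) := by
    simp only [Finset.mem_insert, Finset.mem_singleton, not_or]
    refine ⟨hpq, ?_⟩
    have := Nat.mul_le_mul_left p hq.two_le
    have := hp.pos
    nlinarith
  have h3 : q ∉ ({p * q} : Finset ℕ) := by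
    simp only [Finset.mem_singleton]
    have := Nat.mul_le_mul_right q hp.two_le
    have := hq.pos
    nlinarith
  rw [Finset.sum_insert h1, Finset.sum_insert h2, Finset.sum_insert h3, Finset.sum_singleton,
    nn_one] at h
  simpa [add_assoc] using h

/-- Conjugation action on the elements of order `m`. -/
@[reducible] def conjOrd (G : Type u) [Group G] (m : ℕ) : MulAction G {g : G // orderOf g = m} where
  smul a x := ⟨a * x.1 * a⁻¹, by
    have := MulEquiv.orderOf_eq (MulAut.conj a) x.1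
    rw [MulAut.conj_apply] at this
    exact this.trans x.2⟩
  one_smul x := by
    apply Subtype.ext
    change 1 * x.1 * 1⁻¹ = x.1
    simp
  mul_smul a b x := by
    apply Subtype.ext
    change a * b * x.1 * (a * b)⁻¹ = a * (b * x.1 * b⁻¹) * a⁻¹
    group

theorem exists_fixed {q m : ℕ} [Fact q.Prime] (Q : Subgroup G) (hQ : IsPGroup q Q)
    (h : ¬ q ∣ nn G m) : ∃ x : G, orderOf x = m ∧ ∀ y ∈ Q, y * x * y⁻¹ = x := by
  letI := conjOrd G m
  haveI : Finite {g : G // orderOf g = m} := inferInstance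
  have hmod := hQ.card_modEq_card_fixedPoints {g : G // orderOf g = m}
  by_contra hno
  have hempty : Nat.card (MulAction.fixedPoints Q {g : G // orderOf g = m}) = 0 := by
    rw [Nat.card_eq_zero]
    left
    constructor
    rintro ⟨x, hx⟩
    apply hno
    refine ⟨x.1, x.2, fun y hy => ?_⟩
    have := hx ⟨y, hy⟩
    exact congrArg Subtype.val this
  rw [hempty] at hmod
  apply h
  unfold nn
  exact (Nat.modEq_zero_iff_dvd).1 hmod

theorem partner {q m : ℕ} [Fact q.Prime] (h : ¬ q ∣ nn G m) (y : G) (hy : orderOf y = q) :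
    ∃ x : G, orderOf x = m ∧ y * x = x * y := by
  let S : Sylow q G := default
  obtain ⟨x₀, hx₀, hfix⟩ := exists_fixed (G := G) (S : Subgroup G) S.isPGroup' h
  have hyp : IsPGroup q (Subgroup.zpowers y) := by
    refine IsPGroup.of_card (n := 1) ?_
    rw [Nat.card_zpowers, hy, pow_one]
  obtain ⟨R, hR⟩ := hyp.exists_le_sylow
  obtain ⟨g, hg⟩ := MulAction.exists_smul_eq G S R
  have hyR : y ∈ (R : Subgroup G) := hR (Subgroup.mem_zpowers y)
  rw [← hg, Sylow.coe_subgroup_smul, Subgroup.mem_pointwise_smul_iff_inv_smul_mem] at hyR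
  have hy' : g⁻¹ * y * g ∈ (S : Subgroup G) := by
    have : (MulAut.conj g)⁻¹ • y = g⁻¹ * y * g := by
      rw [MulAut.smul_def, ← map_inv, MulAut.conj_apply, inv_inv]
    rwa [this] at hyR
  refine ⟨g * x₀ * g⁻¹, ?_, ?_⟩
  · rw [← hx₀, ← MulAut.conj_apply]
    exact MulEquiv.orderOf_eq _ _
  · have h1 := hfix _ hy'
    have h2 : (g⁻¹ * y * g) * x₀ = x₀ * (g⁻¹ * y * g) := by
      calc (g⁻¹ * y * g) * x₀ = ((g⁻¹ * y * g) * x₀ * (g⁻¹ * y * g)⁻¹) * (g⁻¹ * y * g) := by group
        _ = x₀ * (g⁻¹ * y * g) := by rw [h1]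
    calc y * (g * x₀ * g⁻¹) = g * ((g⁻¹ * y * g) * x₀) * g⁻¹ := by group
      _ = g * (x₀ * (g⁻¹ * y * g)) * g⁻¹ := by rw [h2]
      _ = g * x₀ * g⁻¹ * y := by group

theorem pow_inj_of_coprime {p q : ℕ} (hp : p.Prime) (hc : q.Coprime p) {x x' : G} (hx : x ^ p = 1)
    (hx' : x' ^ p = 1) (h : x ^ q = x' ^ q) : x = x' := by
  obtain ⟨m, -, hm⟩ := Nat.exists_mul_mod_eq_one_of_coprime hc hp.one_lt
  have h1 : x ^ (q * m) = x := by
    rw [pow_eq_pow_mod (q * m) hx, hm, pow_one]
  have h2 : x' ^ (q * m) = x' := by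
    rw [pow_eq_pow_mod (q * m) hx', hm, pow_one]
  rw [← h1, ← h2, pow_mul, pow_mul, h]

/-- If every element of order `p` commutes with an element of order `q`, there are at least twice as
many elements of order `p * q` as of order `p`. -/
theorem two_mul_le {p q : ℕ} (hp : p.Prime) (hq : q.Prime) (hpq : p ≠ q) (hq2 : q ≠ 2)
    (hpart : ∀ x : G, orderOf x = p → ∃ y : G, orderOf y = q ∧ x * y = y * x) :
    2 * nn G p ≤ nn G (p * q) := by
  classical
  have hc : p.Coprime q := (Nat.coprime_primes hp hq).2 hpq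
  choose! Y hY hYc using hpart
  have hq2' : q.Coprime 2 := (Nat.coprime_primes hq Nat.prime_two).2 hq2
  let f : {x : G // orderOf x = p} × Bool → {g : G // orderOf g = p * q} := fun t =>
    if t.2 then ⟨t.1.1 * Y t.1.1, by
        rw [(show Commute t.1.1 (Y t.1.1) from hYc _ t.1.2).orderOf_mul_eq_mul_orderOf_of_coprime
          (by rw [t.1.2, hY _ t.1.2]; exact hc), t.1.2, hY _ t.1.2]⟩
    else ⟨t.1.1 * (Y t.1.1) ^ 2, by
        have hcm : Commute t.1.1 ((Y t.1.1) ^ 2) :=
          (show Commute t.1.1 (Y t.1.1) from hYc _ t.1.2).pow_right 2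
        have ho : orderOf ((Y t.1.1) ^ 2) = q := by
          rw [Nat.Coprime.orderOf_pow (by rw [hY _ t.1.2]; exact hq2'), hY _ t.1.2]
        rw [hcm.orderOf_mul_eq_mul_orderOf_of_coprime (by rw [t.1.2, ho]; exact hc), t.1.2, ho]⟩
  have key : ∀ (x : {x : G // orderOf x = p}) (b : Bool),
      ((f (x, b)).1) ^ q = x.1 ^ q := by
    intro x b
    have hYq : (Y x.1) ^ q = 1 := by
      rw [← hY _ x.2]
      exact pow_orderOf_eq_one _
    cases b
    · change (x.1 * (Y x.1) ^ 2) ^ q = x.1 ^ q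
      rw [((show Commute x.1 (Y x.1) from hYc _ x.2).pow_right 2).mul_pow, ← pow_mul, mul_comm 2 q,
        pow_mul, hYq, one_pow, mul_one]
    · change (x.1 * Y x.1) ^ q = x.1 ^ q
      rw [(show Commute x.1 (Y x.1) from hYc _ x.2).mul_pow, hYq, mul_one]
  have hinj : Function.Injective f := by
    rintro ⟨x, b⟩ ⟨x', b'⟩ hxx
    have h1 : x.1 ^ q = x'.1 ^ q := by
      rw [← key x b, ← key x' b', hxx]
    have hxp : x.1 ^ p = 1 := by have := pow_orderOf_eq_one x.1; rwa [x.2] at this
    have hxp' : x'.1 ^ p = 1 := by have := pow_orderOf_eq_one x'.1; rwa [x'.2] at this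
    have h2 : x = x' := Subtype.ext (pow_inj_of_coprime hp hc.symm hxp hxp' h1)
    subst h2
    have hY1 : Y x.1 ≠ 1 := by
      intro h0
      have := hY _ x.2
      rw [h0, orderOf_one] at this
      exact hq.one_lt.ne this
    have hbb : b = b' := by
      cases b <;> cases b'
      · rfl
      · exfalso
        have h3 : x.1 * (Y x.1) ^ 2 = x.1 * Y x.1 := congrArg Subtype.val hxx
        have h4 := mul_left_cancel h3
        rw [pow_two] at h4
        exact hY1 (by simpa using h4)
      · exfalso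
        have h3 : x.1 * Y x.1 = x.1 * (Y x.1) ^ 2 := congrArg Subtype.val hxx
        have h4 := mul_left_cancel h3
        rw [pow_two] at h4
        exact hY1 (by simpa using h4.symm)
      · rfl
    rw [hbb]
  have hle := Nat.card_le_card_of_injective f hinj
  rw [Nat.card_prod] at hle
  have hB : Nat.card Bool = 2 := by simp
  rw [hB] at hle
  unfold nn
  linarith


theorem ne_two {p : ℕ} (hodd : Odd (Nat.card G)) (hpG : p ∣ Nat.card G) : p ≠ 2 := by
  rintro rfl
  exact (Nat.not_even_iff_odd.2 hodd) (even_iff_two_dvd.2 hpG)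

theorem exists_order {p : ℕ} (hp : p.Prime) (hpG : p ∣ Nat.card G) : ∃ x : G, orderOf x = p := by
  haveI := Fact.mk hp
  exact exists_prime_orderOf_dvd_card' p hpG

theorem nn_eq_zero {m : ℕ} (h : ∀ g : G, orderOf g ≠ m) : nn G m = 0 := by
  unfold nn
  haveI : IsEmpty {g : G // orderOf g = m} := ⟨fun x => h x.1 x.2⟩
  exact Nat.card_of_isEmpty

theorem aux_mixed {p q : ℕ} (hodd : Odd (Nat.card G)) (hp : p.Prime) (hq : q.Prime) (hpq : p ≠ q)
    (hpG : p ∣ Nat.card G) (hqG : q ∣ Nat.card G) (h : nn G (p * q) = nn G q) : False := by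
  have h1 := dvd_pq (G := G) hp hq hpq hpG hqG
  rw [h] at h1
  have h2 := dvd_one_add (G := G) hq hqG
  have hqpq : q ∣ 1 + nn G p + nn G q + nn G q := (Dvd.intro_left p rfl).trans h1
  have hnq : ¬ q ∣ nn G p := by
    intro h3
    have e : 1 + nn G p + nn G q + nn G q = nn G p + ((1 + nn G q) + nn G q) := by ring
    rw [e] at hqpq
    have h4 := (Nat.dvd_add_right h3).1 hqpq
    have h6 := (Nat.dvd_add_right h2).1 h4
    have h7 := (Nat.dvd_add_left h6).1 h2
    exact hq.one_lt.ne' (Nat.dvd_one.1 h7)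
  haveI := Fact.mk hq
  have hpart : ∀ y : G, orderOf y = q → ∃ x : G, orderOf x = p ∧ y * x = x * y :=
    fun y hy => partner hnq y hy
  have h2le := two_mul_le hq hp hpq.symm (ne_two hodd hpG) hpart
  rw [mul_comm q p, h] at h2le
  obtain ⟨y, hy⟩ := exists_order (G := G) hq hqG
  have := nn_pos y hy
  omega

/-- All orders other than 1 have one of the counts `a`, `b`. -/
def TwoVals (G : Type u) [Group G] (a b : ℕ) : Prop :=
  ∀ g : G, orderOf g ≠ 1 → nn G (orderOf g) = a ∨ nn G (orderOf g) = b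

variable {a b : ℕ}

theorem order_mul {p q : ℕ} (hp : p.Prime) (hq : q.Prime) (hpq : p ≠ q) {x y : G}
    (hx : orderOf x = p) (hy : orderOf y = q) (hc : x * y = y * x) : orderOf (x * y) = p * q := by
  rw [(show Commute x y from hc).orderOf_mul_eq_mul_orderOf_of_coprime
    (by rw [hx, hy]; exact (Nat.coprime_primes hp hq).2 hpq), hx, hy]

theorem mul_primes_ne_one {p q : ℕ} (hp : p.Prime) (hq : q.Prime) : p * q ≠ 1 := by
  have := hp.two_le
  have := hq.two_le
  nlinarith

theorem no_commuting (hodd : Odd (Nat.card G)) (hv : TwoVals G a b) {p q : ℕ} (hp : p.Prime)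
    (hq : q.Prime) (hpq : p ≠ q) (hne : nn G p ≠ nn G q) {x y : G} (hx : orderOf x = p)
    (hy : orderOf y = q) (hc : x * y = y * x) : False := by
  have hpG : p ∣ Nat.card G := hx ▸ orderOf_dvd_natCard x
  have hqG : q ∣ Nat.card G := hy ▸ orderOf_dvd_natCard y
  have hg := order_mul hp hq hpq hx hy hc
  have h1 := hv x (by rw [hx]; exact hp.one_lt.ne')
  rw [hx] at h1
  have h2 := hv y (by rw [hy]; exact hq.one_lt.ne')
  rw [hy] at h2
  have h3 := hv (x * y) (by rw [hg]; exact mul_primes_ne_one hp hq)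
  rw [hg] at h3
  have : nn G (p * q) = nn G p ∨ nn G (p * q) = nn G q := by omega
  rcases this with h | h
  · exact aux_mixed hodd hq hp hpq.symm hqG hpG (by rwa [mul_comm])
  · exact aux_mixed hodd hp hq hpq hpG hqG h

theorem same_aux (hodd : Odd (Nat.card G)) (hv : TwoVals G a b) {p q : ℕ} (hp : p.Prime)
    (hq : q.Prime) (hpq : p ≠ q) (hpG : p ∣ Nat.card G) (hqG : q ∣ Nat.card G)
    (hsame : nn G p = nn G q) :
    ∃ c, c ≠ nn G p ∧ ¬ p ∣ c ∧ ∀ g : G, orderOf g ≠ 1 →
      nn G (orderOf g) = nn G p ∨ nn G (orderOf g) = c := by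
  haveI := Fact.mk hq
  have h1 := dvd_one_add (G := G) hq hqG
  have hn : ¬ q ∣ nn G p := by
    rw [hsame]
    intro h
    exact hq.one_lt.ne' (Nat.dvd_one.1 ((Nat.dvd_add_left h).1 h1))
  obtain ⟨y, hy⟩ := exists_order (G := G) hq hqG
  obtain ⟨x, hx, hc⟩ := partner hn y hy
  have hg := order_mul hp hq hpq hx hy hc.symm
  have hpq_dvd := dvd_pq (G := G) hp hq hpq hpG hqG
  have hp1 : p ∣ 1 + nn G p + nn G p + nn G (p * q) := by
    have : p ∣ 1 + nn G p + nn G q + nn G (p * q) := (Dvd.intro _ rfl).trans hpq_dvd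
    rwa [← hsame] at this
  have hp2 := dvd_one_add (G := G) hp hpG
  have hx1 := hv x (by rw [hx]; exact hp.one_lt.ne')
  rw [hx] at hx1
  have hg1 := hv (x * y) (by rw [hg]; exact mul_primes_ne_one hp hq)
  rw [hg] at hg1
  have hcne : nn G (p * q) ≠ nn G p := by
    intro e
    rw [e] at hp1
    have h3 : p ∣ 2 := by
      refine (Nat.dvd_add_right hp1).1 ?_
      have e3 : 1 + nn G p + nn G p + nn G p + 2 = 3 * (1 + nn G p) := by ring
      rw [e3]
      exact hp2.mul_left 3
    exact ne_two hodd hpG ((Nat.prime_dvd_prime_iff_eq hp Nat.prime_two).1 h3)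
  refine ⟨nn G (p * q), hcne, ?_, ?_⟩
  · intro h
    have h4 := (Nat.dvd_add_left h).1 hp1
    have h5 := (Nat.dvd_add_right hp2).1 h4
    exact hp.one_lt.ne' (Nat.dvd_one.1 ((Nat.dvd_add_left h5).1 hp2))
  · intro g hg'
    have := hv g hg'
    omega

theorem dvd_of_no_sq {r : ℕ} (hr : r.Prime) (hno : ∀ t : G, orderOf t ≠ r ^ 2) (k : ℕ) (hk : 1 ≤ k)
    (hd : r ^ k ∣ Nat.card G) : r ^ k ∣ 1 + nn G r := by
  have h := frob_sum (G := G) (r ^ k) (pow_ne_zero _ hr.ne_zero) hd
  rw [Nat.sum_divisors_prime_pow hr] at h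
  have hs : ∀ k, 1 ≤ k → ∑ x ∈ Finset.range (k + 1), nn G (r ^ x) = 1 + nn G r := by
    intro k hk
    induction k, hk using Nat.le_induction with
    | base => simp [Finset.sum_range_succ, nn_one]
    | succ k hk ih =>
      rw [Finset.sum_range_succ, ih]
      have h0 : nn G (r ^ (k + 1)) = 0 := by
        apply nn_eq_zero
        intro t ht
        have hdv : r ^ 2 ∣ orderOf t := by
          rw [ht]
          exact pow_dvd_pow r (by omega)
        have h1 := orderOf_pow_orderOf_div (x := t) (n := r ^ 2)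
          (by rw [ht]; exact pow_ne_zero _ hr.ne_zero) hdv
        exact hno _ h1
      rw [h0, add_zero]
  rwa [hs k hk] at h

theorem three_le {p q : ℕ} (hp : p.Prime) (hq : q.Prime) (hpq : p ≠ q) (hpG : p ∣ Nat.card G)
    (hqG : q ∣ Nat.card G) : 1 + nn G p + nn G q ≤ Nat.card G := by
  classical
  have h := card_sol (G := G) (Nat.card G) Nat.card_pos.ne'
  have hall : Nat.card {x : G // x ^ Nat.card G = 1} = Nat.card G :=
    Nat.card_congr (Equiv.subtypeUnivEquiv (fun x => pow_card_eq_one'))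
  rw [hall] at h
  have hsub : ({1, p, q} : Finset ℕ) ⊆ (Nat.card G).divisors := by
    intro e he
    simp only [Finset.mem_insert, Finset.mem_singleton] at he
    rw [Nat.mem_divisors]
    refine ⟨?_, Nat.card_pos.ne'⟩
    rcases he with rfl | rfl | rfl
    · exact one_dvd _
    · exact hpG
    · exact hqG
  have h2 := Finset.sum_le_sum_of_subset (f := nn G) hsub
  have h1 : (1 : ℕ) ∉ ({p, q} : Finset ℕ) := by
    simp only [Finset.mem_insert, Finset.mem_singleton, not_or]
    exact ⟨hp.one_lt.ne, hq.one_lt.ne⟩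
  rw [Finset.sum_insert h1, Finset.sum_pair hpq, nn_one, ← h] at h2
  omega

/-- Different primes have different counts. -/
theorem nn_ne (hodd : Odd (Nat.card G)) (hv : TwoVals G a b) {p q : ℕ} (hp : p.Prime)
    (hq : q.Prime) (hpq : p ≠ q) (hpG : p ∣ Nat.card G) (hqG : q ∣ Nat.card G) :
    nn G p ≠ nn G q := by
  intro hsame
  have hall : ∀ r : ℕ, r.Prime → r ∣ Nat.card G → nn G r = nn G p := by
    intro r hr hrG
    by_contra hne
    obtain ⟨c, -, hnp, hvals⟩ := same_aux hodd hv hp hq hpq hpG hqG hsame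
    obtain ⟨t, ht⟩ := exists_order (G := G) hr hrG
    have h := hvals t (by rw [ht]; exact hr.one_lt.ne')
    rw [ht] at h
    have hrc : nn G r = c := h.resolve_left hne
    haveI := Fact.mk hp
    obtain ⟨x0, hx0⟩ := exists_order (G := G) hp hpG
    obtain ⟨z, hz, hcz⟩ := partner (m := r) (by rw [hrc]; exact hnp) x0 hx0
    have hrp : p ≠ r := by
      rintro rfl
      exact hne rfl
    exact no_commuting hodd hv hp hr hrp (Ne.symm hne) hx0 hz hcz
  have hno : ∀ r : ℕ, r.Prime → r ∣ Nat.card G → ∀ t : G, orderOf t ≠ r ^ 2 := by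
    intro r hr hrG t ht
    obtain ⟨s, hs, hsG, hsr⟩ : ∃ s : ℕ, s.Prime ∧ s ∣ Nat.card G ∧ s ≠ r := by
      by_cases hrp : r = p
      · exact ⟨q, hq, hqG, by rw [hrp]; exact hpq.symm⟩
      · exact ⟨p, hp, hpG, Ne.symm hrp⟩
    have hsame' : nn G r = nn G s := (hall r hr hrG).trans (hall s hs hsG).symm
    obtain ⟨c, -, hnp, hvals⟩ := same_aux hodd hv hr hs hsr.symm hrG hsG hsame'
    have hdv := dvd_nn_sq hr t ht
    have h := hvals t (by rw [ht]; exact (one_lt_pow₀ hr.one_lt two_ne_zero).ne')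
    rw [ht] at h
    rcases h with h | h
    · rw [h] at hdv
      have h1 := dvd_one_add (G := G) hr hrG
      exact hr.one_lt.ne' (Nat.dvd_one.1 ((Nat.dvd_add_left hdv).1 h1))
    · rw [h] at hdv
      exact hnp hdv
  have hdvd : Nat.card G ∣ 1 + nn G p := by
    rw [Nat.dvd_iff_prime_pow_dvd_dvd]
    intro r k hr hd
    rcases Nat.eq_zero_or_pos k with rfl | hk
    · simp
    · have hrG : r ∣ Nat.card G := (dvd_pow_self r hk.ne').trans hd
      have := dvd_of_no_sq hr (hno r hr hrG) k hk hd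
      rwa [hall r hr hrG] at this
  have hle := Nat.le_of_dvd (by omega) hdvd
  have h3 := three_le (G := G) hp hq hpq hpG hqG
  obtain ⟨y, hy⟩ := exists_order (G := G) hq hqG
  have := nn_pos y hy
  omega

/-- In the two-prime case there are no elements of order `p ^ 2`. -/
theorem no_sq (hodd : Odd (Nat.card G)) (hv : TwoVals G a b) {p q : ℕ} (hp : p.Prime)
    (hq : q.Prime) (hpq : p ≠ q) (hpG : p ∣ Nat.card G) (hqG : q ∣ Nat.card G) (t : G) :
    orderOf t ≠ p ^ 2 := by
  intro ht
  have hne := nn_ne hodd hv hp hq hpq hpG hqG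
  haveI := Fact.mk hq
  have hpd := dvd_nn_sq hp t ht
  obtain ⟨y, hy⟩ := exists_order (G := G) hq hqG
  obtain ⟨x0, hx0⟩ := exists_order (G := G) hp hpG
  have hqd : q ∣ nn G (p ^ 2) := by
    by_contra hnd
    obtain ⟨x, hx, hc⟩ := partner hnd y hy
    have hs : orderOf (x ^ p) = p := by
      have := orderOf_pow_orderOf_div (x := x) (n := p)
        (by rw [hx]; exact pow_ne_zero _ hp.ne_zero) (by rw [hx]; exact dvd_pow_self _ two_ne_zero)
      rw [hx, pow_two, Nat.mul_div_cancel _ hp.pos] at this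
      exact this
    have hc2 : x ^ p * y = y * x ^ p :=
      ((show Commute y x from hc).symm.pow_left p)
    exact no_commuting hodd hv hp hq hpq hne hs hy hc2
  have h1 := hv t (by rw [ht]; exact (one_lt_pow₀ hp.one_lt two_ne_zero).ne')
  rw [ht] at h1
  have h2 := hv x0 (by rw [hx0]; exact hp.one_lt.ne')
  rw [hx0] at h2
  have h3 := hv y (by rw [hy]; exact hq.one_lt.ne')
  rw [hy] at h3
  have h4 : nn G (p ^ 2) = nn G p ∨ nn G (p ^ 2) = nn G q := by omega
  rcases h4 with h | h
  · rw [h] at hpd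
    have h5 := dvd_one_add (G := G) hp hpG
    exact hp.one_lt.ne' (Nat.dvd_one.1 ((Nat.dvd_add_left hpd).1 h5))
  · rw [h] at hqd
    have h5 := dvd_one_add (G := G) hq hqG
    exact hq.one_lt.ne' (Nat.dvd_one.1 ((Nat.dvd_add_left hqd).1 h5))

/-- In the two-prime case an element whose order is divisible by `p` has order `p`. -/
theorem eq_of_dvd (hodd : Odd (Nat.card G)) (hv : TwoVals G a b) {p q : ℕ} (hp : p.Prime)
    (hq : q.Prime) (hpq : p ≠ q) (hpG : p ∣ Nat.card G) (hqG : q ∣ Nat.card G)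
    (hfac : ∀ r : ℕ, r.Prime → r ∣ Nat.card G → r = p ∨ r = q) (g : G) (hd : p ∣ orderOf g) :
    orderOf g = p := by
  have hm0 : orderOf g ≠ 0 := (orderOf_pos g).ne'
  have hq' : ¬ q ∣ orderOf g := by
    intro hqm
    have h1 := orderOf_pow_orderOf_div hm0 hd
    have h2 := orderOf_pow_orderOf_div hm0 hqm
    have hc : g ^ (orderOf g / p) * g ^ (orderOf g / q) = g ^ (orderOf g / q) * g ^ (orderOf g / p) :=
      (Commute.refl g).pow_pow _ _
    exact no_commuting hodd hv hp hq hpq (nn_ne hodd hv hp hq hpq hpG hqG) h1 h2 hc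
  have hp2 : ¬ p ^ 2 ∣ orderOf g := by
    intro h
    exact no_sq hodd hv hp hq hpq hpG hqG _ (orderOf_pow_orderOf_div hm0 h)
  obtain ⟨k, hk⟩ := hd
  have hk1 : k = 1 := by
    by_contra hne
    obtain ⟨r, hr, hrk⟩ := Nat.exists_prime_and_dvd hne
    have hrm : r ∣ orderOf g := by rw [hk]; exact hrk.mul_left p
    rcases hfac r hr (hrm.trans (orderOf_dvd_natCard g)) with rfl | rfl
    · apply hp2
      rw [hk, pow_two]
      exact Nat.mul_dvd_mul_left _ hrk
    · exact hq' hrm
  rw [hk, hk1, mul_one]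


section Products

open Finset

theorem prod_trick {W H ι : Type*} [CommGroup W] [Group H] [Fintype ι] (φ : H →* MulAut W)
    (w g : ι → H) (n : ℕ) (hn : 0 < n) (v : W)
    (hN : ∀ f, ∏ i ∈ range n, φ (w f ^ i) v = 1)
    (hT : ∀ i, 0 < i → i < n → ∃ (c : H) (T : ι ≃ ι), ∀ f, w f ^ i = g (T f) * c)
    (hQ : ∀ u : W, ∏ f, φ (g f) u = 1) : v ^ Fintype.card ι = 1 := by
  have h1 : ∏ f, ∏ i ∈ range n, φ (w f ^ i) v = 1 := Finset.prod_eq_one fun f _ => hN f
  rw [Finset.prod_comm] at h1
  obtain ⟨m, rfl⟩ : ∃ m, n = m + 1 := ⟨n - 1, by omega⟩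
  rw [Finset.prod_range_succ'] at h1
  have h0 : ∏ f : ι, φ (w f ^ 0) v = v ^ Fintype.card ι := by simp
  have hrest : ∀ i ∈ range m, ∏ f : ι, φ (w f ^ (i + 1)) v = 1 := by
    intro i hi
    obtain ⟨c, T, hTc⟩ := hT (i + 1) (by omega) (by simp only [Finset.mem_range] at hi; omega)
    have h2 : ∀ f, φ (w f ^ (i + 1)) v = φ (g (T f)) (φ c v) := by
      intro f
      rw [hTc f, map_mul, MulAut.mul_apply]
    simp_rw [h2]
    rw [Equiv.prod_comp T (fun f => φ (g f) (φ c v))]
    exact hQ _
  rw [Finset.prod_eq_one hrest, one_mul, h0] at h1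
  exact h1

theorem fixed_orbit_prod {W H : Type*} [CommGroup W] [Group H] (φ : H →* MulAut W) (e : H) (n : ℕ)
    (he : e ^ n = 1) (v : W) :
    φ e (∏ i ∈ range n, φ (e ^ i) v) = ∏ i ∈ range n, φ (e ^ i) v := by
  rw [map_prod]
  have h1 : ∀ i, φ e (φ (e ^ i) v) = φ (e ^ (i + 1)) v := by
    intro i
    rw [pow_succ', map_mul, MulAut.mul_apply]
  simp_rw [h1]
  have h2 := Finset.prod_range_succ (fun i => φ (e ^ i) v) n
  have h3 := Finset.prod_range_succ' (fun i => φ (e ^ i) v) n
  simp only [he, pow_zero] at h2 h3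
  exact mul_right_cancel (h3.symm.trans h2)

theorem fixed_subgroup_prod {W H : Type*} [CommGroup W] [Group H] (φ : H →* MulAut W)
    (Q : Subgroup H) [Fintype Q] (f₀ : Q) (u : W) :
    φ (f₀ : H) (∏ f : Q, φ (f : H) u) = ∏ f : Q, φ (f : H) u := by
  rw [map_prod]
  have h1 : ∀ f : Q, φ (f₀ : H) (φ (f : H) u) = φ ((f₀ * f : Q) : H) u := by
    intro f
    rw [Subgroup.coe_mul, map_mul, MulAut.mul_apply]
  simp_rw [h1]
  exact Equiv.prod_comp (Equiv.mulLeft f₀) (fun f : Q => φ (f : H) u)

end Products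

/-- The standing situation of the last step. -/
structure Setup (G : Type u) [Group G] (p q : ℕ) (V : Subgroup G) : Prop where
  hp : p.Prime
  hq : q.Prime
  hpq : p ≠ q
  hord : ∀ g : G, orderOf g = 1 ∨ orderOf g = p ∨ orderOf g = q
  hmix : ∀ x y : G, orderOf x = p → orderOf y = q → x * y ≠ y * x
  hVn : V.Normal
  hVc : ∀ a ∈ V, ∀ b ∈ V, a * b = b * a
  hV1 : V ≠ ⊥
  hVp : ∀ v ∈ V, v ^ p = 1

namespace Setup

variable {p q : ℕ} {V : Subgroup G}

theorem fix_one (S : Setup G p q V) {x e : G} (hx : x ∈ V) (he : orderOf e = q)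
    (hfix : e * x * e⁻¹ = x) : x = 1 := by
  by_contra hne
  haveI := Fact.mk S.hp
  have hxo : orderOf x = p := orderOf_eq_prime (S.hVp x hx) hne
  have hc : x * e = e * x := by
    calc x * e = (e * x * e⁻¹) * e := by rw [hfix]
      _ = e * x := by group
  exact S.hmix x e hxo he hc

theorem one_of_pow (S : Setup G p q V) {v : G} (hv : v ∈ V) (h : v ^ q = 1) : v = 1 := by
  have h1 := orderOf_dvd_of_pow_eq_one (S.hVp v hv)
  have h2 := orderOf_dvd_of_pow_eq_one h
  have h3 : orderOf v ∣ 1 := by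
    have := Nat.dvd_gcd h1 h2
    rwa [(Nat.coprime_primes S.hp S.hq).2 S.hpq] at this
  exact orderOf_eq_one_iff.1 (Nat.dvd_one.1 h3)

theorem exists_ne (S : Setup G p q V) : ∃ v ∈ V, v ≠ 1 := by
  obtain ⟨a, ha⟩ := (Subgroup.ne_bot_iff_exists_ne_one).1 S.hV1
  exact ⟨a.1, a.2, fun h => ha (Subtype.ext h)⟩

theorem order_of_pgroup (S : Setup G p q V) (Q : Subgroup G) (hQ : IsPGroup q Q) {x : G} (hx : x ∈ Q)
    (hne : x ≠ 1) : orderOf x = q := by
  rcases S.hord x with h | h | h
  · exact absurd (orderOf_eq_one_iff.1 h) hne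
  · exfalso
    obtain ⟨k, hk⟩ := hQ ⟨x, hx⟩
    have hk' : x ^ q ^ k = 1 := by
      have := congrArg Subtype.val hk
      simpa using this
    have h1 := orderOf_dvd_of_pow_eq_one hk'
    rw [h] at h1
    have h2 := S.hp.dvd_of_dvd_pow h1
    exact S.hpq ((Nat.prime_dvd_prime_iff_eq S.hp S.hq).1 h2)
  · exact h

/-- The commutative group structure on `V`. -/
@[reducible] def cg (S : Setup G p q V) : CommGroup V :=
  { (inferInstance : Group V) with
    mul_comm := fun a b => Subtype.ext (S.hVc a.1 a.2 b.1 b.2) }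

end Setup


namespace Setup

variable {p q : ℕ} {V : Subgroup G}

open Finset in
theorem card_eq (S : Setup G p q V) (Q : Subgroup G) (hQ : IsPGroup q Q) (hQ1 : Q ≠ ⊥) :
    Nat.card Q = q := by
  classical
  haveI := Fact.mk S.hq
  haveI := S.hVn
  letI cg := S.cg
  haveI : Nontrivial Q := (Subgroup.nontrivial_iff_ne_bot Q).2 hQ1
  haveI := hQ.center_nontrivial
  obtain ⟨c, hc⟩ := _root_.exists_ne (1 : Subgroup.center Q)
  have hyQ : ((c : Q) : G) ∈ Q := (c : Q).2
  have hy1 : ((c : Q) : G) ≠ 1 := by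
    intro h
    apply hc
    apply Subtype.ext
    apply Subtype.ext
    exact h
  obtain ⟨y, hyy⟩ : ∃ y : G, y = ((c : Q) : G) := ⟨_, rfl⟩
  rw [← hyy] at hyQ hy1
  have hyo : orderOf y = q := S.order_of_pgroup Q hQ hyQ hy1
  by_contra hcard
  obtain ⟨z, hzQ, hzy⟩ : ∃ z ∈ Q, z ∉ Subgroup.zpowers y := by
    by_contra hall
    push_neg at hall
    have hle : Q ≤ Subgroup.zpowers y := hall
    have hle2 : Subgroup.zpowers y ≤ Q := (Subgroup.zpowers_le).2 hyQ
    have : Q = Subgroup.zpowers y := le_antisymm hle hle2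
    apply hcard
    rw [this, Nat.card_zpowers, hyo]
  have hzc : ∀ f ∈ Subgroup.zpowers y, Commute z f := by
    intro f hf
    obtain ⟨k, rfl⟩ := Subgroup.mem_zpowers_iff.1 hf
    have h1 : Commute z y := by
      have := (Subgroup.mem_center_iff.1 c.2) ⟨z, hzQ⟩
      have h2 := congrArg Subtype.val this
      rw [hyy]
      exact h2
    exact h1.zpow_right k
  obtain ⟨v, hvV, hv1⟩ := S.exists_ne
  haveI : Fintype (Subgroup.zpowers y) := Fintype.ofFinite _
  let φ : G →* MulAut V := MulAut.conjNormal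
  have key : (⟨v, hvV⟩ : V) ^ Fintype.card (Subgroup.zpowers y) = 1 := by
    apply prod_trick φ (fun f : Subgroup.zpowers y => z * (f : G))
      (fun f : Subgroup.zpowers y => (f : G)) q S.hq.pos
    · intro f
      have heQ : z * (f : G) ∈ Q :=
        Q.mul_mem hzQ (((Subgroup.zpowers_le).2 hyQ) f.2)
      have he1 : z * (f : G) ≠ 1 := by
        intro h
        apply hzy
        rw [eq_inv_of_mul_eq_one_left h]
        exact Subgroup.inv_mem _ f.2
      have heo := S.order_of_pgroup Q hQ heQ he1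
      have he : (z * (f : G)) ^ q = 1 := by
        rw [← heo]
        exact pow_orderOf_eq_one _
      have hfix := fixed_orbit_prod φ (z * (f : G)) q he ⟨v, hvV⟩
      apply Subtype.ext
      exact S.fix_one (Subtype.coe_prop _) heo ((MulAut.conjNormal_apply _ _).symm.trans (congrArg Subtype.val hfix))
    · intro i hi hiq
      have hcop : (Nat.card (Subgroup.zpowers y)).Coprime i := by
        rw [Nat.card_zpowers, hyo]
        exact (Nat.Prime.coprime_iff_not_dvd S.hq).2
          (fun h => absurd (Nat.le_of_dvd hi h) (by omega))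
      refine ⟨z ^ i, powCoprime hcop, fun f => ?_⟩
      have hcm : Commute z (f : G) := hzc _ f.2
      rw [powCoprime_apply, Subgroup.coe_pow, hcm.mul_pow, (hcm.pow_pow i i).eq]
    · intro u
      have hfix := fixed_subgroup_prod φ (Subgroup.zpowers y) ⟨y, Subgroup.mem_zpowers y⟩ u
      apply Subtype.ext
      exact S.fix_one (Subtype.coe_prop _) hyo ((MulAut.conjNormal_apply _ _).symm.trans (congrArg Subtype.val hfix))
  rw [Fintype.card_eq_nat_card, Nat.card_zpowers, hyo] at key
  have hvq : v ^ q = 1 := by simpa using congrArg Subtype.val key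
  exact hv1 (S.one_of_pow hvV hvq)

open Finset in
theorem norm_le (S : Setup G p q V) [Fact q.Prime] (Q : Sylow q G)
    (hcard : Nat.card (Q : Subgroup G) = q) {y₀ : G} (hy₀ : y₀ ∈ (Q : Subgroup G))
    (hy₀o : orderOf y₀ = q) {u : G} (hu : u ∈ Subgroup.normalizer ((Q : Subgroup G) : Set G)) :
    u ∈ (Q : Subgroup G) := by
  classical
  haveI hFp := Fact.mk S.hp
  haveI := S.hVn
  letI cg := S.cg
  by_contra huQ
  have hu1 : u ≠ 1 := fun h => huQ (h ▸ Subgroup.one_mem _)
  rcases S.hord u with ho | ho | ho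
  · exact hu1 (orderOf_eq_one_iff.1 ho)
  · have hup : u ^ p = 1 := by
      rw [← ho]
      exact pow_orderOf_eq_one u
    have hui : ∀ i : ℕ, u ^ i ∈ Subgroup.normalizer ((Q : Subgroup G) : Set G) :=
      fun i => Subgroup.pow_mem _ hu i
    haveI : Fintype (Q : Subgroup G) := Fintype.ofFinite _
    let φ : G →* MulAut V := MulAut.conjNormal
    obtain ⟨v, hvV, hv1⟩ := S.exists_ne
    have key : (⟨v, hvV⟩ : V) ^ Fintype.card (Q : Subgroup G) = 1 := by
      apply prod_trick φ (fun f : (Q : Subgroup G) => (f : G)⁻¹ * u * f)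
        (fun f : (Q : Subgroup G) => (f : G)) p S.hp.pos
      · intro f
        obtain ⟨w, hw⟩ : ∃ w : G, w = (f : G)⁻¹ * u * f := ⟨_, rfl⟩
        rw [← hw]
        have hconj : ∀ i : ℕ, ((f : G)⁻¹ * u * f) ^ i = (f : G)⁻¹ * u ^ i * f := by
          intro i
          have := conj_pow (a := (f : G)⁻¹) (b := u) (i := i)
          simpa using this
        have hwp : w ^ p = 1 := by
          rw [hw, hconj, hup]
          group
        have hid : ∀ n : ℕ, (v * w) ^ n =
            ((∏ i ∈ range n, φ (w ^ i) ⟨v, hvV⟩ : V) : G) * w ^ n := by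
          intro n
          induction n with
          | zero => simp
          | succ n ih =>
            rw [pow_succ, ih, Finset.prod_range_succ, Subgroup.coe_mul]
            have h3 : ((φ (w ^ n) ⟨v, hvV⟩ : V) : G) = w ^ n * v * (w ^ n)⁻¹ :=
              MulAut.conjNormal_apply _ _
            rw [h3, pow_succ]
            group
        have hVP : IsPGroup p V := fun x => ⟨1, by
          apply Subtype.ext
          simpa using S.hVp x.1 x.2⟩
        have hWP : IsPGroup p (Subgroup.zpowers w) := fun x => ⟨1, by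
          apply Subtype.ext
          obtain ⟨k, hk⟩ := Subgroup.mem_zpowers_iff.1 x.2
          simp only [pow_one, Subgroup.coe_pow, Subgroup.coe_one]
          rw [← hk, ← zpow_natCast, ← zpow_mul, mul_comm, zpow_mul, zpow_natCast, hwp, one_zpow]⟩
        have hsup := hVP.to_sup_of_normal_left hWP
        obtain ⟨k, hk⟩ := hsup ⟨v * w, Subgroup.mul_mem_sup hvV (Subgroup.mem_zpowers w)⟩
        have hk' : (v * w) ^ p ^ k = 1 := by simpa using congrArg Subtype.val hk
        have hpow : (v * w) ^ p = 1 := by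
          rcases S.hord (v * w) with h | h | h
          · rw [orderOf_eq_one_iff.1 h, one_pow]
          · rw [← h]
            exact pow_orderOf_eq_one _
          · exfalso
            have h1 := orderOf_dvd_of_pow_eq_one hk'
            rw [h] at h1
            have h2 := S.hq.dvd_of_dvd_pow h1
            exact S.hpq ((Nat.prime_dvd_prime_iff_eq S.hq S.hp).1 h2).symm
        have h2 := hid p
        rw [hpow, hwp, mul_one] at h2
        exact Subtype.ext h2.symm
      · intro i hi hip
        let σ : ↥(Q : Subgroup G) → ↥(Q : Subgroup G) := fun f =>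
          ⟨(f : G)⁻¹ * (u ^ i * f * (u ^ i)⁻¹),
            Subgroup.mul_mem _ (Subgroup.inv_mem _ f.2)
              ((Subgroup.mem_set_normalizer_iff.1 (hui i) f).1 f.2)⟩
        have huo : orderOf (u ^ i) = p := by
          rw [Nat.Coprime.orderOf_pow, ho]
          rw [ho]
          exact (Nat.Prime.coprime_iff_not_dvd S.hp).2
            (fun h => absurd (Nat.le_of_dvd hi h) (by omega))
        have hinj : Function.Injective σ := by
          intro f f' h
          have h' : (f : G)⁻¹ * (u ^ i * f * (u ^ i)⁻¹) = (f' : G)⁻¹ * (u ^ i * f' * (u ^ i)⁻¹) :=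
            congrArg Subtype.val h
          have hdQ : (f' : G) * (f : G)⁻¹ ∈ (Q : Subgroup G) :=
            Subgroup.mul_mem _ f'.2 (Subgroup.inv_mem _ f.2)
          have hd : u ^ i * ((f' : G) * (f : G)⁻¹) * (u ^ i)⁻¹ = (f' : G) * (f : G)⁻¹ := by
            have h5 : (f' : G) * (f : G)⁻¹ * (u ^ i * f * (u ^ i)⁻¹) = u ^ i * f' * (u ^ i)⁻¹ := by
              calc (f' : G) * (f : G)⁻¹ * (u ^ i * f * (u ^ i)⁻¹)
                  = (f' : G) * ((f : G)⁻¹ * (u ^ i * f * (u ^ i)⁻¹)) := by group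
                _ = (f' : G) * ((f' : G)⁻¹ * (u ^ i * f' * (u ^ i)⁻¹)) := by rw [h']
                _ = u ^ i * f' * (u ^ i)⁻¹ := by group
            have h6 := eq_mul_inv_of_mul_eq h5
            calc u ^ i * ((f' : G) * (f : G)⁻¹) * (u ^ i)⁻¹
                = u ^ i * f' * (u ^ i)⁻¹ * (u ^ i * f * (u ^ i)⁻¹)⁻¹ := by group
              _ = (f' : G) * (f : G)⁻¹ := h6.symm
          have hd1 : (f' : G) * (f : G)⁻¹ = 1 := by
            by_contra hne
            have hdo := S.order_of_pgroup (Q : Subgroup G) Q.isPGroup' hdQ hne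
            apply S.hmix (u ^ i) _ huo hdo
            calc u ^ i * ((f' : G) * (f : G)⁻¹)
                = (u ^ i * ((f' : G) * (f : G)⁻¹) * (u ^ i)⁻¹) * u ^ i := by group
              _ = _ := by rw [hd]
          have h7 : (f' : G) = f := by
            rw [mul_inv_eq_one] at hd1
            exact hd1
          exact Subtype.ext h7.symm
        refine ⟨u ^ i, Equiv.ofBijective σ (Finite.injective_iff_bijective.1 hinj), fun f => ?_⟩
        have h8 : ((f : G)⁻¹ * u * f) ^ i = (f : G)⁻¹ * u ^ i * f := by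
          have := conj_pow (a := (f : G)⁻¹) (b := u) (i := i)
          simpa using this
        rw [h8]
        change _ = (f : G)⁻¹ * (u ^ i * f * (u ^ i)⁻¹) * u ^ i
        group
      · intro u'
        have hfix := fixed_subgroup_prod φ (Q : Subgroup G) ⟨y₀, hy₀⟩ u'
        apply Subtype.ext
        exact S.fix_one (Subtype.coe_prop _) hy₀o ((MulAut.conjNormal_apply _ _).symm.trans (congrArg Subtype.val hfix))
    rw [Fintype.card_eq_nat_card, hcard] at key
    have hvq : v ^ q = 1 := by simpa using congrArg Subtype.val key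
    exact hv1 (S.one_of_pow hvV hvq)
  · have hP : IsPGroup q (Subgroup.zpowers u) :=
      IsPGroup.of_card (n := 1) (by rw [Nat.card_zpowers, ho, pow_one])
    have hmem : u ∈ Subgroup.zpowers u ⊓ Subgroup.normalizer (Q : Set G) :=
      ⟨Subgroup.mem_zpowers u, hu⟩
    rw [hP.inf_normalizer_sylow Q] at hmem
    exact huQ hmem.2

open Pointwise in
theorem complement (S : Setup G p q V) (hqG : q ∣ Nat.card G) :
    ∃ C : Subgroup G, Cfsg.IsFrobeniusComplement C ∧ (Nat.card ↥C).Prime := by
  classical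
  haveI := Fact.mk S.hq
  let Q : Sylow q G := default
  have hbot : (Q : Subgroup G) ≠ ⊥ := Q.ne_bot_of_dvd_card hqG
  have hcard : Nat.card (Q : Subgroup G) = q := S.card_eq (Q : Subgroup G) Q.isPGroup' hbot
  obtain ⟨a, ha⟩ := (Subgroup.ne_bot_iff_exists_ne_one).1 hbot
  have ha1 : (a : G) ≠ 1 := fun h => ha (Subtype.ext h)
  have hao : orderOf (a : G) = q := S.order_of_pgroup _ Q.isPGroup' a.2 ha1
  refine ⟨Q, ⟨hbot, ?_, ?_⟩, by rw [hcard]; exact S.hq⟩
  · intro htop
    obtain ⟨v, hvV, hv1⟩ := S.exists_ne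
    have hvo : orderOf v = q := S.order_of_pgroup (Q : Subgroup G) Q.isPGroup' (by rw [htop]; trivial) hv1
    haveI := Fact.mk S.hp
    have hvp : orderOf v = p := orderOf_eq_prime (S.hVp v hvV) hv1
    exact S.hpq (hvp.symm.trans hvo)
  · intro g hg
    rw [eq_bot_iff]
    rintro x ⟨hx1, hx2⟩
    rw [Subgroup.mem_bot]
    by_contra hx
    have hxo : orderOf x = q := S.order_of_pgroup _ Q.isPGroup' hx1 hx
    have heq : Subgroup.zpowers x = (Q : Subgroup G) :=
      Subgroup.eq_of_le_of_card_ge ((Subgroup.zpowers_le).2 hx1)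
        (by rw [hcard, Nat.card_zpowers, hxo])
    have hle : (Q : Subgroup G) ≤ MulAut.conj g • (Q : Subgroup G) := by
      have hx3 : x ∈ MulAut.conj g • (Q : Subgroup G) := hx2
      have h9 := (Subgroup.zpowers_le).2 hx3
      rwa [heq] at h9
    have hcc : Nat.card (MulAut.conj g • (Q : Subgroup G) : Subgroup G) =
        Nat.card (Q : Subgroup G) := by
      rw [Subgroup.pointwise_smul_def]
      exact Subgroup.card_map_of_injective (MulAut.conj g).injective
    have heq2 : (Q : Subgroup G) = MulAut.conj g • (Q : Subgroup G) :=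
      Subgroup.eq_of_le_of_card_ge hle (by rw [hcc])
    apply hg
    apply S.norm_le Q hcard a.2 hao
    rw [Subgroup.mem_set_normalizer_iff]
    intro h
    constructor
    · intro hh
      have := Subgroup.smul_mem_pointwise_smul h (MulAut.conj g) (Q : Subgroup G) hh
      rw [← heq2] at this
      exact this
    · intro hh
      have h1 : (MulAut.conj g) • h ∈ (Q : Subgroup G) := hh
      rw [heq2] at h1
      exact (Subgroup.smul_mem_pointwise_smul_iff).1 h1

end Setup


/-- An odd-order group has no element other than `1` with a unique element of its order. -/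
theorem nn_ne_one (hodd : Odd (Nat.card G)) (g : G) (hg : orderOf g ≠ 1) : nn G (orderOf g) ≠ 1 := by
  intro h
  unfold nn at h
  haveI := (Nat.card_eq_one_iff_unique.1 h).1
  have h1 : (⟨g⁻¹, orderOf_inv g⟩ : {x : G // orderOf x = orderOf g}) = ⟨g, rfl⟩ :=
    Subsingleton.elim _ _
  have h2 : g⁻¹ = g := congrArg Subtype.val h1
  have h3 : g ^ 2 = 1 := by
    rw [pow_two]
    nth_rewrite 1 [← h2]
    exact inv_mul_cancel g
  have h4 := orderOf_dvd_of_pow_eq_one h3
  have h5 : orderOf g ∣ Nat.card G := orderOf_dvd_natCard g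
  have h6 : orderOf g ∣ 1 := by
    have := Nat.dvd_gcd h4 h5
    have hc : Nat.gcd 2 (Nat.card G) = 1 :=
      (Nat.coprime_two_left.2 hodd)
    rwa [hc] at this
  exact hg (Nat.dvd_one.1 h6)

theorem exponent_eq {r : ℕ} [Fact r.Prime] (P : Sylow r G) (hrG : r ∣ Nat.card G)
    (hone : ∀ g : G, r ∣ orderOf g → orderOf g = r) :
    Monoid.exponent (P : Subgroup G) = r := by
  have hr : r.Prime := Fact.out
  have hpow : ∀ x : (P : Subgroup G), x ^ r = 1 := by
    intro x
    by_cases hx : (x : G) = 1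
    · have : x = 1 := Subtype.ext hx
      rw [this, one_pow]
    · obtain ⟨k, hk⟩ := P.isPGroup' x
      have hk' : (x : G) ^ r ^ k = 1 := by simpa using congrArg Subtype.val hk
      have h1 := orderOf_dvd_of_pow_eq_one hk'
      obtain ⟨j, -, hj⟩ := (Nat.dvd_prime_pow hr).1 h1
      have hj0 : j ≠ 0 := by
        rintro rfl
        apply hx
        rw [pow_zero] at hj
        exact orderOf_eq_one_iff.1 hj
      have hdv : r ∣ orderOf (x : G) := by
        rw [hj]
        exact dvd_pow_self r hj0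
      have h2 := hone _ hdv
      apply Subtype.ext
      have h3 := pow_orderOf_eq_one (x : G)
      rw [h2] at h3
      simpa using h3
  have hdvd : Monoid.exponent (P : Subgroup G) ∣ r := Monoid.exponent_dvd_of_forall_pow_eq_one hpow
  rcases (Nat.dvd_prime hr).1 hdvd with h | h
  · exfalso
    have hs := Monoid.exp_eq_one_iff.1 h
    have hb : (P : Subgroup G) ≠ ⊥ := P.ne_bot_of_dvd_card hrG
    apply hb
    exact Subgroup.eq_bot_of_subsingleton _
  · exact h

/-- A nontrivial solvable group has a nontrivial abelian normal subgroup. -/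
theorem exists_abelian_normal_of_solvable [Nontrivial G] [Group.IsSolvable G] :
    ∃ A : Subgroup G, A.Normal ∧ A ≠ ⊥ ∧ ∀ a ∈ A, ∀ b ∈ A, a * b = b * a := by
  classical
  have hex : ∃ n, derivedSeries G n = ⊥ := Group.IsSolvable.solvable
  let n := Nat.find hex
  have hn : derivedSeries G n = ⊥ := Nat.find_spec hex
  have hn0 : n ≠ 0 := by
    intro h0
    rw [h0, derivedSeries_zero] at hn
    exact top_ne_bot hn
  obtain ⟨m, hm⟩ : ∃ m, n = m + 1 := ⟨n - 1, by omega⟩
  refine ⟨derivedSeries G m, derivedSeries_normal G m, ?_, ?_⟩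
  · exact Nat.find_min hex (by omega)
  · intro a ha b hb
    rw [hm, derivedSeries_succ] at hn
    have h1 := Subgroup.commutator_mem_commutator ha hb
    rw [hn, Subgroup.mem_bot] at h1
    exact commutatorElement_eq_one_iff_mul_comm.1 h1

/-- The main theorem of this file. -/
theorem main (hodd : Odd (Nat.card G))
    (h : (((fun m : ℕ => Nat.card {g : G // orderOf g = m}) '' Set.range (orderOf : G → ℕ))).ncard = 3) :
    (Nat.card G).primeFactors.card ≤ 2 ∧
      ((Nat.card G).primeFactors.card = 2 →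
        (∀ (p : ℕ) [Fact p.Prime] (P : Sylow p G), p ∣ Nat.card G →
          Monoid.exponent ↥(P : Subgroup G) = p) ∧
        ∃ C : Subgroup G, Cfsg.IsFrobeniusComplement C ∧ (Nat.card ↥C).Prime) := by
  classical
  set S := ((fun m : ℕ => Nat.card {g : G // orderOf g = m}) '' Set.range (orderOf : G → ℕ)) with hS
  have hS1 : (1 : ℕ) ∈ S := ⟨1, ⟨1, orderOf_one⟩, nn_one (G := G)⟩
  obtain ⟨x, y, z, hxy, hxz, hyz, hSeq⟩ := Set.ncard_eq_three.1 h
  obtain ⟨a, b, hab, hvals⟩ : ∃ a b : ℕ, a ≠ b ∧ S = {1, a, b} := by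
    rw [hSeq] at hS1
    simp only [Set.mem_insert_iff, Set.mem_singleton_iff] at hS1
    rcases hS1 with rfl | rfl | rfl
    · exact ⟨y, z, hyz, hSeq⟩
    · exact ⟨x, z, hxz, by rw [hSeq]; ext t; simp only [Set.mem_insert_iff, Set.mem_singleton_iff]; tauto⟩
    · exact ⟨x, y, hxy, by rw [hSeq]; ext t; simp only [Set.mem_insert_iff, Set.mem_singleton_iff]; tauto⟩
  have hv : TwoVals G a b := by
    intro g hg
    have hmem : nn G (orderOf g) ∈ S := ⟨orderOf g, ⟨g, rfl⟩, rfl⟩
    rw [hvals] at hmem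
    simp only [Set.mem_insert_iff, Set.mem_singleton_iff] at hmem
    rcases hmem with h1 | h1 | h1
    · exact absurd h1 (nn_ne_one hodd g hg)
    · exact Or.inl h1
    · exact Or.inr h1
  have hmem : ∀ r ∈ (Nat.card G).primeFactors, r.Prime ∧ r ∣ Nat.card G := fun r hr =>
    ⟨Nat.prime_of_mem_primeFactors hr, Nat.dvd_of_mem_primeFactors hr⟩
  refine ⟨?_, ?_⟩
  · have hle : (Nat.card G).primeFactors.card ≤ ({a, b} : Finset ℕ).card := by
      apply Finset.card_le_card_of_injOn (nn G)
      · intro r hr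
        obtain ⟨hr1, hr2⟩ := hmem r hr
        obtain ⟨t, ht⟩ := exists_order (G := G) hr1 hr2
        have h1 := hv t (by rw [ht]; exact hr1.one_lt.ne')
        rw [ht] at h1
        simp only [Finset.coe_insert, Finset.coe_singleton, Set.mem_insert_iff, Set.mem_singleton_iff]
        exact h1
      · intro r hr s hs hrs
        by_contra hne
        obtain ⟨hr1, hr2⟩ := hmem r hr
        obtain ⟨hs1, hs2⟩ := hmem s hs
        exact nn_ne hodd hv hr1 hs1 hne hr2 hs2 hrs
    exact hle.trans Finset.card_le_two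
  · intro h2
    obtain ⟨p, q, hpq, hpf⟩ := Finset.card_eq_two.1 h2
    have hpm : p ∈ (Nat.card G).primeFactors := by rw [hpf]; simp
    have hqm : q ∈ (Nat.card G).primeFactors := by rw [hpf]; simp
    obtain ⟨hp, hpG⟩ := hmem p hpm
    obtain ⟨hq, hqG⟩ := hmem q hqm
    have hfac : ∀ r : ℕ, r.Prime → r ∣ Nat.card G → r = p ∨ r = q := by
      intro r hr hrG
      have : r ∈ (Nat.card G).primeFactors :=
        Nat.mem_primeFactors.2 ⟨hr, hrG, Nat.card_pos.ne'⟩
      rw [hpf] at this
      simpa using this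
    have hfac' : ∀ r : ℕ, r.Prime → r ∣ Nat.card G → r = q ∨ r = p := fun r hr hrG =>
      (hfac r hr hrG).symm
    have hone_p : ∀ g : G, p ∣ orderOf g → orderOf g = p :=
      eq_of_dvd hodd hv hp hq hpq hpG hqG hfac
    have hone_q : ∀ g : G, q ∣ orderOf g → orderOf g = q :=
      eq_of_dvd hodd hv hq hp hpq.symm hqG hpG hfac'
    have hord : ∀ g : G, orderOf g = 1 ∨ orderOf g = p ∨ orderOf g = q := by
      intro g
      by_cases h1 : orderOf g = 1
      · exact Or.inl h1
      · obtain ⟨r, hr, hrg⟩ := Nat.exists_prime_and_dvd h1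
        rcases hfac r hr (hrg.trans (orderOf_dvd_natCard g)) with rfl | rfl
        · exact Or.inr (Or.inl (hone_p g hrg))
        · exact Or.inr (Or.inr (hone_q g hrg))
    have hne := nn_ne hodd hv hp hq hpq hpG hqG
    have hmix : ∀ x y : G, orderOf x = p → orderOf y = q → x * y ≠ y * x :=
      fun x y hx hy hc => no_commuting hodd hv hp hq hpq hne hx hy hc
    refine ⟨?_, ?_⟩
    · intro r _ P hrG
      rcases hfac r Fact.out hrG with rfl | rfl
      · exact exponent_eq P hrG hone_p
      · exact exponent_eq P hrG hone_q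
    · have hcard : Nat.card G = p ^ (Nat.card G).factorization p * q ^ (Nat.card G).factorization q := by
        have h3 := Nat.factorization_prod_pow_eq_self (n := Nat.card G) Nat.card_pos.ne'
        rw [Finsupp.prod, Nat.support_factorization, hpf, Finset.prod_pair hpq] at h3
        exact h3.symm
      haveI : Group.IsSolvable G := Cfsg.Agent.Lib.Char.isSolvable_of_card p q _ _ hp hq hcard
      haveI : Nontrivial G := by
        obtain ⟨t, ht⟩ := exists_order (G := G) hp hpG
        refine ⟨t, 1, fun h0 => ?_⟩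
        rw [h0, orderOf_one] at ht
        exact hp.one_lt.ne ht
      obtain ⟨A, hAn, hA1, hAc⟩ := exists_abelian_normal_of_solvable (G := G)
      obtain ⟨v, hv1⟩ := (Subgroup.ne_bot_iff_exists_ne_one).1 hA1
      have hv1' : (v : G) ≠ 1 := fun h0 => hv1 (Subtype.ext h0)
      rcases hord (v : G) with ho | ho | ho
      · exact absurd (orderOf_eq_one_iff.1 ho) hv1'
      · have hVp : ∀ w ∈ A, w ^ p = 1 := by
          intro w hw
          rcases hord w with h3 | h3 | h3
          · rw [orderOf_eq_one_iff.1 h3, one_pow]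
          · rw [← h3]
            exact pow_orderOf_eq_one w
          · exact absurd (hAc _ v.2 _ hw) (hmix _ _ ho h3)
        exact (Setup.mk hp hq hpq hord hmix hAn hAc hA1 hVp).complement hqG
      · have hVq : ∀ w ∈ A, w ^ q = 1 := by
          intro w hw
          rcases hord w with h3 | h3 | h3
          · rw [orderOf_eq_one_iff.1 h3, one_pow]
          · exact absurd (hAc _ hw _ v.2) (hmix _ _ h3 ho)
          · rw [← h3]
            exact pow_orderOf_eq_one w
        have hord' : ∀ g : G, orderOf g = 1 ∨ orderOf g = q ∨ orderOf g = p := by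
          intro g
          rcases hord g with h3 | h3 | h3
          · exact Or.inl h3
          · exact Or.inr (Or.inr h3)
          · exact Or.inr (Or.inl h3)
        have hmix' : ∀ x y : G, orderOf x = q → orderOf y = p → x * y ≠ y * x :=
          fun x y hx hy hc => hmix y x hy hx hc.symm
        exact (Setup.mk hq hp hpq.symm hord' hmix' hAn hAc hA1 hVq).complement hpG

end Cfsg.Agent.Lib.PGroup.ThreeSizes
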